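import Cfsg.Agent.H04.N8b
import Cfsg.Agent.H04.U14a
import Cfsg.Agent.H02.Suz6
import Cfsg.Agent.H17.OpMod

/-! 2-constrained groups of sectional rank at most 4 involving `A₅`: the case of a moved elementary abelian subgroup. -/

set_option autoImplicit false
open Cfsg BG Subgroup H02.Hig
open scoped commutatorElement

local notation "#" => Nat.card

namespace H04.A5

variable {X : Type*} [Group X] [Finite X]

theorem md {p : ℕ} (hp : p.Prime) {g : X} (hg : g ^ p = 1) (E : Subgroup X) [h : E.Normal] :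
    # E ≡ # (E ⊓ C_[g] : Subgroup X) [MOD p] :=
  (H02.Suz.card_modEq_fix hp hg (T := E) fun y hy => h.conj_mem y hy g).trans (congrArg (· % p)
    (Nat.card_congr (Equiv.subtypeEquivRight fun x => and_congr Iff.rfl mem_centralizer_singleton_iff.symm)))

theorem five (hr : PRankLE 2 4 X) {f : X} (hf : f ^ 5 = 1) {E : Subgroup X} [E.Normal] (hE : IsElementaryAbelian 2 E)
    (h : ¬ E ≤ C_[f]) : # E = 16 ∧ E ⊓ C_[f] = ⊥ := by
  have a := md Nat.prime_five hf E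
  obtain ⟨n, hn⟩ := IsPGroup.iff_card.1 (IsElementaryAbelian.isPGroup hE)
  obtain ⟨m, hm⟩ := IsPGroup.iff_card.1 ((IsElementaryAbelian.isPGroup hE).to_le (inf_le_left : E ⊓ C_[f] ≤ E))
  have b := pRankLE_iff'.1 hr E hE
  have c := card_lt_of_lt (lt_of_le_of_ne (inf_le_left : E ⊓ C_[f] ≤ E) (mt inf_eq_left.1 h))
  rw [← Subgroup.card_eq_one, hn, hm]
  rw [hn, hm] at a c
  rw [hn, Nat.pow_le_pow_iff_right Nat.one_lt_two] at b
  rw [Nat.pow_lt_pow_iff_right Nat.one_lt_two] at c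
  interval_cases n <;> interval_cases m <;> simp_all [Nat.ModEq]

theorem surj {A : Subgroup X} [h : A.Normal] {f : X} (hf : A ⊓ C_[f] = ⊥) {y : X} (hy : y ∈ A) : ∃ x ∈ A, x⁻¹ * (f⁻¹ * x * f) = y := by
  obtain ⟨x, e⟩ := Finite.injective_iff_surjective.1 (show Function.Injective fun x : A =>
    (⟨_, mul_mem (inv_mem x.2) (h.conj_mem' _ x.2 f)⟩ : A) from fun u v e => by
      have e : (u : X)⁻¹ * (f⁻¹ * u * f) = (v : X)⁻¹ * (f⁻¹ * v * f) := congrArg Subtype.val e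
      refine Subtype.ext (mul_inv_eq_one.1 (mem_bot.1 (hf.le ⟨A.mul_mem u.2 (inv_mem v.2), mem_centralizer_singleton_iff.2 ?_⟩)))
      calc _ = f * u * ((u : X)⁻¹ * (f⁻¹ * u * f)) * f⁻¹ * (v : X)⁻¹ * f := by group
        _ = _ := by rw [e]; group) ⟨y, hy⟩
  exact ⟨x, x.2, congrArg Subtype.val e⟩

theorem card_comap (N : Subgroup X) [N.Normal] (K : Subgroup (X ⧸ N)) : # (K.comap (QuotientGroup.mk' N)) = # N * # K :=
  QuotientGroup.card_preimage_mk N (K : Set (X ⧸ N))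

theorem hc {G : Type*} [Group G] {t y : G} (ht : t * t = 1) (h : ⁅t, y⁆ ^ 2 = 1) : ⁅t, y⁆ ∈ C_[t] := by
  have a : t * ⁅t, y⁆ * t⁻¹ = ⁅t, y⁆⁻¹ := by
    calc _ = t * t * (y * t⁻¹ * y⁻¹ * t⁻¹) := by rw [commutatorElement_def]; group
      _ = _ := by rw [ht, one_mul, commutatorElement_inv, commutatorElement_def, inv_eq_of_mul_eq_one_right ht]
  rw [inv_eq_of_mul_eq_one_right ((pow_two _).symm.trans h)] at a
  exact mem_centralizer_singleton_iff.2 (mul_inv_eq_iff_eq_mul.1 a).symm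

theorem case1 (hr : SectionalPRankLE 2 4 X) {Q : Subgroup X} [hQ : Q.Normal] (pg : IsPGroup 2 Q) {f τ : X} (hf : f ^ 5 = 1) (f1 : f ∉ Q)
    (t1 : τ * f * τ⁻¹ * f ∈ Q) (t2 : τ * τ ∈ Q) {E : Subgroup X} [hn : E.Normal] (hE : IsElementaryAbelian 2 E) (le : E ≤ Q)
    (h : ¬ E ≤ C_[f]) : Q = E ∧ # E = 16 := by
  obtain ⟨e1, e2⟩ := five (pRankLE_of_sectional hr) hf hE h
  refine ⟨by_contra fun ne => ?_, e1⟩
  have e3 : E ≤ C_(Q) := by
    obtain ⟨x, x1, x2, -, x3⟩ := exists_central_step' pg le le_norm_bot (H01.le_normalizer_of_normal _ _) (mt le_bot_iff.1 fun a => h (a ▸ bot_le))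
    refine inf_eq_left.1 (eq_of_le_of_card_le inf_le_left (e1.trans (five (pRankLE_of_sectional hr) hf
      (IsElementaryAbelian.of_le hE inf_le_left) fun a => x2 (e2.le ⟨x1, a ⟨x1, fun g hg => ?_⟩⟩)).1.symm).le)
    exact (commutatorElement_eq_one_iff_mul_comm.1 (x3 g hg)).symm
  have e4 : ∀ t ∈ Q, t * t = 1 → t ∈ E := fun t ht h2 => by_contra fun c => by
    have := pRankLE_iff'.1 (pRankLE_of_sectional hr) _ (IsElementaryAbelian.sup_zpowers hE (pow_two t ▸ h2) fun v hv => (e3 hv t ht).symm)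
    rw [card_sup_zpowers (p := 2) _ (H01.le_normalizer_of_normal ⊤ _ trivial) c (by rw [pow_two, h2]; exact one_mem _)] at this
    omega
  have e5 : Q ⊓ C_[f] = ⊥ := eq_bot_iff.2 fun y hy => by_contra fun c => by
    obtain ⟨n, a, b⟩ := exists_pow_notMem_pow_mem pg ⊥ (x := ⟨y, hy.1⟩) fun d => c (congrArg Subtype.val (mem_bot.1 d))
    exact a (Subtype.ext (e2.le ⟨e4 _ (pow_mem hy.1 _) (pow_two (M := X) _ ▸ congrArg Subtype.val (mem_bot.1 b)), pow_mem hy.2 _⟩))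
  have f4 : ∀ H : Subgroup X, f * f ∈ H → f ∈ H := fun H a => by
    rw [show f = (f * f) ^ 3 by rw [← pow_two, ← pow_mul, pow_succ, hf, one_mul]]; exact pow_mem a 3
  have ff : ∀ t, t * f * t⁻¹ = f⁻¹ → f * f = f * t * f⁻¹ * t⁻¹ := fun t s => by
    rw [mul_assoc, mul_assoc, ← mul_assoc t, show t * f⁻¹ * t⁻¹ = (t * f * t⁻¹)⁻¹ by group, s, inv_inv]
  obtain ⟨t, s1, s2, s3⟩ : ∃ t, t * f * t⁻¹ = f⁻¹ ∧ t * t = 1 ∧ t ∉ Q := by
    obtain ⟨x, x1, x2⟩ := surj e5 t1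
    have s : x * τ * f * (x * τ)⁻¹ = f⁻¹ := by
      calc _ = x * (τ * f * τ⁻¹ * f) * f⁻¹ * x⁻¹ := by group
        _ = _ := by rw [← x2]; group
    refine ⟨_, s, mem_bot.1 (e5.le ⟨?_, mem_centralizer_singleton_iff.2 (mul_inv_eq_iff_eq_mul.1 ?_)⟩), fun c => f1 (f4 Q ?_)⟩
    · rw [show x * τ * (x * τ) = x * (τ * x * τ⁻¹) * (τ * τ) by group]
      exact mul_mem (mul_mem x1 (hQ.conj_mem x x1 τ)) t2
    · generalize x * τ = u at s
      calc _ = u * (u * f * u⁻¹) * u⁻¹ := by group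
        _ = u * f⁻¹ * u⁻¹ := by rw [s]
        _ = (u * f * u⁻¹)⁻¹ := by group
        _ = f := by rw [s, inv_inv]
    · exact ff _ s ▸ mul_mem (hQ.conj_mem _ c f) (inv_mem c)
  have n4 : # (E ⊓ C_[t] : Subgroup X) * # (E ⊓ C_[t] : Subgroup X) ≤ 16 := by
    rw [← Nat.card_prod, ← e1]
    refine Nat.card_le_card_of_injective (fun a => ⟨a.1 * (f * a.2 * f⁻¹), mul_mem a.1.2.1 (hn.conj_mem _ a.2.2.1 f)⟩) ?_
    rintro ⟨⟨a, ha⟩, b, hb⟩ ⟨⟨c, hc⟩, d, hd⟩ e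
    replace e : a * (f * b * f⁻¹) = c * (f * d * f⁻¹) := congrArg Subtype.val e
    have m := mul_mem (inv_mem hc) ha
    have m' := mul_mem hd (inv_mem hb)
    have e' : c⁻¹ * a = f * (d * b⁻¹) * f⁻¹ := by rw [← mul_inv_eq_iff_eq_mul.2 e]; group
    have : c⁻¹ * a = 1 := mem_bot.1 (e2.le ⟨m.1, mem_centralizer_singleton_iff.2 (mem_centralizer_singleton_iff.1 (f4 C_[c⁻¹ * a] ?_)).symm⟩)
    · obtain rfl := inv_mul_eq_one.1 this
      obtain rfl : b = d := by simpa using e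
      rfl
    rw [ff t s1]
    refine mul_mem (mem_centralizer_singleton_iff.2 ?_) (inv_mem (mem_centralizer_singleton_iff.2 (mem_centralizer_singleton_iff.1 m.2).symm))
    calc _ = f * (t * (d * b⁻¹)) * f⁻¹ := by rw [e']; group
      _ = _ := by rw [← mem_centralizer_singleton_iff.1 m'.2, e']; group
  obtain ⟨π, hπ⟩ : ∃ π, π = QuotientGroup.mk' E := ⟨_, rfl⟩
  have sf : Function.Surjective π := hπ ▸ QuotientGroup.mk'_surjective E
  have k : ∀ x, π x = 1 ↔ x ∈ E := fun x => hπ ▸ QuotientGroup.eq_one_iff x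
  have := hQ.map π sf
  have ab : IsMulCommutative ↥(Q.map π ⊓ C_(Q.map π)) := isMulCommutative_iff'.2 fun x hx y hy => hy.2 x hx.1
  obtain ⟨F, hF⟩ : ∃ F, F = omegaOne 2 (Q.map π ⊓ C_(Q.map π)) := ⟨_, rfl⟩
  have mF : ∀ x, x ∈ F ↔ x ∈ Q.map π ⊓ C_(Q.map π) ∧ x ^ 2 = 1 := fun x => hF ▸ mem_omegaOne_iff_of_comm ab
  have : F.Normal := ⟨fun x hx g => (mF _).2 ⟨Normal.conj_mem inferInstance x ((mF x).1 hx).1 g, by rw [conj_pow, ((mF x).1 hx).2]; simp⟩⟩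
  have mF' : ∀ x, π x ∈ F → x ∈ Q ∧ x * x ∈ E := fun x hx => ⟨by
    have : π x ∈ Q.map π := ((mF _).1 hx).1.1
    rwa [← mem_comap, comap_map_eq_self (fun y hy => le ((k y).1 hy))] at this, (k _).1 (by rw [map_mul, ← pow_two, ((mF _).1 hx).2])⟩
  have sq : ∀ x g, π x ∈ F ⊓ C_[π g] → ⁅g, x⁆ ∈ E ∧ x * x ∈ E ⊓ C_[g] := fun x g hx => by
    have a : ⁅g, x⁆ ∈ E := (k _).1 (by
      rw [map_commutatorElement, commutatorElement_eq_one_iff_mul_comm, mem_centralizer_singleton_iff.1 hx.2])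
    refine ⟨a, (mF' x hx.1).2, mem_centralizer_singleton_iff.2 (mul_inv_eq_iff_eq_mul.1 ?_).symm⟩
    calc _ = ⁅g, x⁆ * (x * ⁅g, x⁆) * x := by rw [commutatorElement_def]; group
      _ = _ := by rw [e3 a x (mF' x hx.1).1, ← mul_assoc, ← pow_two, hE.2 _ a, one_mul]
  obtain ⟨c1, -⟩ := five (pRankLE_of_sectional (sectional_of_surjective hr π sf)) (f := π f) (by rw [← map_pow, hf, map_one])
    (hF ▸ isElementaryAbelian_omegaOne_of_comm ab : IsElementaryAbelian 2 F) fun c => by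
      obtain ⟨_, ⟨x, x1, rfl⟩, x2, x3, x4⟩ := exists_central_step' (pg.map π) le_rfl le_norm_bot (le_norm _) fun a =>
        ne (le_antisymm (fun y hy => (k y).1 (a (mem_map_of_mem π hy))) le)
      have m := (mF _).2 ⟨⟨mem_map_of_mem π x1, fun g hg => (commutatorElement_eq_one_iff_mul_comm.1 (x4 g hg)).symm⟩, x3⟩
      exact x2 ((k x).2 (e4 x x1 (e2.le (sq x f ⟨m, c m⟩).2)))
  have c2 := relIndex_centralizer_le (x := π t) (D := F) (N := F ⊓ C_[π t]) fun y hy =>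
    have m : ⁅π t, y⁆ ∈ F := mul_mem (Normal.conj_mem ‹_› y hy _) (inv_mem hy)
    ⟨m, hc (by rw [← map_mul, s2, map_one]) ((mF _).1 m).2⟩
  have c3 := card_inf_mul_relIndex C_[π t] F
  rw [inf_comm, c1] at c3
  have c4 := card_comap E (F ⊓ C_[π t])
  rw [← hπ, e1] at c4
  obtain ⟨K, hK⟩ : ∃ K, K = (F ⊓ C_[π t]).comap π := ⟨_, rfl⟩
  have mK : ∀ x, x ∈ K ↔ π x ∈ F ⊓ C_[π t] := fun x => hK ▸ Iff.rfl
  have nK : t ∈ N_(K) := mem_normalizer_fintype fun x hx => (mK _).2 (by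
    rw [map_mul, map_mul, map_inv, ← mem_centralizer_singleton_iff.1 ((mK _).1 hx).2, mul_inv_cancel_right]; exact (mK _).1 hx)
  have sK : ∀ y ∈ K ⊔ zpowers t, y * y ∈ E ⊓ C_[t] := fun y hy => (N8.cas nK (s2 ▸ one_mem K) hy).elim (fun a => (sq y t ((mK _).1 a)).2) fun a => by
    obtain ⟨a1, -⟩ := sq _ t ((mK _).1 (inv_mem a))
    rw [show y * y = y * (t * t) * y by rw [s2, mul_one], show y * (t * t) * y = y * t * (y * t) * ⁅t, (y * t)⁻¹⁆⁻¹ by
      rw [commutatorElement_def]; group]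
    exact mul_mem (sq _ t ((mK _).1 a)).2 (inv_mem ⟨a1, hc s2 (hE.2 _ a1)⟩)
  have le' : E ⊓ C_[t] ≤ K ⊔ zpowers t := fun x hx => mem_sup_left ((mK _).2 ((k x).2 hx.1 ▸ one_mem _))
  have c5 := sectional_iff.1 hr _ _ le' (commutator_le.2 fun _ a _ b => comm_mem_of_sq sK a b) fun x hx => pow_two x ▸ sK x hx
  have c6 := H01.card_mul_relIndex le'
  rw [card_sup_zpowers (p := 2) _ nK (fun a => s3 (mF' t ((mK _).1 a).1).1) (by rw [pow_two, s2]; exact one_mem _), hK, c4] at c6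
  rw [hK] at c5
  have : 4 ≤ # (F ⊓ C_[π t] : Subgroup _) := by nlinarith
  have : # (E ⊓ C_[t] : Subgroup X) ≤ 4 := by nlinarith
  nlinarith

end H04.A5
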