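import Cfsg.Agent.H04.A5a
import Cfsg.Agent.H04.Quat2
import Cfsg.Agent.H17.Constr

/-! 2-constrained groups of sectional rank at most 4 involving `A₅` (S3106). -/

set_option autoImplicit false
open Cfsg BG Subgroup H02.Hig
open scoped commutatorElement

local notation "#" => Nat.card

namespace H04.A5
open N8

theorem sp0 {G : Type*} [Group G] [Finite G] (pg : IsPGroup 2 G) {φ : MulAut G} (ho : Odd (orderOf φ))
    (top : ∀ K : Subgroup G, (∀ x, x⁻¹ * φ x ∈ K) → K = ⊤)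
    (hfix : ∀ (B : Subgroup G) [B.Characteristic], IsElementaryAbelian 2 B → ∀ b ∈ B, φ b = b) (g : G) : g * g ∈ V G := by
  have a : ∀ (B : Subgroup G) [B.Characteristic], IsMulCommutative B → ∀ b ∈ B, φ b = b := fun B _ hB b hb =>
    have := omegaOne_characteristic (p := 2) B
    fixab pg ho hB (fun b hb h2 => hfix _ (isElementaryAbelian_omegaOne_of_comm hB) b (mem_omegaOne hb (pow_two b ▸ h2))) hb
  have := inf_characteristic (Om (center G)) C_(Om (center G))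
  have s : ∀ g : G, g * g ∈ center G := fun g => by
    by_contra c
    obtain ⟨y, y1, y2, c, d⟩ := exists_central_step pg (center G) C_(Om (center G)) fun e => c (e (sqc le_rfl g))
    have m : y ∈ Om (center G) ⊓ C_(Om (center G)) := ⟨⟨d, pow_two y ▸ c⟩, y1⟩
    have f := a (Om (center G) ⊓ C_(Om (center G))) (isMulCommutative_iff'.2 fun x hx y hy => hy.2 x hx.1)
    refine y2 (mem_center_iff.2 fun g => mem_centralizer_singleton_iff.1 ((top C_[y] fun x =>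
      mem_centralizer_singleton_iff.2 ?_).ge (mem_top g)))
    have := f _ (Normal.conj_mem inferInstance y m x)
    rw [map_mul, map_mul, map_inv, f y m] at this
    calc _ = x⁻¹ * (φ x * y * (φ x)⁻¹) * φ x := by group
      _ = _ := by rw [this]; group
  let T : G →* G := MonoidHom.mk' (fun x => x * x * (x * x)) fun x y => by
    have c := cv s x⁻¹ y
    rw [show x * y * (x * y) = x * x * ⁅x⁻¹, y⁆ * (y * y) by rw [commutatorElement_def]; group, ← vc c]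
    calc _ = ⁅x⁻¹, y⁆ * (x * x * (y * y) * ⁅x⁻¹, y⁆) * (x * x) * (y * y) := by group
      _ = _ := by rw [← vc c, ← mul_assoc ⁅x⁻¹, y⁆, vv c, one_mul, mul_assoc (x * x) (y * y), ← mem_center_iff.1 (s y)]; group
  refine mem_V (s g) ((top T.ker fun x => ?_).ge (mem_top g))
  rw [MonoidHom.mem_ker, map_mul, map_inv, inv_mul_eq_one, MonoidHom.mk'_apply, ← map_mul φ, a _ inferInstance _ (s x)]

theorem fin {G : Type*} [Group G] [Finite G] {z : G} (h : AES 2 ⊤ z) (hc : ⊤ ⊓ C_((⊤ : Subgroup G)) ≤ zpowers z) (c : # G = 32)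
    (s : sqCount ⊤ (1 : G) = 12) : ∃ A B : Subgroup G, Nonempty (A ≃* QuaternionGroup 2) ∧ Nonempty (B ≃* DihedralGroup 4) ∧
      (∀ a ∈ A, ∀ b ∈ B, a * b = b * a) ∧ A ⊔ B = ⊤ ∧ A ⊓ B = center G := by
  obtain ⟨x, -, y, -, x2, y2, n⟩ := h.exists_sq_eq_one hc (by omega)
  have c1 := h.card_eq_spl trivial trivial n
  have c2 := h.sqCount_spl_of_sq trivial trivial n x2
  have c3 := h.center_spl trivial trivial n
  have c4 := h.mul_sq trivial trivial n
  rw [card_top] at c1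
  rw [x2, y2, one_mul, one_mul] at c4
  have cm : closure {x * y, x} ≤ C_(spl ⊤ x y) := (closure_le _).2 (by
    rintro _ (rfl | rfl); exacts [mul_mem (left_mem_cent_spl _ _ _) (right_mem_cent_spl _ _ _), left_mem_cent_spl _ _ _])
  have m1 : x ∈ closure {x * y, x} := subset_closure (.inr rfl)
  have m2 : x * y ∈ closure {x * y, x} := subset_closure (.inl rfl)
  have sup : spl ⊤ x y ⊔ closure {x * y, x} = ⊤ := eq_top_iff.2 ((h.spl_sup trivial trivial n).ge.trans (sup_le (sup_le le_sup_left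
    (zpowers_le.2 (mem_sup_right m1))) (zpowers_le.2 (mem_sup_right ((mul_mem_cancel_left m1).1 m2)))))
  refine ⟨spl ⊤ x y, closure {x * y, x}, ?_, H08.nonempty_closure_equiv_dihedral four_ne_zero (orderOf_eq_prime_pow (p := 2) (n := 1)
    (by rw [pow_one, c4]; exact h.ne_one) (by rw [pow_succ, pow_one, pow_mul, c4, pow_two, h.mul_self])) (pow_two x ▸ x2) ?_ ?_,
    fun a ha b hb => cm hb a ha, sup, le_antisymm (fun u hu => inf_cent_top.le ⟨trivial, sup ▸ ?_⟩) fun u hu => ⟨center_le_spl (mem_top x) (mem_top y)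
      (inf_cent_top.ge hu), zpowers_le.2 (c4 ▸ pow_mem m2 2) (hc (inf_cent_top.ge hu))⟩⟩
  · obtain ⟨a, b, d⟩ := isDSQ_of_card_eight (G := spl ⊤ x y) (by omega) fun e => by
      have := card_le_of_le ((le_inf le_rfl (abelian_iff.1 e)).trans (c3.le.trans hc))
      rw [Nat.card_zpowers, h.ord] at this
      omega
    rcases d.rel with r | r | r
    · have a' := h.spl (mem_top x) (mem_top y)
      have k : ∀ u : spl ⊤ x y, u ^ 2 = 1 → u ≠ 1 → (u : G) = z := fun u h1 h2 => (a'.eq_or (by_contra fun e => a'.ne_one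
        ((a'.sq_eq_of_sqCount_le (by omega) u.2 e).symm.trans (congrArg Subtype.val h1)))).resolve_left fun e => h2 (Subtype.ext e)
      refine absurd ?_ d.notMem
      rw [show b = a ^ 2 from Subtype.ext ((k b r.1 fun e => d.notMem (e ▸ one_mem _)).trans (k _ (by
        rw [← pow_mul]; exact orderOf_dvd_iff_pow_eq_one.1 d.ord.dvd) (d.pow_ne_one (k := 1) le_rfl)).symm)]
      exact pow_mem (mem_zpowers a) 2
    · exact d.iso_quaternion r.1 r.2
    · omega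
  · rw [mul_inv_rev, ← mul_assoc, ← pow_two, x2, one_mul, inv_eq_of_mul_eq_one_right ((pow_two y).symm.trans y2)]
  · rintro ⟨i, e⟩
    have := ((Commute.refl (x * y)).zpow_left i).eq
    rw [show (x * y) ^ i = x from e, mul_assoc] at this
    exact n (mul_left_cancel this)
  · rw [centralizer_sup]
    exact ⟨cm hu.2, fun b hb => (cm hb u hu.1).symm⟩

variable {X : Type*} [Group X] [Finite X]

theorem main (hr : SectionalPRankLE 2 4 X) {Q : Subgroup X} [hQ : Q.Normal] (pg : IsPGroup 2 Q) (hC : C_(Q) ≤ Q) {f τ ρ : X}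
    (hf : f ^ 5 = 1) (f1 : f ∉ Q) (t1 : τ * f * τ⁻¹ * f ∈ Q) (t2 : τ * τ ∈ Q) (r1 : ρ ^ 3 = 1) (r2 : ρ ∉ Q)
    (r3 : ∀ N : Subgroup X, N.Normal → Q ≤ N → f ∈ N → ρ ∈ N) : (IsElementaryAbelian 2 Q ∧ # Q = 16) ∨ (# Q = 32 ∧ ∃ A B : Subgroup Q,
      Nonempty (A ≃* QuaternionGroup 2) ∧ Nonempty (B ≃* DihedralGroup 4) ∧ (∀ a ∈ A, ∀ b ∈ B, a * b = b * a) ∧ A ⊔ B = ⊤ ∧
        A ⊓ B = center Q) := by
  by_cases c : ∃ E : Subgroup X, E.Normal ∧ IsElementaryAbelian 2 E ∧ E ≤ Q ∧ ¬ E ≤ C_[f]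
  · obtain ⟨E, _, e1, e2, e3⟩ := c
    obtain ⟨rfl, e⟩ := case1 hr pg hf f1 t1 t2 e1 e2 e3
    exact .inl ⟨e1, e⟩
  push Not at c
  obtain ⟨P, hP⟩ : ∃ P, P = pw Q 2 := ⟨_, rfl⟩
  have hn : P.Normal := hP ▸ normalizer_eq_top_iff.1 (eq_top_iff.2 fun g _ => norm_pw (H01.le_normalizer_of_normal ⊤ _ trivial) 2)
  have pq : P ≤ Q := hP ▸ H02.Hig.pw_le Q 2
  have sp : ∀ x ∈ Q, x * x ∈ P := fun x hx => hP ▸ sq_mem_pw hx
  obtain ⟨π, hπ⟩ : ∃ π, π = QuotientGroup.mk' P := ⟨_, rfl⟩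
  have sf : Function.Surjective π := hπ ▸ QuotientGroup.mk'_surjective P
  have k : ∀ x, π x = 1 ↔ x ∈ P := fun x => hπ ▸ QuotientGroup.eq_one_iff x
  have := hQ.map π sf
  have nc : ∀ g : X, ∀ p, Odd p → g ^ p = 1 → g ∉ Q → ¬ Q.map π ≤ C_[π g] := fun g p hp h1 h2 a => h2 (hC (H17.mem_centralizer_of_frattini pg
    (H01.le_normalizer_of_normal ⊤ _ trivial) (hp.of_dvd_nat (orderOf_dvd_of_pow_eq_one h1)).coprime_two_right fun x hx => by
      rw [U14.fr_eq pg, ← hP, ← k, map_commutatorElement, commutatorElement_eq_one_iff_mul_comm]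
      exact (mem_centralizer_singleton_iff.1 (a (mem_map_of_mem π hx))).symm))
  have qe : IsElementaryAbelian 2 (Q.map π) := ⟨isMulCommutative_iff'.2 (by
    rintro _ ⟨x, hx, rfl⟩ _ ⟨y, hy, rfl⟩
    rw [← commutatorElement_eq_one_iff_mul_comm, ← map_commutatorElement, k]; exact comm_mem_of_sq sp hx hy), by
    rintro _ ⟨x, hx, rfl⟩; rw [pow_two, ← map_mul, k]; exact sp x hx⟩
  have f5 : π f ^ 5 = 1 := by rw [← map_pow, hf, map_one]
  obtain ⟨q1, q2⟩ := five (pRankLE_of_sectional (sectional_of_surjective hr π sf)) f5 qe (nc f 5 (by decide) hf f1)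
  have pv : ∀ v ∈ P, v ∈ C_(Q) ∧ v * v = 1 := fun v hv => by
    obtain ⟨u, u1, rfl⟩ : v ∈ (V Q).map Q.subtype := (hP.le.trans (pw2_le_iff.2 fun x hx => mem_map.2 ⟨_, sp0 pg (φ := MulAut.conjNormal f⁻¹) ((by decide :
      Odd 5).of_dvd_nat (orderOf_dvd_of_pow_eq_one (by rw [← map_pow, inv_pow, hf, inv_one, map_one]))) (fun K hK => by
        refine frattini_nongenerating (eq_top_iff.2 fun y _ => ?_)
        obtain ⟨_, ⟨x, x1, rfl⟩, e⟩ := surj q2 (mem_map_of_mem π y.2)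
        rw [← mul_inv_cancel_left ((⟨x, x1⟩ : Q)⁻¹ * MulAut.conjNormal f⁻¹ ⟨x, x1⟩) y]
        refine mul_mem (mem_sup_left (hK _)) (mem_sup_right ?_)
        rw [← mem_map_iff_mem Q.subtype_injective, U14.fr_eq pg, ← hP, ← k]
        simp [← e, mul_assoc]) (fun B _ hB b hb => Subtype.ext (by
        have := mem_centralizer_singleton_iff.1 (c _ inferInstance (IsElementaryAbelian.map hB Q.subtype) (map_subtype_le _)
          (mem_map_of_mem _ hb))
        rw [MulAut.conjNormal_apply, inv_inv, mul_assoc]; exact inv_mul_eq_of_eq_mul this)) ⟨x, hx⟩, rfl⟩)) hv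
    exact ⟨fun g hg => congrArg Subtype.val (vc u1 ⟨g, hg⟩).symm, congrArg Subtype.val (vv u1)⟩
  have pf : f ∈ C_(P) := fun v hv => mem_centralizer_singleton_iff.1 (c P hn ⟨isMulCommutative_iff'.2 fun x hx y hy =>
    (pv y hy).1 x (pq hx), fun v hv => pow_two v ▸ (pv v hv).2⟩ pq hv)
  have pr := r3 C_(P) inferInstance (fun x hx v hv => ((pv v hv).1 x hx).symm) pf
  have cq : # Q = # P * 16 := by rw [← H01.card_mul_relIndex pq, ← q1, ← relIndex_ker, hπ, QuotientGroup.ker_mk']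
  let T : X → Set (X ⧸ P) := fun v => {y | y ≠ 1 ∧ ∃ x ∈ Q, π x = y ∧ x * x = v}
  have T1 : ∀ g ∈ C_(P), ∀ v, ∀ y ∈ T v, π g * y * (π g)⁻¹ ∈ T v := by
    rintro g hg _ _ ⟨a, x, x1, rfl, rfl⟩
    exact ⟨by simpa using a, _, hQ.conj_mem x x1 g, by simp, by rw [conj_mul, ← hg _ (sp x x1), mul_inv_cancel_right]⟩
  have T2 : ∀ u v, u ≠ v → Disjoint (T u) (T v) := fun u v h => Set.disjoint_left.2 (by
    rintro _ ⟨-, x, x1, rfl, rfl⟩ ⟨-, y, y1, e, rfl⟩
    have m := pv _ ((k (x⁻¹ * y)).1 (by simp [e]))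
    refine h ?_
    rw [← mul_inv_cancel_left x y, mul_assoc, ← mul_assoc (x⁻¹ * y), ← m.1 x x1, mul_assoc x, m.2, mul_one])
  have T3 : ∀ v, T v ⊆ (Q.map π : Set _) \ {1} := by rintro _ _ ⟨a, x, x1, rfl, rfl⟩; exact ⟨mem_map_of_mem π x1, a⟩
  have T4 : ∀ x ∈ Q, x ∉ P → 5 ≤ (T (x * x)).ncard ∧ (T (x * x)).ncard ≡ (T (x * x) ∩ C_[π ρ]).ncard [MOD 3] := fun x hx hx' => by
    have a := H02.Suz.card_modEq_fix Nat.prime_five f5 (T1 f pf (x * x))
    have b := H02.Suz.card_modEq_fix Nat.prime_three (by rw [← map_pow, r1, map_one] : π ρ ^ 3 = 1) (T1 ρ pr (x * x))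
    rw [Set.eq_empty_of_forall_notMem (s := {y | y ∈ T (x * x) ∧ _}) fun y hy => hy.1.1 (q2.le ⟨(T3 _ hy.1).1,
      mem_centralizer_singleton_iff.2 hy.2⟩), Nat.card_coe_set_eq, Nat.card_coe_set_eq, Set.ncard_empty] at a
    refine ⟨Nat.le_of_dvd ((Set.ncard_pos (Set.toFinite _)).2 ⟨π x, mt (k x).1 hx', x, hx, rfl, rfl⟩) (Nat.modEq_zero_iff_dvd.1 a),
      b.trans (congrArg (· % 3) (congrArg Set.ncard (Set.ext fun y => and_congr Iff.rfl mem_centralizer_singleton_iff.symm)))⟩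
  have T5 : ∀ (K : Subgroup (X ⧸ P)) (a b c : Set (X ⧸ P)), a ⊆ K \ {1} → b ⊆ K \ {1} → c ⊆ K \ {1} → Disjoint a b → Disjoint a c →
      Disjoint b c → a.ncard + b.ncard + c.ncard + 1 ≤ # K := fun K a b c ha hb hc ab ac bc => by
    rw [← Set.ncard_union_eq ab, ← Set.ncard_union_eq (Set.disjoint_union_left.2 ⟨ac, bc⟩), ← ncard_coe_subgroup,
      ← Set.ncard_sdiff_singleton_add_one K.one_mem]
    exact Nat.succ_le_succ (Set.ncard_le_ncard (Set.union_subset (Set.union_subset ha hb) hc))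
  have T6 : ∀ x ∈ Q, x ∉ P → ∀ y ∈ Q, y ∉ P → ∀ w ∈ Q, w ∉ P → x * x ≠ y * y → w * w = x * x ∨ w * w = y * y :=
      fun x x1 x2 y y1 y2 w w1 w2 h => by
    by_contra! d
    have s : ∀ v, T v ∩ C_[π ρ] ⊆ (Q.map π ⊓ C_[π ρ] : Subgroup _) \ {1} := fun v y hy => ⟨⟨(T3 v hy.1).1, hy.2⟩, hy.1.1⟩
    have j : ∀ u v, u ≠ v → Disjoint (T u ∩ C_[π ρ]) (T v ∩ C_[π ρ]) := fun u v h =>
      (T2 u v h).mono Set.inter_subset_left Set.inter_subset_left
    have a := T5 _ _ _ _ (T3 _) (T3 _) (T3 _) (T2 _ _ h) (T2 _ _ d.1.symm) (T2 _ _ d.2.symm)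
    have b := T5 _ _ _ _ (s _) (s _) (s _) (j _ _ h) (j _ _ d.1.symm) (j _ _ d.2.symm)
    have e := md Nat.prime_three (by rw [← map_pow, r1, map_one] : π ρ ^ 3 = 1) (Q.map π)
    have e1 := card_dvd_of_le (inf_le_left : Q.map π ⊓ C_[π ρ] ≤ _)
    have e2 := card_lt_of_lt (lt_of_le_of_ne inf_le_left (mt inf_eq_left.1 (nc ρ 3 (by decide) r1 r2)))
    obtain ⟨a1, b1⟩ := T4 x x1 x2
    obtain ⟨a2, b2⟩ := T4 y y1 y2
    obtain ⟨a3, b3⟩ := T4 w w1 w2
    rw [q1] at a e e1 e2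
    simp only [Nat.ModEq] at *
    have : 7 ≤ # (Q.map π ⊓ C_[π ρ] : Subgroup _) := by omega
    generalize # (Q.map π ⊓ C_[π ρ] : Subgroup _) = n at *
    interval_cases n <;> omega
  have ex : ∀ K : Subgroup X, # K < # Q → ∃ x ∈ Q, x ∉ K := fun K h => SetLike.not_le_iff_exists.1 fun a => by
    have := card_le_of_le a; omega
  have p0 : 0 < # P := Nat.card_pos
  have nn : ∀ K, P ≤ K → K ≤ Q → Q ≤ N_(K) := fun K a b => le_norm_of_der_le ((commutator_le.2 fun _ a _ b => comm_mem_of_sq sp a b).trans a) b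
  obtain ⟨x, x1, x2⟩ := ex P (by omega)
  have cx := card_sup_zpowers (p := 2) P (nn P le_rfl pq x1) x2 (pow_two x ▸ sp x x1)
  have lx := sup_le pq (zpowers_le.2 x1)
  obtain ⟨y, y1, y2⟩ := ex (P ⊔ zpowers x) (by omega)
  have cy := card_sup_zpowers (p := 2) _ (nn _ le_sup_left lx y1) y2 (mem_sup_left (pow_two y ▸ sp y y1))
  obtain ⟨w, w1, w2⟩ := ex (P ⊔ zpowers x ⊔ zpowers y) (by omega)
  obtain ⟨a, b, ha, hb, ab⟩ : ∃ a b, a ∈ P ∧ b ∈ P ∧ ∀ u ∈ Q, u ∉ P → u * u = a ∨ u * u = b := by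
    by_cases d : ∀ u ∈ Q, u ∉ P → u * u = x * x
    · exact ⟨_, _, sp x x1, sp x x1, fun u h1 h2 => .inl (d u h1 h2)⟩
    · push Not at d
      obtain ⟨u, u1, u2, u3⟩ := d
      exact ⟨_, _, sp u u1, sp x x1, fun v v1 v2 => T6 u u1 u2 x x1 x2 v v1 v2 u3⟩
  obtain ⟨z, hz, z1⟩ : ∃ z ∈ P, ∀ u ∈ Q, u * u ∈ zpowers z := by
    have j : ∀ a b, (∀ u ∈ Q, u ∉ P → u * u = a ∨ u * u = b) → a = 1 → ∀ u ∈ Q, u * u ∈ zpowers b := fun a b h e u hu => by
      by_cases d : u ∈ P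
      · rw [(pv u d).2]; exact one_mem _
      · rcases h u hu d with d | d <;> rw [d]
        exacts [e ▸ one_mem _, mem_zpowers b]
    by_cases d : a ∈ zpowers (a * b)
    · rcases cas (K := ⊥) (le_norm_bot (mem_top _)) (pv _ (mul_mem ha hb)).2 (mem_sup_right d) with e | e
      · exact ⟨b, hb, j a b ab e⟩
      · exact ⟨a, ha, j b a (fun u h1 h2 => (ab u h1 h2).symm) (by rwa [← mul_assoc, (pv a ha).2, one_mul] at e)⟩
    obtain ⟨l, l1, l2, l3⟩ := exists_functional (M := ZMod 2) (A := P) CharTwo.add_self_eq_zero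
      (fun v hv => (pv v hv).2.symm ▸ one_mem _) (zpowers_le.2 (mul_mem ha hb)) ha d 1
    have l4 := l2 _ (mem_zpowers _)
    rw [l1 a ha b hb, l3] at l4
    have l5 : ∀ u ∈ Q, u ∉ P → l (u * u) = 1 := fun u h1 h2 => (ab u h1 h2).elim (· ▸ l3) (· ▸ (CharTwo.add_eq_zero.1 l4).symm)
    have cm := fun u v hu hv => comm_mem_of_sq sp (x := u) (y := v) hu hv
    have l6 : ∀ u ∈ Q, u ∉ P → x * u ∉ P → l ⁅x⁻¹, u⁆ = 1 := fun u h1 h2 h3 => by
      have := l5 _ (mul_mem x1 h1) h3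
      rw [show x * u * (x * u) = x * x * ⁅x⁻¹, u⁆ * (u * u) by rw [commutatorElement_def]; group, l1 _ (mul_mem (sp x x1)
        (cm _ _ (inv_mem x1) h1)) _ (sp u h1), l1 _ (sp x x1) _ (cm _ _ (inv_mem x1) h1), l5 x x1 x2, l5 u h1 h2] at this
      exact (by decide : ∀ a : ZMod 2, 1 + a + 1 = 1 → a = 1) _ this
    have mx : x ∈ P ⊔ zpowers x := mem_sup_right (mem_zpowers x)
    have my : y ∈ P ⊔ zpowers x ⊔ zpowers y := mem_sup_right (mem_zpowers y)
    have := l6 _ (mul_mem y1 w1) (fun e => w2 ((mul_mem_cancel_left my).1 (mem_sup_left (mem_sup_left e)))) fun e =>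
      w2 ((mul_mem_cancel_left my).1 ((mul_mem_cancel_left (mem_sup_left mx)).1 (mem_sup_left (mem_sup_left e))))
    rw [commutatorElement_mul_right_of_commute ((pv _ (cm _ _ (inv_mem x1) w1)).1 y y1), l1 _ (cm _ _ (inv_mem x1) y1) _
      (cm _ _ (inv_mem x1) w1), l6 y y1 (fun e => y2 (mem_sup_left e)) (fun e => y2 ((mul_mem_cancel_left mx).1 (mem_sup_left e))),
      l6 w w1 (fun e => w2 (mem_sup_left (mem_sup_left e))) fun e => w2 (mem_sup_left ((mul_mem_cancel_left mx).1 (mem_sup_left e)))] at this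
    exact absurd this (by decide)
  obtain rfl : P = zpowers z := le_antisymm (hP ▸ pw2_le_iff.2 z1) (zpowers_le.2 hz)
  have z2 : z ≠ 1 := by
    rintro rfl
    have ab : IsMulCommutative Q := isMulCommutative_iff'.2 fun u hu v hv => commutatorElement_eq_one_iff_mul_comm.1 (by
      simpa using comm_mem_of_sq sp hu hv)
    exact nc f 5 (by decide) hf f1 (map_le_iff_le_comap.2 fun u hu => mem_centralizer_singleton_iff.2 (by
      rw [← map_mul, ← map_mul, mem_centralizer_singleton_iff.1 (c Q hQ ⟨ab, fun u hu => by simpa [pow_two] using sp u hu⟩ le_rfl hu)]))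
  have o : orderOf z = 2 := orderOf_eq_prime (pow_two z ▸ (pv z hz).2) z2
  have ae : AES 2 Q z := ⟨o, pq hz, (pv z hz).1, fun u hu v hv => comm_mem_of_sq sp hu hv, fun u hu => pow_two u ▸ sp u hu⟩
  have qf : Q ⊓ C_[f] ≤ zpowers z := fun u hu => (k u).1 (q2.le ⟨mem_map_of_mem π hu.1, mem_centralizer_singleton_iff.2 (by
    rw [← map_mul, ← map_mul, mem_centralizer_singleton_iff.1 hu.2])⟩)
  have zc : Q ⊓ C_(Q) ≤ zpowers z := fun u hu => by
    have ab : IsMulCommutative ↥(Q ⊓ C_(Q)) := isMulCommutative_iff'.2 fun x hx y hy => hy.2 x hx.1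
    have m := Normal.conj_mem inferInstance _ (inv_mem hu) f
    have := c (omegaOne 2 (Q ⊓ C_(Q))) ⟨fun x hx g => mem_omegaOne (Normal.conj_mem inferInstance x (omegaOne_le _ hx) g) (by
      rw [conj_pow, ((mem_omegaOne_iff_of_comm ab).1 hx).2]; simp)⟩ (isElementaryAbelian_omegaOne_of_comm ab)
      ((omegaOne_le _).trans inf_le_left) (mem_omegaOne (mul_mem hu m) (by
        rw [(show Commute u _ from m.2 u hu.1).mul_pow, conj_pow, inv_pow, pow_two, ← pf _ (inv_mem (sp u hu.1))]; group))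
    refine (k u).1 (q2.le ⟨mem_map_of_mem π hu.1, mem_centralizer_singleton_iff.2 (commutatorElement_eq_one_iff_mul_comm.1 ?_)⟩)
    rw [← map_commutatorElement, k, commutatorElement_def, mul_assoc, mul_assoc, ← mul_assoc f]
    exact qf ⟨(mul_mem hu m).1, this⟩
  rw [Nat.card_zpowers, o] at cq
  have zc' : ⊤ ⊓ C_((⊤ : Subgroup Q)) ≤ zpowers ⟨z, ae.mem⟩ := fun u hu => by
    obtain ⟨i, e⟩ := zc ⟨u.2, fun g hg => congrArg Subtype.val (hu.2 ⟨g, hg⟩ trivial)⟩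
    exact ⟨i, Subtype.ext e⟩
  refine .inr ⟨cq, fin ae.subgroup zc' cq ?_⟩
  have a := ae.subgroup.sqCount_of_center zc' (n := 2) (card_top.trans cq)
  have b := H02.Suz.card_modEq_fix Nat.prime_five hf (T := {y | y ∈ Q ∧ y ^ 2 = 1}) fun y hy =>
    ⟨hQ.conj_mem y hy.1 f, by rw [conj_pow, hy.2]; simp⟩
  rw [show {y | y ∈ {y | y ∈ Q ∧ y ^ 2 = 1} ∧ y * f = f * y} = (zpowers z : Set X) from Set.ext fun y => ⟨fun h =>
    qf ⟨h.1.1, mem_centralizer_singleton_iff.2 h.2⟩, fun h => ⟨⟨pq h, pow_two y ▸ (pv y h).2⟩, pf y h⟩⟩, SetLike.coe_sort_coe,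
    Nat.card_zpowers, o] at b
  have e : sqCount ⊤ (1 : Q) = # {y | y ∈ Q ∧ y ^ 2 = 1} := (sqCount_top _).trans (Nat.card_congr ((Equiv.subtypeEquivRight fun _ =>
    Subtype.ext_iff).trans (Equiv.subtypeSubtypeEquivSubtypeInter (· ∈ Q) fun y => y ^ 2 = 1)))
  rw [← e, Nat.ModEq] at b
  omega

theorem lift {Q : Subgroup X} (pg : IsPGroup 2 Q) {p : ℕ} (hp : Odd p) {x : X} (h : x ^ p ∈ Q) (h1 : x ∉ Q) :
    ∃ n : ℕ, (x ^ n) ^ p = 1 ∧ x ^ n ∉ Q := by
  obtain ⟨k, hk⟩ := pg ⟨_, h⟩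
  refine ⟨2 ^ k, by rw [← pow_mul, mul_comm, pow_mul]; exact congrArg Subtype.val hk, fun a => h1 ?_⟩
  obtain ⟨i, j, e⟩ := Nat.isCoprime_iff_coprime.2 (hp.coprime_two_right.pow_right k)
  rw [← zpow_one x, ← e, zpow_add, mul_comm i, mul_comm j, zpow_mul, zpow_mul, zpow_natCast, zpow_natCast]
  exact mul_mem (zpow_mem h i) (zpow_mem a j)

end H04.A5
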