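import Mathlib
import Cfsg.Agent.H04.SimpGood
import Cfsg.Agent.H04.Basic

/-! The wreath product `C_p ≀ S_I` inside `Perm ((I × ZMod p) ⊕ B)` (namespace `H04.AW`): translations `tr`, block
permutations `top`, scalings `dg`; Sylow subgroups of symmetric groups (`isSyl_W`, generated by elements of order `p`:
`og_of_isSyl`), the normaliser of the base group `E`. -/

set_option autoImplicit false
open Subgroup Cfsg H26 H09 Equiv

namespace H04

/-- generated by its elements of order dividing `p` -/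
def OG {G : Type*} [Group G] (p : ℕ) (S : Subgroup G) : Prop := S ≤ closure {g | g ∈ S ∧ g ^ p = 1}

theorem OG.le {G : Type*} [Group G] {p : ℕ} {S T : Subgroup G} (h : OG p S) (hT : ∀ g ∈ S, g ^ p = 1 → g ∈ T) :
    S ≤ T := h.trans ((closure_le _).2 fun g hg => hT g hg.1 hg.2)

theorem OG.map {G G' : Type*} [Group G] [Group G'] {p : ℕ} {S : Subgroup G} (h : OG p S) (f : G →* G') :
    OG p (S.map f) := map_le_iff_le_comap.2 (h.le fun g hg e =>
  subset_closure ⟨mem_map_of_mem f hg, by rw [← map_pow, e, map_one]⟩)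

namespace AW

variable {I B : Type*} {p : ℕ}

/-- translations in the blocks -/
def tr (a : I → ZMod p) : Perm ((I × ZMod p) ⊕ B) :=
  Perm.sumCongr (Equiv.prodCongrRight fun i => Equiv.addRight (a i)) 1

/-- permutations of the blocks -/
def top : Perm I →* Perm ((I × ZMod p) ⊕ B) where
  toFun σ := Perm.sumCongr (Equiv.prodCongrLeft fun _ => σ) 1
  map_one' := by ext (⟨i, x⟩ | b) <;> rfl
  map_mul' σ τ := by ext (⟨i, x⟩ | b) <;> rfl

/-- scalings in the blocks -/
def dg : (I → (ZMod p)ˣ) →* Perm ((I × ZMod p) ⊕ B) where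
  toFun u := Perm.sumCongr (Equiv.prodCongrRight fun i => (u i).mulLeft) 1
  map_one' := by ext (⟨i, x⟩ | b) <;> simp
  map_mul' σ τ := by ext (⟨i, x⟩ | b) <;> simp [mul_assoc]

@[simp] theorem tr_inl (a : I → ZMod p) (i : I) (x : ZMod p) :
    tr (B := B) a (Sum.inl (i, x)) = Sum.inl (i, x + a i) := rfl
@[simp] theorem tr_inr (a : I → ZMod p) (b : B) : tr a (Sum.inr b) = Sum.inr b := rfl
@[simp] theorem top_inl (σ : Perm I) (i : I) (x : ZMod p) :
    top (B := B) σ (Sum.inl (i, x)) = Sum.inl (σ i, x) := rfl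
@[simp] theorem top_inr (σ : Perm I) (b : B) : top (p := p) σ (Sum.inr b) = Sum.inr b := rfl
@[simp] theorem dg_inl (u : I → (ZMod p)ˣ) (i : I) (x : ZMod p) :
    dg (B := B) u (Sum.inl (i, x)) = Sum.inl (i, u i * x) := rfl
@[simp] theorem dg_inr (u : I → (ZMod p)ˣ) (b : B) : dg u (Sum.inr b) = Sum.inr b := rfl

theorem tr_add (a c : I → ZMod p) : tr (B := B) (a + c) = tr a * tr c := by
  ext (⟨i, x⟩ | b) <;> simp [add_comm, add_left_comm]

@[simp] theorem tr_zero : tr (B := B) (0 : I → ZMod p) = 1 := by ext (⟨i, x⟩ | b) <;> simp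

theorem tr_neg (a : I → ZMod p) : tr (B := B) (-a) = (tr a)⁻¹ :=
  eq_inv_of_mul_eq_one_left (by rw [← tr_add, neg_add_cancel, tr_zero])

theorem tr_nsmul (a : I → ZMod p) (k : ℕ) : tr (B := B) (k • a) = tr a ^ k := by
  induction k with
  | zero => simp
  | succ k ih => rw [succ_nsmul, tr_add, ih, pow_succ]

theorem tr_pow (a : I → ZMod p) : tr (B := B) a ^ p = 1 := by
  rw [← tr_nsmul, show p • a = 0 from funext fun i => by simp, tr_zero]

theorem tr_injective : Function.Injective (tr (B := B) : (I → ZMod p) → _) := fun a c h => funext fun i => by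
  simpa using congrArg (· (Sum.inl (i, 0))) h

theorem top_mul_tr (σ : Perm I) (a : I → ZMod p) : top (B := B) σ * tr a = tr (a ∘ ⇑σ⁻¹) * top σ := by
  ext (⟨i, x⟩ | b) <;> simp

theorem dg_mul_tr (u : I → (ZMod p)ˣ) (a : I → ZMod p) : dg (B := B) u * tr a = tr (fun i => (u i : ZMod p) * a i) * dg u := by
  ext (⟨i, x⟩ | b) <;> simp [mul_add]

theorem top_mul_dg (σ : Perm I) (u : I → (ZMod p)ˣ) : top (B := B) σ * dg u = dg (u ∘ ⇑σ⁻¹) * top σ := by
  ext (⟨i, x⟩ | b) <;> simp

variable (I B p) in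
/-- the base group -/
def E : Subgroup (Perm ((I × ZMod p) ⊕ B)) where
  carrier := Set.range tr
  one_mem' := ⟨0, tr_zero⟩
  mul_mem' := by rintro _ _ ⟨a, rfl⟩ ⟨c, rfl⟩; exact ⟨_, tr_add a c⟩
  inv_mem' := by rintro _ ⟨a, rfl⟩; exact ⟨_, tr_neg a⟩

theorem tr_mem (a : I → ZMod p) : tr a ∈ E I B p := ⟨a, rfl⟩

variable (B p) in
/-- the wreath product with top group `H` -/
def W (H : Subgroup (Perm I)) : Subgroup (Perm ((I × ZMod p) ⊕ B)) where
  carrier := {g | ∃ a, ∃ σ ∈ H, g = tr a * top σ}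
  one_mem' := ⟨0, 1, one_mem _, by simp⟩
  mul_mem' := by
    rintro _ _ ⟨a, σ, hσ, rfl⟩ ⟨c, τ, hτ, rfl⟩
    exact ⟨a + c ∘ ⇑σ⁻¹, σ * τ, mul_mem hσ hτ, by
      rw [tr_add, map_mul, mul_assoc, ← mul_assoc (top σ), top_mul_tr]; simp only [mul_assoc]⟩
  inv_mem' := by
    rintro _ ⟨a, σ, hσ, rfl⟩
    exact ⟨(-a) ∘ ⇑σ⁻¹⁻¹, σ⁻¹, inv_mem hσ, by rw [mul_inv_rev, ← map_inv, ← tr_neg, top_mul_tr]⟩

theorem E_le_W (H : Subgroup (Perm I)) : E I B p ≤ W B p H := by
  rintro _ ⟨a, rfl⟩; exact ⟨a, 1, one_mem _, by simp⟩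

theorem top_mem_W {H : Subgroup (Perm I)} {σ : Perm I} (h : σ ∈ H) : top σ ∈ W B p H := ⟨0, σ, h, by simp⟩

theorem W_le {H : Subgroup (Perm I)} {T : Subgroup (Perm ((I × ZMod p) ⊕ B))} (h1 : E I B p ≤ T)
    (h2 : ∀ σ ∈ H, top σ ∈ T) : W B p H ≤ T := by
  rintro _ ⟨a, σ, hσ, rfl⟩; exact mul_mem (h1 (tr_mem a)) (h2 σ hσ)

theorem og_W {H : Subgroup (Perm I)} (h : OG p H) : OG p (W B p H) :=
  W_le (by rintro _ ⟨a, rfl⟩; exact subset_closure ⟨E_le_W H (tr_mem a), tr_pow a⟩) fun σ hσ =>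
    h.le (T := comap top (closure {g | g ∈ W B p H ∧ g ^ p = 1})) (fun g hg e =>
      Subgroup.subset_closure ⟨top_mem_W hg, by rw [← map_pow, e, map_one]⟩) hσ

theorem eq_of_inl [Subsingleton B] {X : Type*} {g h : Perm (X ⊕ B)} (e : ∀ x, g (Sum.inl x) = h (Sum.inl x)) :
    g = h := by
  ext (x | b)
  · exact e x
  · obtain ⟨x | b', hx⟩ := h.surjective (g (Sum.inr b))
    · exact absurd (g.injective ((e x).trans hx)) (by simp)
    · rw [← hx, Subsingleton.elim b b']

theorem struct_of [Finite I] [Fact p.Prime] [Subsingleton B] {n : Perm ((I × ZMod p) ⊕ B)}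
    (h : ∀ i, ∃ s u t, u ≠ 0 ∧ ∀ x, n (Sum.inl (i, x)) = Sum.inl (s, u * x + t)) :
    ∃ a σ u, n = tr a * top σ * dg u := by
  choose s u t hu h using h
  have hs : Function.Injective s := fun i j e => by
    have := (h i ((u i)⁻¹ * (t j - t i))).trans (show _ = n (Sum.inl (j, 0)) by
      rw [h, e, mul_inv_cancel_left₀ (hu i)]; simp)
    simpa using congrArg (Sum.elim Prod.fst fun _ => i) (n.injective this)
  refine ⟨t ∘ (Equiv.ofBijective s (Finite.injective_iff_bijective.1 hs)).symm,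
    Equiv.ofBijective s (Finite.injective_iff_bijective.1 hs), fun i => Units.mk0 _ (hu i), eq_of_inl ?_⟩
  rintro ⟨i, x⟩
  simp [h]

variable [Fintype I] [DecidableEq I]

theorem conj_mem_E {T : Subgroup (Perm ((I × ZMod p) ⊕ B))} {n : Perm ((I × ZMod p) ⊕ B)}
    (h : ∀ i x, n * tr (Pi.single i x) * n⁻¹ ∈ T) : ∀ g ∈ E I B p, n * g * n⁻¹ ∈ T := by
  rintro _ ⟨a, rfl⟩
  induction a using Pi.single_induction with
  | zero => simp
  | add a c ha hc => simpa [tr_add] using mul_mem ha hc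
  | single i x => exact h i x

variable [Fact p.Prime]

instance : Finite (E I B p : Set (Perm ((I × ZMod p) ⊕ B))) := Set.finite_range tr

theorem top_mem_normalizer (σ : Perm I) : top σ ∈ normalizer (E I B p : Set (Perm ((I × ZMod p) ⊕ B))) :=
  mem_normalizer_fintype (by rintro _ ⟨a, rfl⟩; rw [top_mul_tr, mul_inv_cancel_right]; exact tr_mem _)

theorem dg_mem_normalizer (u : I → (ZMod p)ˣ) : dg u ∈ normalizer (E I B p : Set (Perm ((I × ZMod p) ⊕ B))) :=
  mem_normalizer_fintype (by rintro _ ⟨a, rfl⟩; rw [dg_mul_tr, mul_inv_cancel_right]; exact tr_mem _)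

theorem W_le_normalizer (H : Subgroup (Perm I)) : W B p H ≤ normalizer (E I B p : Set (Perm ((I × ZMod p) ⊕ B))) :=
  W_le le_normalizer fun σ _ => top_mem_normalizer σ

theorem struct_of_normalizer [Subsingleton B] {n : Perm ((I × ZMod p) ⊕ B)}
    (hn : n ∈ normalizer (E I B p : Set (Perm ((I × ZMod p) ⊕ B)))) : ∃ a σ u, n = tr a * top σ * dg u := by
  refine struct_of fun i => ?_
  obtain ⟨a, ha⟩ := (mem_normalizer_iff.1 hn _).1 (tr_mem (B := B) (Pi.single i 1))
  have h1 : ∀ x, n (Sum.inl (i, x + 1)) = tr a (n (Sum.inl (i, x))) := fun x => by simp [ha]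
  have h2 : tr a (n (Sum.inl (i, 0))) ≠ n (Sum.inl (i, 0)) := fun e => by
    simpa using n.injective ((h1 0).trans e)
  rcases h0 : n (Sum.inl (i, 0)) with ⟨s, t⟩ | b
  · refine ⟨s, a s, t, fun e => h2 (by simp [h0, e]), fun x => ?_⟩
    obtain ⟨k, rfl⟩ := ZMod.natCast_zmod_surjective x
    induction k with
    | zero => simp [h0]
    | succ k ih => rw [Nat.cast_succ, h1, ih, tr_inl]; congr 2; ring
  · exact absurd (by simp [h0]) h2

theorem mem_E_of_comm [Subsingleton B] {c : Perm ((I × ZMod p) ⊕ B)} (h : ∀ r ∈ E I B p, r * c = c * r) :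
    c ∈ E I B p := by
  obtain ⟨a, σ, u, rfl⟩ := struct_of_normalizer (Subgroup.centralizer_le_normalizer _ h)
  have key : ∀ i, σ i = i ∧ u i = 1 := fun i => by
    have := congrArg (· (Sum.inl (i, 0))) (h _ (tr_mem (Pi.single i 1)))
    simp only [Perm.mul_apply, dg_inl, top_inl, tr_inl, Pi.single_eq_same, Sum.inl.injEq, Prod.mk.injEq, true_and,
      mul_zero, zero_add, mul_one] at this
    rw [add_comm, add_left_inj] at this
    have h1 : σ i = i := by
      by_contra hne
      rw [Pi.single_eq_of_ne hne] at this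
      exact (u i).ne_zero this.symm
    rw [h1, Pi.single_eq_same] at this
    exact ⟨h1, Units.ext this.symm⟩
  rw [show σ = 1 from Equiv.ext fun i => (key i).1, show u = 1 from funext fun i => (key i).2]
  simpa using tr_mem a

theorem card_W (H : Subgroup (Perm I)) : Nat.card (W B p H) = p ^ Fintype.card I * Nat.card H := by
  have : Nat.card ((I → ZMod p) × H) = Nat.card (W B p H) := by
    refine Nat.card_congr (Equiv.ofBijective (fun x => ⟨tr x.1 * top x.2.1, _, _, x.2.2, rfl⟩) ⟨?_, ?_⟩)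
    · rintro ⟨a, σ, hσ⟩ ⟨c, τ, hτ⟩ e
      have h1 : ∀ i, σ i = τ i ∧ a (σ i) = c (τ i) := fun i => by
        simpa using congrArg (fun g : W B p H => g.1 (Sum.inl (i, 0))) e
      obtain rfl : σ = τ := Equiv.ext fun i => (h1 i).1
      obtain rfl : a = c := funext fun i => by simpa using (h1 (σ⁻¹ i)).2
      rfl
    · rintro ⟨_, a, σ, hσ, rfl⟩; exact ⟨(a, ⟨σ, hσ⟩), rfl⟩
  rw [← this, Nat.card_prod, Nat.card_fun, Nat.card_zmod, Nat.card_eq_fintype_card (α := I)]

theorem card_syl {X : Type*} [Fintype X] [DecidableEq X] {H : Subgroup (Perm X)} (h : IsSyl p H ⊤) :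
    Nat.card H = p ^ padicValNat p (Fintype.card X).factorial := by
  obtain ⟨S, rfl⟩ := h.exists_sylow_top
  rw [S.card_eq_multiplicity, Nat.factorization_def _ Fact.out, Nat.card_eq_fintype_card, Fintype.card_perm]

variable [Fintype B] [DecidableEq B]

theorem isSyl_W (hB : Fintype.card B < p) {H : Subgroup (Perm I)} (h : IsSyl p H ⊤) : IsSyl p (W B p H) ⊤ := by
  have hc : Nat.card (W B p H) = p ^ padicValNat p (Fintype.card ((I × ZMod p) ⊕ B)).factorial := by
    rw [card_W, card_syl h, Fintype.card_sum, Fintype.card_prod, ZMod.card, mul_comm (Fintype.card I),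
      padicValNat_factorial_mul_add _ hB, padicValNat_factorial_mul, pow_add, mul_comm]
  obtain ⟨T, hT⟩ := exists_isSyl p (⊤ : Subgroup (Perm ((I × ZMod p) ⊕ B)))
  exact hT.of_card_le (IsPGroup.of_card hc) le_top (by rw [hc, card_syl hT])

omit [Fintype I] [DecidableEq I] [Fintype B] [DecidableEq B] in
theorem exists_equiv {X : Type*} [Fintype X] :
    Nonempty (X ≃ (Fin (Fintype.card X / p) × ZMod p) ⊕ Fin (Fintype.card X % p)) :=
  ⟨Fintype.equivOfCardEq (by simp [Nat.div_add_mod'])⟩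

omit [Fintype I] [DecidableEq I] [Fintype B] [DecidableEq B] in
theorem og_step {X Y : Type*} [Finite X] [Finite Y] (e : X ≃ Y) {K : Subgroup (Perm Y)} {H : Subgroup (Perm X)}
    (hK : IsSyl p K ⊤) (hO : OG p K) (hH : IsSyl p H ⊤) : OG p H := by
  have h1 := hK.map e.symm.permCongrHom.toMonoidHom
  rw [map_top_of_surjective _ e.symm.permCongrHom.surjective] at h1
  obtain ⟨g, -, rfl⟩ := h1.exists_cj_eq hH
  exact (hO.map _).map _

omit [Fintype I] [DecidableEq I] [Fintype B] [DecidableEq B] in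
theorem og_of_isSyl {X : Type*} [Fintype X] {H : Subgroup (Perm X)} (h : IsSyl p H ⊤) : OG p H := by
  have key : ∀ n, ∀ H : Subgroup (Perm (Fin n)), IsSyl p H ⊤ → OG p H := fun n => by
    induction n using Nat.strong_induction_on with
    | _ n ih =>
    intro H hH
    rcases Nat.eq_zero_or_pos n with rfl | hn
    · exact fun g _ => Subsingleton.elim 1 g ▸ one_mem _
    obtain ⟨e⟩ := exists_equiv (p := p) (X := Fin n)
    obtain ⟨K, hK⟩ := exists_isSyl p (⊤ : Subgroup (Perm (Fin (Fintype.card (Fin n) / p))))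
    exact og_step e (isSyl_W (by simpa using Nat.mod_lt _ (Fact.out : p.Prime).pos) hK)
      (og_W (ih _ (by simpa using Nat.div_lt_self hn (Fact.out : p.Prime).one_lt) K hK)) hH
  obtain ⟨K, hK⟩ := exists_isSyl p (⊤ : Subgroup (Perm (Fin (Fintype.card X))))
  exact og_step (Fintype.equivFin X) hK (key _ K hK) h

theorem card_support_tr (a : I → ZMod p) :
    (tr (B := B) a).support.card = (Finset.univ.filter fun i => a i ≠ 0).card * p := by
  have : (tr (B := B) a).support =
      ((Finset.univ.filter fun i => a i ≠ 0) ×ˢ Finset.univ).map Function.Embedding.inl := by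
    ext (⟨i, x⟩ | b) <;> simp
  rw [this, Finset.card_map, Finset.card_product, Finset.card_univ, ZMod.card]

theorem isConj_of_card {X : Type*} [Fintype X] [DecidableEq X] {x y : Perm X} (hx : x ^ p = 1) (hy : y ^ p = 1)
    (h : x.support.card = y.support.card) : IsConj x y := by
  rw [← Perm.sum_cycleType, ← Perm.sum_cycleType, Perm.cycleType_of_pow_prime_eq_one hx,
    Perm.cycleType_of_pow_prime_eq_one hy, Multiset.sum_replicate, Multiset.sum_replicate, smul_eq_mul, smul_eq_mul,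
    Nat.mul_left_inj (Fact.out : p.Prime).ne_zero] at h
  rw [Perm.isConj_iff_cycleType_eq, Perm.cycleType_of_pow_prime_eq_one hx, Perm.cycleType_of_pow_prime_eq_one hy, h]

theorem exists_isConj_tr (hB : Fintype.card B < p) {y : Perm ((I × ZMod p) ⊕ B)} (hy : y ^ p = 1) :
    ∃ a, IsConj (tr a) y := by
  have h1 := Perm.sum_cycleType y
  rw [Perm.cycleType_of_pow_prime_eq_one hy, Multiset.sum_replicate, smul_eq_mul] at h1
  have h2 := Finset.card_le_univ y.support
  rw [← h1, Fintype.card_sum, Fintype.card_prod, ZMod.card] at h2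
  have h3 : y.cycleType.card ≤ (Finset.univ : Finset I).card :=
    Nat.lt_succ_iff.1 (Nat.lt_of_mul_lt_mul_right (a := p) (by rw [Nat.succ_mul, Finset.card_univ]; omega))
  obtain ⟨s, -, hs⟩ := Finset.exists_subset_card_eq h3
  refine ⟨fun i => if i ∈ s then 1 else 0, isConj_of_card (tr_pow _) hy ?_⟩
  rw [card_support_tr, ← h1, ← hs]
  congr 2
  ext i; simp

theorem sign_top (σ : Perm I) : Perm.sign (top (B := B) (p := p) σ) = Perm.sign σ ^ p := by
  change Perm.sign (Perm.sumCongr _ _) = _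
  rw [Perm.sign_sumCongr, Perm.sign_prodCongrLeft]; simp

theorem top_eq_one_of_card {a : I → ZMod p} {σ : Perm I} (h : (tr (B := B) a * top σ).support.card < 2 * p) :
    σ = 1 := by
  ext i
  by_contra hi
  have h1 : σ (σ i) ≠ σ i := fun e => hi (σ.injective e)
  have : (({i, σ i} : Finset I) ×ˢ (Finset.univ : Finset (ZMod p))).map Function.Embedding.inl ⊆
      (tr (B := B) a * top σ).support := by
    intro w hw
    simp only [Finset.mem_map, Finset.mem_product, Finset.mem_insert, Finset.mem_singleton, Finset.mem_univ, and_true,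
      Function.Embedding.inl_apply, Prod.exists] at hw
    obtain ⟨j, x, rfl | rfl, rfl⟩ := hw
    · simp only [Perm.one_apply] at hi; simp [hi]
    · simp [h1]
  have h2 := Finset.card_le_card this
  rw [Finset.card_map, Finset.card_product, Finset.card_pair (show i ≠ σ i from Ne.symm hi), Finset.card_univ, ZMod.card] at h2
  omega

end AW

end H04
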