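import Mathlib
import Cfsg.Agent.H04.AltW
import Cfsg.Agent.H04.SimpSL

/-! Simplicity of the `p`-fusion systems of the alternating groups `A_n`, `n ≡ 0, 1 mod p` (`AW.simple_two`,
`AW.simple_odd`). -/

set_option autoImplicit false
open Subgroup Cfsg H26 H09 Equiv

namespace H04.AW

variable {I B : Type} {p : ℕ} [Fintype I] [DecidableEq I] [Fintype B] [DecidableEq B]

omit [Fintype I] in
theorem exists_two {i j k l : I} (h : i ≠ j) (h' : k ≠ l) : ∃ σ : Perm I, σ i = k ∧ σ j = l := by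
  refine ⟨swap (swap i k j) l * swap i k, ?_, by simp⟩
  rw [Perm.mul_apply, swap_apply_left, swap_apply_of_ne_of_ne _ h']
  intro e
  exact h ((swap i k).injective ((swap_apply_left i k).trans e))

theorem exists_third (h : 3 ≤ Fintype.card I) (i j : I) : ∃ k, k ≠ i ∧ k ≠ j := by
  by_contra! hk
  have : (Finset.univ : Finset I) ⊆ {i, j} := fun k _ => by
    by_cases e : k = i
    · simp [e]
    · simp [hk k e]
  have := (Finset.card_le_card this).trans Finset.card_le_two
  rw [Finset.card_univ] at this; omega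

theorem single_comp {X : Type*} [Zero X] (σ : Perm I) (i : I) (x : X) :
    (Pi.single i x : I → X) ∘ ⇑σ⁻¹ = Pi.single (σ i) x := by
  ext j; simp [Pi.single_apply, Equiv.symm_apply_eq]

theorem top_conj_tr (σ : Perm I) (a : I → ZMod p) : top (B := B) σ * tr a * (top σ)⁻¹ = tr (a ∘ ⇑σ⁻¹) := by
  rw [top_mul_tr, mul_inv_cancel_right]

variable [Fact p.Prime]

theorem exists_conj_even (hB : Fintype.card B < p) {o : Perm ((I × ZMod p) ⊕ B)} (ho : o ∉ alternatingGroup _)
    (hn : o ∈ normalizer (E I B p : Set (Perm ((I × ZMod p) ⊕ B)))) {y : Perm ((I × ZMod p) ⊕ B)} (hy : y ^ p = 1) :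
    ∃ a, ∃ g ∈ alternatingGroup _, g * tr a * g⁻¹ = y := by
  obtain ⟨a, h⟩ := exists_isConj_tr hB hy
  obtain ⟨g, rfl⟩ := isConj_iff.1 h
  by_cases hg : g ∈ alternatingGroup _
  · exact ⟨a, g, hg, rfl⟩
  obtain ⟨c, hc⟩ := (mem_normalizer_iff.1 hn _).1 (tr_mem a)
  refine ⟨c, g * o⁻¹, ?_, by rw [hc]; group⟩
  rw [Perm.mem_alternatingGroup] at *
  rw [map_mul, map_inv, Int.units_ne_iff_eq_neg.1 hg, Int.units_ne_iff_eq_neg.1 ho]; rfl

theorem card_lt [Subsingleton B] : Fintype.card B < p :=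
  (Fintype.card_le_one_iff_subsingleton.2 ‹_›).trans_lt (Fact.out : p.Prime).one_lt

section two

local notation "A2" => alternatingGroup ((I × ZMod 2) ⊕ B)

theorem z2 (x : ZMod 2) : x = 0 ∨ x = 1 := by revert x; decide

theorem sign_tr_single (i : I) : Perm.sign (tr (B := B) (Pi.single i (1 : ZMod 2))) = -1 := by
  refine (Perm.card_support_eq_two.1 ?_).sign_eq
  rw [card_support_tr, show (Finset.univ.filter fun j => (Pi.single i 1 : I → ZMod 2) j ≠ 0) = {i} by
    ext j; by_cases e : j = i <;> simp [e]]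
  rfl

theorem single_notMem (i : I) : tr (Pi.single i (1 : ZMod 2)) ∉ A2 := by
  rw [Perm.mem_alternatingGroup, sign_tr_single]; decide

theorem pair_mem (i j : I) : tr (Pi.single i (1 : ZMod 2) + Pi.single j 1) ∈ A2 := by
  rw [Perm.mem_alternatingGroup, tr_add, map_mul, sign_tr_single, sign_tr_single]; rfl

theorem top_mem_two (σ : Perm I) : top σ ∈ A2 := by
  rw [Perm.mem_alternatingGroup, sign_top, Int.units_sq]

theorem E0_le (i₀ : I) {T : Subgroup (Perm ((I × ZMod 2) ⊕ B))}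
    (h : ∀ i j, i ≠ j → tr (Pi.single i (1 : ZMod 2) + Pi.single j 1) ∈ T) : E I B 2 ⊓ A2 ≤ T := by
  have key : ∀ T : Subgroup (Perm ((I × ZMod 2) ⊕ B)),
      (∀ i j, i ≠ j → tr (Pi.single i (1 : ZMod 2) + Pi.single j 1) ∈ T) →
      ∀ a : I → ZMod 2, tr (a + Pi.single i₀ (∑ i, a i)) ∈ T := fun T h a => by
    induction a using Pi.single_induction with
    | zero => simp
    | add a c ha hc =>
      have := mul_mem ha hc
      rwa [← tr_add, add_add_add_comm, ← Pi.single_add, ← Finset.sum_add_distrib] at this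
    | single i x =>
      rw [Finset.sum_pi_single', if_pos (Finset.mem_univ _)]
      rcases z2 x with rfl | rfl
      · simp
      · by_cases e : i = i₀
        · rw [e, ← Pi.single_add, show (1 + 1 : ZMod 2) = 0 from rfl]; simp
        · exact h _ _ e
  rintro _ ⟨⟨a, rfl⟩, ha⟩
  replace ha : tr a ∈ A2 := ha
  rcases z2 (∑ i, a i) with e | e
  · simpa [e] using key T h a
  · have := key A2 (fun i j _ => pair_mem i j) a
    rw [e, tr_add] at this
    exact absurd ((mul_mem_cancel_left ha).1 this) (single_notMem _)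

theorem struct_two [Subsingleton B] {n : Perm ((I × ZMod 2) ⊕ B)}
    (h : ∀ i, ∃ s y, n (Sum.inl (i, 0)) = Sum.inl (s, y) ∧ n (Sum.inl (i, 1)) = Sum.inl (s, y + 1)) :
    ∃ a σ, n = tr a * top σ := by
  obtain ⟨a, σ, u, e⟩ := struct_of (n := n) fun i => by
    obtain ⟨s, y, h0, h1⟩ := h i
    exact ⟨s, 1, y, one_ne_zero, fun x => by rcases z2 x with rfl | rfl <;> simp [h0, h1, add_comm]⟩
  exact ⟨a, σ, by rw [e, Subsingleton.elim u 1, map_one, mul_one]⟩

theorem mem_E_two [Subsingleton B] (hI : 3 ≤ Fintype.card I) {c : Perm ((I × ZMod 2) ⊕ B)}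
    (h : ∀ r ∈ E I B 2 ⊓ A2, r * c = c * r) : c ∈ E I B 2 := by
  have key : ∀ i j, j ≠ i → ∃ s y, (s = i ∨ s = j) ∧ c (Sum.inl (i, 0)) = Sum.inl (s, y) ∧
      c (Sum.inl (i, 1)) = Sum.inl (s, y + 1) := fun i j hj => by
    have h1 := congrArg (· (Sum.inl (i, 0))) (h _ ⟨tr_mem _, pair_mem i j⟩)
    simp only [Perm.mul_apply, tr_inl, Pi.add_apply, Pi.single_eq_same, Pi.single_eq_of_ne hj.symm, add_zero,
      zero_add] at h1
    have h2 : c (Sum.inl (i, 1)) ≠ c (Sum.inl (i, 0)) := fun e => by simpa using c.injective e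
    rw [← h1] at h2 ⊢
    rcases h0 : c (Sum.inl (i, 0)) with ⟨s, y⟩ | b
    · rw [h0] at h2
      have h3 : (Pi.single i 1 + Pi.single j 1 : I → ZMod 2) s ≠ 0 := fun e => h2 (by simp [e])
      refine ⟨s, y, ?_, rfl, by rw [tr_inl, (z2 _).resolve_left h3]⟩
      by_contra! hs
      exact h3 (by simp [hs.1, hs.2])
    · exact absurd (by simp [h0]) h2
  have key2 : ∀ i, ∃ y, c (Sum.inl (i, 0)) = Sum.inl (i, y) ∧ c (Sum.inl (i, 1)) = Sum.inl (i, y + 1) := fun i => by
    obtain ⟨j, hj, -⟩ := exists_third hI i i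
    obtain ⟨k, hk, hkj⟩ := exists_third hI i j
    obtain ⟨s, y, hs, h1, h2⟩ := key i j hj
    obtain ⟨s', y', hs', h1', -⟩ := key i k hk
    obtain rfl : s = s' := by simpa using congrArg (Sum.elim Prod.fst fun _ => i) (h1.symm.trans h1')
    obtain rfl : s = i := by rcases hs with e | e <;> rcases hs' with e' | e' <;> grind
    exact ⟨y, h1, h2⟩
  choose y h0 h1 using key2
  refine ⟨y, eq_of_inl ?_⟩
  rintro ⟨i, x⟩
  rcases z2 x with rfl | rfl <;> simp [h0, h1, add_comm]

theorem simple_two [Subsingleton B] (hI : 3 ≤ Fintype.card I) (S' : Sylow 2 A2) :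
    (groupFusionSystem (S' : Subgroup A2)).IsSimple 2 := by
  obtain ⟨i₀⟩ : Nonempty I := Fintype.card_pos_iff.1 (by omega)
  obtain ⟨j₀, hj₀, -⟩ := exists_third hI i₀ i₀
  obtain ⟨k₀, hk₀, hkj⟩ := exists_third hI i₀ j₀
  obtain ⟨H, hH, hsw⟩ := exists_isSyl_ge (Q := zpowers (swap i₀ j₀)) (isPGroup_zpowers (p := 2) ⟨1, by
    rw [pow_one, pow_two, swap_mul_self]⟩) le_top
  replace hsw := hsw (mem_zpowers _)
  have hS : IsSyl 2 (W B 2 H ⊓ A2) A2 := (isSyl_W card_lt hH).inf_of_le le_top le_normalizer_of_normal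
  have hE : E I B 2 ⊓ A2 ≤ W B 2 H ⊓ A2 := inf_le_inf_right _ (E_le_W H)
  have hp : ∀ i j, tr (Pi.single i (1 : ZMod 2) + Pi.single j 1) ∈ E I B 2 ⊓ A2 := fun i j => ⟨tr_mem _, pair_mem i j⟩
  refine simple_of_good hS (fun e => ?_) (fun T hT hne hsc => ?_) (fun Good hG n hnA hn => ?_) S'
  · have := hE (hp i₀ j₀)
    rw [e, mem_bot, ← tr_zero] at this
    simpa [hj₀.symm] using congrFun (tr_injective this) i₀
  · obtain ⟨z, hz, hz1, hzc⟩ := exists_fixed_of_normalizes hS.pg (hS.pg.to_le hT)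
      (fun g hg => mem_normalizer_fintype fun x hx =>
        hsc _ hx g hg.2 (mul_mem (mul_mem hg (hT hx)) (inv_mem hg))) hne
    obtain ⟨a, rfl⟩ := mem_E_two hI fun r hr => hzc r (hE hr)
    obtain ⟨i, hi⟩ : ∃ i, a i ≠ 0 := by
      by_contra! h0
      exact hz1 (by rw [show a = 0 from funext h0, tr_zero])
    obtain ⟨j, hji, hj⟩ : ∃ j, j ≠ i ∧ a j ≠ 0 := by
      by_contra! h0
      refine single_notMem i ((show a = Pi.single i 1 from funext fun j => ?_) ▸ (hT hz).2)
      by_cases e : j = i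
      · rw [e, Pi.single_eq_same, (z2 _).resolve_left hi]
      · rw [h0 j e, Pi.single_eq_of_ne e]
    have cj : ∀ a : I → ZMod 2, tr a ∈ T → ∀ σ : Perm I, tr (a ∘ ⇑σ⁻¹) ∈ T := fun a ha σ => by
      rw [← top_conj_tr]
      exact hsc _ ha _ (top_mem_two σ) ⟨by rw [top_conj_tr]; exact E_le_W H (tr_mem _),
        Normal.conj_mem inferInstance _ (hT ha).2 _⟩
    obtain ⟨σ, h1, h2⟩ := exists_two hji.symm hj₀.symm
    have h3 := cj a hz σ
    set c := a ∘ ⇑σ⁻¹
    have hci : c i₀ = 1 := by simpa [c, ← h1] using (z2 _).resolve_left hi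
    have hcj : c j₀ = 1 := by simpa [c, ← h2] using (z2 _).resolve_left hj
    set g : Perm ((I × ZMod 2) ⊕ B) := swap (Sum.inl (i₀, 1)) (Sum.inl (j₀, 0)) * tr (Pi.single i₀ 1) with hg
    have h4 : g * tr c * g⁻¹ = tr (c + Pi.single i₀ 1 + Pi.single j₀ 1) * top (swap i₀ j₀) := by
      rw [mul_inv_eq_iff_eq_mul]
      refine eq_of_inl ?_
      rintro ⟨k, x⟩
      have e11 : (1 + 1 : ZMod 2) = 0 := rfl
      by_cases e1 : k = i₀
      · subst e1
        rcases z2 x with rfl | rfl <;> simp [hg, swap_apply_def, hci, hcj, hj₀, hj₀.symm, e11]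
      by_cases e2 : k = j₀
      · subst e2
        rcases z2 x with rfl | rfl <;> simp [hg, swap_apply_def, hci, hcj, hj₀, hj₀.symm, e11]
      simp [hg, swap_apply_def, e1, e2]
    have h5 : g * tr c * g⁻¹ ∈ T := hsc _ h3 g (by
      rw [Perm.mem_alternatingGroup, hg, map_mul, sign_tr_single, Perm.sign_swap (by simp [hj₀.symm])]; rfl)
      ⟨by rw [h4]; exact ⟨_, _, hsw, rfl⟩, Normal.conj_mem inferInstance _ (hT h3).2 _⟩
    have h6 : tr (Pi.single i₀ (1 : ZMod 2) + Pi.single j₀ 1) ∈ T := by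
      have h7 := hE (hp i₀ k₀)
      have := mul_mem (hsc _ h5 _ h7.2 (mul_mem (mul_mem h7 (hT h5)) (inv_mem h7))) (inv_mem h5)
      rw [h4, mul_inv_rev, ← tr_neg (Pi.single i₀ 1 + _), mul_assoc, mul_assoc, mul_assoc, ← mul_assoc (top _),
        ← mul_assoc (top _ * _), top_conj_tr, ← tr_neg, ← tr_add, ← tr_add, ← tr_add] at this
      convert this using 2
      ext k
      simp only [Pi.add_apply, Pi.neg_apply, Function.comp_apply, Perm.inv_def, symm_swap, ZMod.neg_eq_self_mod_two]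
      generalize c k = w
      by_cases e1 : k = i₀
      · subst e1; simp [hj₀, hj₀.symm, hk₀.symm, hkj.symm]; revert w; decide
      by_cases e2 : k = j₀
      · subst e2; simp [hj₀, hk₀.symm, hkj.symm]; revert w; decide
      rw [swap_apply_of_ne_of_ne e1 e2]
      simp [e1, e2]
      generalize (Pi.single k₀ 1 : I → ZMod 2) k = v
      revert v w; decide
    have h7 : E I B 2 ⊓ A2 ≤ T := E0_le i₀ fun i j hij => by
      obtain ⟨τ, rfl, rfl⟩ := exists_two hj₀.symm hij
      have := cj _ h6 τ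
      rwa [Pi.add_comp, single_comp, single_comp] at this
    refine le_antisymm hT ?_
    rintro _ ⟨⟨b, τ, hτ, rfl⟩, hA⟩
    refine mul_mem (h7 ⟨tr_mem b, (mul_mem_cancel_right (top_mem_two τ)).1 hA⟩)
      ((og_of_isSyl hH).le (T := comap top T) (fun ρ hρ e => ?_) hτ)
    obtain ⟨d, g, hg, e⟩ := exists_conj_even (I := I) (B := B) card_lt (single_notMem i₀) (le_normalizer (tr_mem _))
      (y := top ρ) (by rw [← map_pow, e, map_one])
    have h8 : top ρ ∈ W B 2 H ⊓ A2 := ⟨top_mem_W hρ, top_mem_two ρ⟩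
    rw [mem_comap, ← e]
    refine hsc _ (h7 ⟨tr_mem d, ?_⟩) g hg (e ▸ h8)
    have := h8.2
    rw [← e] at this
    exact (mul_mem_cancel_left hg).1 ((mul_mem_cancel_right (inv_mem hg)).1 this)
  · have nE : ∀ g ∈ normalizer (E I B 2 : Set (Perm ((I × ZMod 2) ⊕ B))),
        g ∈ normalizer ((E I B 2 ⊓ A2 : Subgroup _) : Set (Perm ((I × ZMod 2) ⊕ B))) := fun g hg =>
      le_normalizer_inf le_rfl le_normalizer_of_normal hg
    have cs : ∀ i j, ∃ b, ∃ τ : Perm I, n⁻¹ * tr (Pi.single i 1 + Pi.single j 1) * n = tr b * top τ := fun i j => by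
      obtain ⟨b, τ, -, e⟩ := (H28.conj_mem_of_normalizer' hn (hE (hp i j))).1
      exact ⟨b, τ, e⟩
    have h0 : ∀ i x, ∃ s y, n (Sum.inl (i, x)) = Sum.inl (s, y) := fun i x => by
      rcases h0 : n (Sum.inl (i, x)) with ⟨s, y⟩ | b
      · exact ⟨s, y, rfl⟩
      obtain ⟨j, hj, -⟩ := exists_third hI i i
      obtain ⟨c, τ, -, e⟩ := (H28.conj_mem_of_normalizer hn (hE (hp i j))).1
      have := congrArg (· (n (Sum.inl (i, x)))) e
      simp only [Perm.mul_apply, H28.ia] at this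
      rw [h0, top_inr, tr_inr, ← h0] at this
      simpa [hj.symm] using n.injective this
    obtain ⟨a, σ, rfl⟩ := struct_two (n := n) fun i => by
      obtain ⟨s, y, h1⟩ := h0 i 0
      obtain ⟨s', y', h2⟩ := h0 i 1
      obtain rfl : s = s' := by
        by_contra hs
        obtain ⟨k, hk, hk'⟩ := exists_third hI s s'
        obtain ⟨b, τ, e⟩ := cs s' k
        have e0 := congrArg (· (Sum.inl (i, 0))) e
        have e1 := congrArg (· (Sum.inl (i, 1))) e
        simp only [Perm.mul_apply, h1, h2, tr_inl, top_inl, Pi.add_apply, Pi.single_eq_same, Pi.single_eq_of_ne hs,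
          Pi.single_eq_of_ne hk.symm, Pi.single_eq_of_ne hk'.symm, add_zero, zero_add] at e0 e1
        rw [← h1, H28.ia, Sum.inl.injEq, Prod.mk.injEq] at e0
        rw [← e0.2, ← e0.1, add_zero, Perm.inv_eq_iff_eq, h2] at e1
        simp at e1
      refine ⟨s, y, h1, h2.trans ?_⟩
      have : y' ≠ y := fun e => by
        have := n.injective (h2.trans (e ▸ h1.symm))
        simp at this
      congr 2
      clear h1 h2
      revert y y'; decide
    refine hG.ext (fun c hc h _ => mem_inf.2 ⟨mem_E_two hI h, hc⟩) hE le_rfl hnA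
      (fun _ => H28.conj_mem_of_normalizer hn) (hG.pn hE (mul_mem ?_ ?_))
    · exact mem_pN ((mul_mem_cancel_right (top_mem_two σ)).1 hnA) (nE _ (le_normalizer (tr_mem a)))
        ⟨1, by simpa using tr_pow a⟩
    · clear * - nE
      induction σ using Perm.swap_induction_on with
      | one => simp
      | swap_mul f x y _ ih =>
        rw [map_mul]
        exact mul_mem (mem_pN (top_mem_two _) (nE _ (top_mem_normalizer _))
          ⟨1, by rw [← map_pow, pow_one, pow_two, swap_mul_self, map_one]⟩) ih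

end two

section odd

local notation "Ap" => alternatingGroup ((I × ZMod p) ⊕ B)
local notation "Γ" => Perm ((I × ZMod p) ⊕ B)

theorem mem_alt_of_pEl {X : Type*} [Fintype X] [DecidableEq X] (hp : p ≠ 2) {g : Perm X} (h : PEl p g) :
    g ∈ alternatingGroup X := by
  obtain ⟨k, hk⟩ := h
  have := congrArg Perm.sign hk
  rw [map_pow, map_one] at this
  rcases Int.units_eq_one_or (Perm.sign g) with e | e
  · exact e
  · rw [e, (((Fact.out : p.Prime).odd_of_ne_two hp).pow).neg_one_pow] at this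
    exact absurd this (by decide)

theorem conj_mem_pN {G : Type*} [Group G] {A R : Subgroup G} [A.Normal] {g x : G} (hg : g ∈ normalizer (R : Set G))
    (hx : x ∈ pN p A R) : g * x * g⁻¹ ∈ pN p A R :=
  (closure_le (comap (MulAut.conj g).toMonoidHom (pN p A R))).2 (fun y hy => mem_pN
    (Normal.conj_mem inferInstance _ hy.1 g) (mul_mem (mul_mem hg hy.2.1) (inv_mem hg)) (hy.2.2.conj g)) hx

theorem top_mem_pN (hp : p ≠ 2) (hI : p ≤ Fintype.card I) {σ : Perm I} (hσ : σ ∈ alternatingGroup I) :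
    top σ ∈ pN p Ap (E I B p) := by
  have h1 : ∀ σ : Perm I, σ ^ p = 1 → σ ∈ comap top (pN p Ap (E I B p)) := fun σ e => by
    have : PEl p (top (B := B) (p := p) σ) := ⟨1, by rw [← map_pow, pow_one, e, map_one]⟩
    exact mem_pN (mem_alt_of_pEl hp this) (top_mem_normalizer σ) this
  change σ ∈ comap top (pN p Ap (E I B p))
  by_cases h3 : p = 3
  · rw [← Perm.closure_three_cycles_eq_alternating] at hσ
    exact (closure_le _).2 (fun τ hτ => h1 τ (by rw [h3, ← Perm.IsThreeCycle.orderOf hτ, pow_orderOf_eq_one])) hσ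
  haveI : (comap top (pN p Ap (E I B p))).Normal := ⟨fun x hx g => by
    rw [mem_comap, map_mul, map_mul, map_inv]; exact conj_mem_pN (top_mem_normalizer g) hx⟩
  obtain ⟨c, hc⟩ := exists_prime_orderOf_dvd_card' (G := Perm I) p (by
    rw [Nat.card_eq_fintype_card, Fintype.card_perm]; exact Nat.dvd_factorial (Fact.out : p.Prime).pos hI)
  refine Perm.alternatingGroup_le_of_normal ?_ ((nontrivial_iff_exists_ne_one _).2
    ⟨c, h1 c (hc ▸ pow_orderOf_eq_one c), fun e => (Fact.out : p.Prime).one_lt.ne' (by rw [← hc, e, orderOf_one])⟩) hσ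
  rw [Nat.card_eq_fintype_card]
  exact ((Fact.out : p.Prime).five_le_of_ne_two_of_ne_three hp h3).trans hI

theorem exists_alt (hI : 3 ≤ Fintype.card I) (i j : I) : ∃ σ ∈ alternatingGroup I, σ i = j := by
  by_cases h : i = j
  · exact ⟨1, one_mem _, h⟩
  obtain ⟨k, hk, hk'⟩ := exists_third hI i j
  refine ⟨swap i k * swap i j, Perm.mul_mem_alternatingGroup_of_isSwap ⟨_, _, hk.symm, rfl⟩ ⟨_, _, h, rfl⟩, ?_⟩
  rw [Perm.mul_apply, swap_apply_left, swap_apply_of_ne_of_ne (Ne.symm h) hk'.symm]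

theorem three_le (hp : p ≠ 2) : 3 ≤ p := (Fact.out : p.Prime).two_le.lt_of_ne' hp

theorem dg_mem_pN (hp : p ≠ 2) (hI : p ≤ Fintype.card I) {u : I → (ZMod p)ˣ} (hu : ∏ i, u i = 1) :
    dg u ∈ pN p Ap (E I B p) := by
  obtain ⟨i₀⟩ : Nonempty I := Fintype.card_pos_iff.1 ((Fact.out : p.Prime).pos.trans_le hI)
  have key : ∀ u : I → (ZMod p)ˣ, dg (u * (Pi.mulSingle i₀ (∏ i, u i))⁻¹) ∈ pN p Ap (E I B p) := fun u => by
    induction u using Pi.mulSingle_induction with
    | one => simp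
    | mul a c ha hc =>
      have := mul_mem ha hc
      rwa [← map_mul, mul_mul_mul_comm, ← mul_inv, ← Pi.mulSingle_mul, ← Finset.prod_mul_distrib] at this
    | mulSingle i x =>
      rw [Finset.prod_pi_mulSingle', if_pos (Finset.mem_univ _)]
      obtain ⟨σ, hσ, rfl⟩ := exists_alt ((three_le hp).trans hI) i₀ i
      have h1 := top_mem_pN (B := B) hp hI hσ
      have := mul_mem h1 (conj_mem_pN (dg_mem_normalizer (Pi.mulSingle i₀ x)) (inv_mem h1))
      rw [← mul_assoc, ← mul_assoc, top_mul_dg, mul_inv_cancel_right, ← map_inv, ← map_mul] at this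
      convert this using 3
      ext j; simp [Pi.mulSingle_apply, Equiv.symm_apply_eq]
  simpa [hu] using key u

theorem E_le_of_sc (hp : p ≠ 2) (hI : p ≤ Fintype.card I) {T : Subgroup Γ} {a : I → ZMod p} (ha : tr a ∈ T)
    (h0 : a ≠ 0) (h : ∀ x ∈ T, ∀ g ∈ pN p Ap (E I B p), x ∈ E I B p → g * x * g⁻¹ ∈ T) : E I B p ≤ T := by
  have h3 := (three_le hp).trans hI
  obtain ⟨i, hi⟩ := Function.ne_iff.1 h0
  obtain ⟨j, hj, -⟩ := exists_third h3 i i
  obtain ⟨k, hk, hkj⟩ := exists_third h3 i j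
  have key : ∀ a, tr a ∈ T → ∀ j, j ≠ i → tr (Pi.single i (2 * a i) + Pi.single j (2 * a j)) ∈ T := fun a ha j hj => by
    have h1 := h _ ha _ (dg_mem_pN hp hI (u := Pi.mulSingle i (-1) * Pi.mulSingle j (-1)) (by
      simp [Finset.prod_mul_distrib, Finset.prod_pi_mulSingle'])) (tr_mem a)
    have := mul_mem ha (inv_mem h1)
    rw [dg_mul_tr, mul_inv_cancel_right, ← tr_neg, ← tr_add] at this
    convert this using 2
    ext l
    by_cases e : l = i
    · subst e; simp [hj.symm, two_mul]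
    by_cases e' : l = j
    · subst e'; simp [hj, two_mul]
    simp [e, e']
  have h1 := key _ (key a ha j hj) k hk
  simp only [Pi.add_apply, Pi.single_eq_same, Pi.single_eq_of_ne hj.symm, Pi.single_eq_of_ne hk,
    Pi.single_eq_of_ne hkj, add_zero, mul_zero, Pi.single_zero] at h1
  have h2 : (2 : ZMod p) ≠ 0 := by
    rw [← Nat.cast_ofNat, Ne, ZMod.natCast_eq_zero_iff]
    exact fun e => hp ((Nat.prime_dvd_prime_iff_eq Fact.out Nat.prime_two).1 e)
  have h4 : ∀ x, tr (Pi.single i x) ∈ T := fun x => by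
    have := pow_mem h1 (x * (2 * (2 * a i))⁻¹).val
    rwa [← tr_nsmul, ← Pi.single_smul, nsmul_eq_mul, ZMod.natCast_zmod_val,
      inv_mul_cancel_right₀ (mul_ne_zero h2 (mul_ne_zero h2 hi))] at this
  intro g hg
  simpa using conj_mem_E (n := 1) (T := T) (fun l x => by
    obtain ⟨σ, hσ, rfl⟩ := exists_alt h3 i l
    have := h _ (h4 x) _ (top_mem_pN hp hI hσ) (tr_mem _)
    rw [top_conj_tr, single_comp] at this
    simpa using this) g hg

end odd

section odd2

variable {J : Type} [Fintype J] [DecidableEq J]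

local notation "Γ" => Perm (((ZMod p ⊕ J) × ZMod p) ⊕ B)
local notation "Ap" => alternatingGroup (((ZMod p ⊕ J) × ZMod p) ⊕ B)

variable (J B p) in
/-- the plane formed by `p` blocks -/
def pl : (Fin 2 → ZMod p) ↪ ((ZMod p ⊕ J) × ZMod p) ⊕ B :=
  ⟨fun v => Sum.inl (Sum.inl (v 1), v 0), fun v w h => by
    simp only [Sum.inl.injEq, Prod.mk.injEq] at h
    ext i; fin_cases i <;> simp [h.1, h.2]⟩

/-- translations of the plane and of the other blocks -/
def rg (v : Fin 2 → ZMod p) (a : J → ZMod p) : Γ :=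
  tr (Sum.elim (fun _ => v 0) a) * top (Perm.sumCongr (Equiv.addRight (v 1)) 1)

omit [Fintype B] [DecidableEq B] [Fintype J] [DecidableEq J] in
theorem rg_pl (v w : Fin 2 → ZMod p) (a : J → ZMod p) : rg v a (pl B p J w) = pl B p J (w + v) := rfl

omit [Fintype B] [DecidableEq B] [Fintype J] [DecidableEq J] in
theorem rg_inr (v : Fin 2 → ZMod p) (a : J → ZMod p) (j : J) (x : ZMod p) :
    rg (B := B) v a (Sum.inl (Sum.inr j, x)) = Sum.inl (Sum.inr j, x + a j) := rfl

omit [Fintype B] [DecidableEq B] [Fintype J] [DecidableEq J] in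
theorem ext_pl [Subsingleton B] {g h : Γ} (h1 : ∀ w, g (pl B p J w) = h (pl B p J w))
    (h2 : ∀ j x, g (Sum.inl (Sum.inr j, x)) = h (Sum.inl (Sum.inr j, x))) : g = h := by
  refine eq_of_inl ?_
  rintro ⟨y | j, x⟩
  · exact h1 ![x, y]
  · exact h2 j x

variable (J B p) in
/-- a centric subgroup acting regularly on the plane -/
def Rg [Subsingleton B] : Subgroup Γ where
  carrier := {g | ∃ v a, g = rg v a}
  one_mem' := ⟨0, 0, ext_pl (by simp [rg_pl]) (by simp [rg_inr])⟩
  mul_mem' := by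
    rintro _ _ ⟨v, a, rfl⟩ ⟨w, c, rfl⟩
    exact ⟨w + v, c + a, ext_pl (by simp [rg_pl, add_assoc]) (by simp [rg_inr, add_assoc])⟩
  inv_mem' := by
    rintro _ ⟨v, a, rfl⟩
    exact ⟨-v, -a, inv_eq_of_mul_eq_one_left (ext_pl (by simp [rg_pl]) (by simp [rg_inr]))⟩

theorem mem_Rg_of_comm [Subsingleton B] {c : Γ} (h : ∀ r ∈ Rg B p J, r * c = c * r) : c ∈ Rg B p J := by
  have h1 : ∀ v a w, rg v a (c w) = c (rg v a w) := fun v a w => congrArg (· w) (h _ ⟨v, a, rfl⟩)
  obtain ⟨v, hv⟩ : ∃ v, c (pl B p J 0) = pl B p J v := by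
    have h2 : rg 1 0 (c (pl B p J 0)) ≠ c (pl B p J 0) := by
      rw [h1, rg_pl]; exact fun e => by simpa using (pl B p J).injective (c.injective e)
    rcases h0 : c (pl B p J 0) with ⟨y | j, x⟩ | b
    · exact ⟨![x, y], rfl⟩
    · exact absurd (by rw [h0, rg_inr]; simp) h2
    · exact absurd (by rw [h0]; rfl) h2
  have h3 : ∀ j, ∃ a, c (Sum.inl (Sum.inr j, 0)) = Sum.inl (Sum.inr j, a) := fun j => by
    have h2 : rg 0 (Pi.single j 1) (c (Sum.inl (Sum.inr j, 0))) ≠ c (Sum.inl (Sum.inr j, 0)) := by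
      rw [h1, rg_inr]; exact fun e => by simpa using c.injective e
    rcases h0 : c (Sum.inl (Sum.inr j, 0)) with ⟨y | k, x⟩ | b
    · exact absurd (by rw [h0]; exact (rg_pl _ ![x, y] _).trans (by rw [add_zero]; rfl)) h2
    · by_cases e : k = j
      · exact ⟨x, e ▸ rfl⟩
      · exact absurd (by rw [h0, rg_inr]; simp [e]) h2
    · exact absurd (by rw [h0]; rfl) h2
  choose a ha using h3
  refine ⟨v, a, ext_pl (fun w => ?_) fun j x => ?_⟩
  · have := h1 w 0 (pl B p J 0)
    rw [hv, rg_pl, rg_pl, zero_add] at this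
    rw [← this, rg_pl, add_comm]
  · have := h1 0 (Pi.single j x) (Sum.inl (Sum.inr j, 0))
    rw [ha, rg_inr, rg_inr, zero_add, Pi.single_eq_same] at this
    rw [← this, rg_inr, add_comm]

variable (J B p) in
/-- the linear action on the plane -/
noncomputable def ln : Matrix.SpecialLinearGroup (Fin 2) (ZMod p) →* Γ :=
  (Perm.viaEmbeddingHom (pl B p J)).comp (MulAction.toPermHom _ (Fin 2 → ZMod p))

omit [Fintype B] [DecidableEq B] [Fintype J] [DecidableEq J] in
theorem ln_pl (g : Matrix.SpecialLinearGroup (Fin 2) (ZMod p)) (w : Fin 2 → ZMod p) :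
    ln B p J g (pl B p J w) = pl B p J (g • w) := Perm.viaEmbedding_apply _ _ _

omit [Fintype B] [DecidableEq B] [Fintype J] [DecidableEq J] in
theorem ln_inr (g : Matrix.SpecialLinearGroup (Fin 2) (ZMod p)) (j : J) (x : ZMod p) :
    ln B p J g (Sum.inl (Sum.inr j, x)) = Sum.inl (Sum.inr j, x) :=
  Perm.viaEmbedding_apply_of_notMem _ _ _ (by rintro ⟨w, h⟩; cases h)

theorem ln_mem_normalizer [Subsingleton B] (g : Matrix.SpecialLinearGroup (Fin 2) (ZMod p)) :
    ln B p J g ∈ normalizer (Rg B p J : Set Γ) := mem_normalizer_fintype (by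
  rintro _ ⟨v, a, rfl⟩
  refine ⟨g • v, a, mul_inv_eq_iff_eq_mul.2 (ext_pl (fun w => ?_) fun j x => ?_)⟩
  · simp only [Perm.mul_apply, rg_pl, ln_pl, smul_add]
  · simp only [Perm.mul_apply, rg_inr, ln_inr])

theorem simple_odd [Subsingleton B] (hp : p ≠ 2) (S' : Sylow p Ap) :
    (groupFusionSystem (S' : Subgroup Ap)).IsSimple p := by
  have hI : p ≤ Fintype.card (ZMod p ⊕ J) := by simp
  have hpw : ∀ k : ℕ, (Perm.sumCongr (Equiv.addRight 1) 1 : Perm (ZMod p ⊕ J)) ^ k =
      Perm.sumCongr (Equiv.addRight (k : ZMod p)) 1 := fun k => by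
    induction k with
    | zero => ext (x | x) <;> simp
    | succ k ih => rw [pow_succ', ih]; ext (x | x) <;> simp [add_assoc]
  obtain ⟨H, hH, hsw⟩ := exists_isSyl_ge (G := Perm (ZMod p ⊕ J)) (p := p)
    (Q := zpowers (Perm.sumCongr (Equiv.addRight 1) 1)) (isPGroup_zpowers ⟨1, by
      rw [pow_one, hpw]; ext (x | x) <;> simp⟩) le_top
  have hR : Rg B p J ≤ W B p H := by
    rintro _ ⟨v, a, rfl⟩
    refine ⟨_, _, hsw ⟨((v 1).val : ℕ), ?_⟩, rfl⟩
    simp only [zpow_natCast, hpw, ZMod.natCast_zmod_val]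
  have hW := isSyl_W (B := B) card_lt hH
  have hWA : W B p H ≤ Ap := fun g hg => mem_alt_of_pEl hp (PEl.of_mem hW.pg hg)
  have hS : IsSyl p (W B p H) Ap := hW.mono hWA le_top
  have hE := E_le_W (B := B) (p := p) H
  refine simple_of_good hS (fun e => ?_) (fun T hT hne hsc => ?_) (fun Good hG n hnA hn => ?_) S'
  · have := hE (tr_mem 1)
    rw [e, mem_bot, ← tr_zero] at this
    simpa using congrFun (tr_injective this) (Sum.inl 0)
  · obtain ⟨z, hz, hz1, hzc⟩ := exists_fixed_of_normalizes hS.pg (hS.pg.to_le hT)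
      (fun g hg => mem_normalizer_fintype fun x hx =>
        hsc _ hx g (hWA hg) (mul_mem (mul_mem hg (hT hx)) (inv_mem hg))) hne
    obtain ⟨a, rfl⟩ := mem_E_of_comm fun r hr => hzc r (hE hr)
    have h1 : E _ B p ≤ T := E_le_of_sc hp hI hz (fun e => hz1 (by rw [e, tr_zero])) fun x hx g hg hxE =>
      hsc x hx g (pN_le _ _ hg) (hE (H28.conj_mem_of_normalizer (pN_le_normalizer _ _ hg) hxE))
    refine le_antisymm hT ((og_W (og_of_isSyl hH)).le fun y hy e => ?_)
    have h2 : (Sum.inl 0 : ZMod p ⊕ J) ≠ Sum.inl 1 := by simp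
    obtain ⟨d, g, hg, rfl⟩ := exists_conj_even card_lt (o := top (swap (Sum.inl 0) (Sum.inl 1))) (by
      rw [Perm.mem_alternatingGroup, sign_top, Perm.sign_swap h2,
        ((Fact.out : p.Prime).odd_of_ne_two hp).neg_one_pow]; decide) (top_mem_normalizer _) e
    exact hsc _ (h1 (tr_mem d)) g hg hy
  · have hnE : n ∈ normalizer (E (ZMod p ⊕ J) B p : Set Γ) := mem_normalizer_fintype (conj_mem_E fun i x => by
      obtain ⟨a, σ, -, e⟩ := H28.conj_mem_of_normalizer hn (hE (tr_mem (Pi.single i x)))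
      have : σ = 1 := top_eq_one_of_card (B := B) (a := a) (by
        rw [← e, Perm.card_support_conj, card_support_tr]
        refine Nat.mul_lt_mul_of_pos_right (lt_of_le_of_lt (Finset.card_le_one_iff_subset_singleton.2
          ⟨i, fun j hj => ?_⟩) one_lt_two) (Fact.out : p.Prime).pos
        by_contra h
        exact (Finset.mem_filter.1 hj).2 (Pi.single_eq_of_ne (by simpa using h) _))
      rw [e, this, map_one, mul_one]; exact tr_mem a)
    have cE : Ctr p Ap (E (ZMod p ⊕ J) B p) := fun c _ h _ => mem_E_of_comm h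
    refine hG.ext cE hE le_rfl hnA (fun _ => H28.conj_mem_of_normalizer hn) (And.right (show n ∈ hG.sub hE from ?_))
    obtain ⟨a, σ, u, rfl⟩ := struct_of_normalizer hnE
    set l := ∏ i, u i
    set d := ln B p J (Matrix.SpecialLinearGroup.diag2n zero_ne_one l.1 l.ne_zero) with hd
    have e1 : d = top (Perm.sumCongr (l⁻¹).mulLeft 1) * dg (Sum.elim (fun _ => l) 1) :=
      ext_pl (fun w => by
        rw [hd, ln_pl]
        change Sum.inl (Sum.inl _, _) = Sum.inl (Sum.inl ((l⁻¹).1 * w 1), l.1 * w 0)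
        have : ∀ i, (Matrix.SpecialLinearGroup.diag2n zero_ne_one l.1 l.ne_zero • w) i =
            (if i = 0 then l.1 else if i = 1 then l.1⁻¹ else 1) * w i := fun i => by
          rw [Matrix.SpecialLinearGroup.smul_def, Matrix.smul_eq_mulVec, Matrix.SpecialLinearGroup.diag2n_coe,
            Matrix.mulVec_diagonal]
        rw [this, this, Units.val_inv_eq_inv_val, if_pos rfl, if_neg one_ne_zero, if_pos rfl])
        fun j x => by rw [hd, ln_inr]; exact congrArg (fun y => Sum.inl (Sum.inr j, y)) (one_mul x).symm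
    have h1 : d ∈ pN p Ap (Rg B p J) := by
      have key : ∀ {i j : Fin 2} (h : i ≠ j) (c : ZMod p),
          Matrix.SpecialLinearGroup.transvection h c ∈ comap (ln B p J) (pN p Ap (Rg B p J)) := fun h c =>
        mem_pN (mem_alt_of_pEl hp (((isTv_transvection h c).pEl p).map _)) (ln_mem_normalizer _)
          (((isTv_transvection h c).pEl p).map _)
      exact diag2n_mem _ (key _) (key _) _
    have h2 : d ∈ normalizer (E (ZMod p ⊕ J) B p : Set Γ) :=
      e1 ▸ mul_mem (top_mem_normalizer _) (dg_mem_normalizer _)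
    have h3 : d ∈ hG.sub hE := ⟨h2, hG.mono (hG.ext (P := Rg B p J ⊔ E _ B p) (fun c _ h _ => mem_Rg_of_comm h)
      le_sup_left (sup_le hR hE) (pN_le _ _ h1) (fun x hx => sup_le hR hE (H28.conj_mem_of_normalizer
        (le_normalizer_sup (H := zpowers d) (zpowers_le.2 (pN_le_normalizer _ _ h1)) (zpowers_le.2 h2) (mem_zpowers d))
        hx)) (hG.pn hR h1)) le_sup_right⟩
    set u' := u * (Sum.elim (fun _ => l) 1)⁻¹ with hu'
    have h4 : dg u' ∈ pN p Ap (E (ZMod p ⊕ J) B p) := dg_mem_pN hp hI (by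
      simp only [hu', Pi.mul_apply, Pi.inv_apply, Finset.prod_mul_distrib, Finset.prod_inv_distrib]
      rw [mul_inv_eq_one, Fintype.prod_sum_type (Sum.elim _ _)]
      simp [l, Units.ext_iff])
    have h5 : tr a ∈ pN p Ap (E (ZMod p ⊕ J) B p) :=
      mem_pN (hWA (hE (tr_mem a))) (le_normalizer (tr_mem a)) ⟨1, by simpa using tr_pow a⟩
    set τ : Perm (ZMod p ⊕ J) := Perm.sumCongr (l⁻¹).mulLeft 1
    have h6 := conj_mem_pN (top_mem_normalizer τ) h4
    have e2 : tr a * top σ * dg u = tr a * top (σ * τ⁻¹) * (top τ * dg u' * (top τ)⁻¹) * d := by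
      simp only [e1, hu', map_mul, map_inv]; group
    have h7 : top (σ * τ⁻¹) ∈ Ap := by
      rw [e2] at hnA
      exact (mul_mem_cancel_left (pN_le _ _ h5)).1 ((mul_mem_cancel_right (pN_le _ _ h6)).1
        ((mul_mem_cancel_right (pN_le _ _ h1)).1 hnA))
    have h8 : σ * τ⁻¹ ∈ alternatingGroup _ := by
      rw [Perm.mem_alternatingGroup, sign_top] at h7
      rcases Int.units_eq_one_or (Perm.sign (σ * τ⁻¹)) with e | e
      · exact e
      · rw [e, ((Fact.out : p.Prime).odd_of_ne_two hp).neg_one_pow] at h7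
        exact absurd h7 (by decide)
    rw [e2]
    exact mul_mem (hG.pN_le hE (mul_mem (mul_mem h5 (top_mem_pN hp hI h8)) h6)) h3

end odd2

end H04.AW
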