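import Cfsg.Agent.L.Fz0

/-! The graph on 276 involutions of `2¹¹`: neighbourhoods are two cliques (part X for `L.Fz`). -/

set_option autoImplicit false

namespace H04.FzX
open Subgroup L.Fz

universe u

theorem core {A : Type u} [CommGroup A] [Finite A] (D : Set A) (sq : ∀ x : A, x * x = 1) (d1 : 1 ∉ D) (d : D.ncard = 276)
    (b : ∀ t ∈ D, {s | s ∈ D ∧ s * t ∈ D}.ncard = 44)
    (four : ∀ t ∈ D, ∀ u ∈ D, u ≠ t → t * u ∉ D → {s | s ∈ D ∧ s * t ∈ D ∧ s * u ∈ D}.ncard = 4 ∧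
      ∀ s ∈ D, s * t ∈ D → s * u ∈ D → s * t * u ∈ D) : Xb D := by
  classical
  letI := Fintype.ofFinite A
  have sq' : ∀ x y : A, x * (x * y) = y := fun x y => by rw [← mul_assoc, sq, one_mul]
  have eq1 : ∀ {x y : A}, x * y = 1 → x = y := fun {x y} h => by rw [← sq' y x, mul_comm y x, h, mul_one]
  have n1 : ∀ {x}, x ∈ D → x ≠ 1 := fun h e => d1 (e ▸ h)
  refine ⟨fun t ht s hs r hr st rt rs rst => ?_, fun t ht s hs r hr w hw st rt wt rst wst rw sr sw => ?_⟩
  · let N := Finset.univ.filter fun s => s ∈ D ∧ s * t ∈ D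
    have cN : N.card = 44 := by rw [← b t ht, ← Set.ncard_coe_finset]; simp [N]
    let U := ((Finset.univ.filter fun s => s ∈ D) \ N).erase t
    have mU : ∀ u, u ∈ U ↔ u ≠ t ∧ u ∈ D ∧ t * u ∉ D := fun u => by
      simp only [U, N, Finset.mem_erase, Finset.mem_sdiff, Finset.mem_filter, Finset.mem_univ, true_and, mul_comm t]
      tauto
    have cU : U.card = 231 := by
      rw [Finset.card_erase_of_mem (by simp [N, ht, sq, d1]), Finset.card_sdiff_of_subset (fun x => by simp [N]; tauto), cN,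
        ← Set.ncard_coe_finset]
      simp [d]
    let Q := U.sigma fun u => Finset.univ.filter fun s => s ∈ D ∧ s * t ∈ D ∧ s * u ∈ D
    have cQ : Q.card = 924 := by
      rw [Finset.card_sigma, Finset.sum_congr rfl (g := fun _ => 4) fun u hu => ?_, Finset.sum_const, cU]; rfl
      obtain ⟨a, b, c⟩ := (mU u).1 hu
      rw [← (four t ht u b a c).1, ← Set.ncard_coe_finset]; simp
    let P := N.sigma fun s => (N.erase s).erase (s * t)
    have cP : P.card = 1848 := by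
      rw [Finset.card_sigma, Finset.sum_congr rfl (g := fun _ => 42) fun u hu => ?_, Finset.sum_const, cN]; rfl
      have := (Finset.mem_filter.1 hu).2
      rw [Finset.card_erase_of_mem (by simp [N, n1 ht, this, mul_assoc, sq]), Finset.card_erase_of_mem hu, cN]
    have mQ : ∀ x : Σ _ : A, A, x ∈ Q → x.1 ≠ t ∧ x.1 ∈ D ∧ t * x.1 ∉ D ∧ x.2 ∈ D ∧ x.2 * t ∈ D ∧ x.2 * x.1 ∈ D ∧
        x.2 * t * x.1 ∈ D := fun x hx => by
      obtain ⟨h1, h2⟩ := Finset.mem_sigma.1 hx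
      obtain ⟨a, b, c⟩ := (mU _).1 h1
      obtain ⟨-, e, f, g⟩ := Finset.mem_filter.1 h2
      exact ⟨a, b, c, e, f, g, (four t ht _ b a c).2 _ e f g⟩
    let f : A → (Σ _ : A, A) → Σ _ : A, A := fun k x => ⟨x.2, x.2 * x.1 * k⟩
    have fi : ∀ k, Function.Injective (f k) := fun k x y h => by
      obtain ⟨x1, x2⟩ := x
      obtain ⟨y1, y2⟩ := y
      simp only [f, Sigma.mk.injEq, heq_eq_eq] at h ⊢
      obtain ⟨rfl, h⟩ := h
      simpa using h
    have sub : Q.image (f 1) ∪ Q.image (f t) ⊆ P := fun y hy => by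
      rcases Finset.mem_union.1 hy with hy | hy <;> obtain ⟨⟨u, s⟩, hx, rfl⟩ := Finset.mem_image.1 hy <;>
        obtain ⟨a, b, c, e, g, h, i⟩ := mQ _ hx <;> dsimp only at a b c e g h i
      · simp [P, N, f, a, e, g, h, n1 b, mul_right_comm s u t, i]
      · have : u * t ≠ 1 := fun e => a (eq1 e)
        have j : s * (u * t) ∈ D := by rwa [mul_comm u, ← mul_assoc]
        simp [P, N, f, e, g, h, n1 b, mul_assoc, sq, this, j]
    have dis : Disjoint (Q.image (f 1)) (Q.image (f t)) := Finset.disjoint_left.2 fun y h1 h2 => by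
      obtain ⟨⟨u, s⟩, hx, rfl⟩ := Finset.mem_image.1 h1
      obtain ⟨⟨u', s'⟩, hx', e⟩ := Finset.mem_image.1 h2
      simp only [f, Sigma.mk.injEq, heq_eq_eq, mul_one] at e
      obtain ⟨rfl, e⟩ := e
      rw [mul_assoc, mul_right_inj] at e
      exact (mQ _ hx').2.2.1 (by rw [mul_comm, e]; exact (mQ _ hx).2.1)
    have E := Finset.eq_of_subset_of_card_le sub (by
      rw [Finset.card_union_of_disjoint dis, Finset.card_image_of_injective _ (fi _), Finset.card_image_of_injective _ (fi _),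
        cP, cQ])
    have : (⟨s, r⟩ : Σ _ : A, A) ∈ P := by simp [P, N, hs, hr, st, rt, rs, rst]
    rw [← E] at this
    rcases Finset.mem_union.1 this with hy | hy <;> obtain ⟨⟨u, s'⟩, hx, e⟩ := Finset.mem_image.1 hy <;>
      obtain ⟨a, b, c, -⟩ := mQ _ hx <;> simp only [f, Sigma.mk.injEq, heq_eq_eq, mul_one] at e a b c <;>
      obtain ⟨rfl, rfl⟩ := e
    · rw [sq', mul_comm u t]; exact iff_of_true b c
    · rw [mul_assoc s' u, sq', mul_assoc, sq, mul_one, mul_comm u t]; exact iff_of_false c (not_not.2 b)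
  · by_contra n
    obtain ⟨c4, cl⟩ := four r hr w hw rw.symm n
    have tr : t * r ∈ D := by rwa [mul_comm]
    have tw : t * w ∈ D := by rwa [mul_comm]
    have k := cl t ht tr tw
    have rw1 : r * w ≠ 1 := fun e => rw (eq1 e)
    have := Set.eq_of_subset_of_ncard_le (s := {t, t * r * w, t * r, t * w}) (t := {s | s ∈ D ∧ s * r ∈ D ∧ s * w ∈ D})
      (by
        rintro _ (rfl | rfl | rfl | rfl)
        · exact ⟨ht, tr, tw⟩
        · exact ⟨k, by rwa [mul_right_comm, mul_assoc t, sq, mul_one], by rwa [mul_assoc, sq, mul_one]⟩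
        · exact ⟨tr, by rwa [mul_assoc, sq, mul_one], k⟩
        · exact ⟨tw, by rwa [mul_right_comm], by rwa [mul_assoc, sq, mul_one]⟩)
      (by
        rw [c4, Set.ncard_insert_of_notMem (by simp [mul_assoc, rw1, n1 hr, n1 hw]),
          Set.ncard_insert_of_notMem (by simp [mul_assoc, n1 hr, n1 hw]), Set.ncard_pair (by simpa using rw)])
    have hs' : s ∈ ({t, t * r * w, t * r, t * w} : Set A) := this ▸ ⟨hs, sr, sw⟩
    rcases hs' with rfl | rfl | rfl | rfl
    · exact d1 (sq s ▸ st)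
    · exact n (by rwa [mul_comm, mul_assoc, sq'] at st)
    · exact rst (by rw [mul_comm, sq'])
    · exact wst (by rw [mul_comm, sq'])

theorem x : L.Fz.XStmt.{u} := by
  intro G _ _ A M B D z c k n
  have cm : ∀ x ∈ A, ∀ y ∈ A, x * y = y * x := fun x hx y hy => by
    rw [← inv_inj, mul_inv_rev, inv_eq_of_mul_eq_one_right (c.sq x hx), inv_eq_of_mul_eq_one_right (c.sq y hy),
      inv_eq_of_mul_eq_one_right (c.sq _ (mul_mem hy hx))]
  letI : CommGroup A := { (inferInstance : Group A) with mul_comm := fun x y => Subtype.ext (cm _ x.2 _ y.2) }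
  have nc : ∀ S : Set G, (∀ x ∈ S, x ∈ D) → (Subtype.val ⁻¹' S : Set A).ncard = S.ncard := fun S h =>
    Set.ncard_preimage_of_injective_subset_range Subtype.val_injective fun x hx => ⟨⟨x, (c.DA x (h x hx)).1⟩, rfl⟩
  have four : ∀ t ∈ D, ∀ u ∈ D, u ≠ t → t * u ∉ D → {s | s ∈ D ∧ s * t ∈ D ∧ s * u ∈ D}.ncard = 4 ∧
      ∀ s ∈ D, s * t ∈ D → s * u ∈ D → s * t * u ∈ D := by
    intro t ht u hu ut tu
    have tA := (c.DA t ht).1
    have uA := (c.DA u hu).1
    obtain ⟨m, hm, e⟩ := c.trZ (t * u) (mul_mem tA uA) (fun e => ut (by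
      rw [← mul_right_inj t, e, c.sq t tA])) tu
    have iff : ∀ x, m * x * m⁻¹ ∈ D ↔ x ∈ D := fun x =>
      ⟨fun h => by simpa [mul_assoc] using c.Dc _ (inv_mem hm) _ h, c.Dc m hm x⟩
    obtain ⟨t, rfl⟩ : ∃ t', m * t' * m⁻¹ = t := ⟨m⁻¹ * t * m, by group⟩
    have ht' := (iff t).1 ht
    obtain rfl : u = m * (t * z) * m⁻¹ := by
      rw [← conj_mul, e, ← mul_assoc, c.sq _ tA, one_mul]
    have tB := n.a t ht' ((iff _).1 hu)
    have key : ∀ s, s ∈ D ∧ s * t ∈ D ∧ s * (t * z) ∈ D ↔ s ∈ D ∧ s ∈ B ∧ s * t ∈ D := fun s =>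
      ⟨fun ⟨a, b, d⟩ => ⟨a, (mul_mem_cancel_right tB).1 (n.a _ b (by rwa [mul_assoc])), b⟩,
        fun ⟨a, b, d⟩ => ⟨a, d, by rw [← mul_assoc]; exact c.Bz _ d (mul_mem b tB)⟩⟩
    constructor
    · rw [← k.c4 t ht' tB, ← Set.ncard_image_of_injective {s | s ∈ D ∧ s ∈ B ∧ s * t ∈ D} (MulAut.conj m).injective]
      congr 1
      ext s
      obtain ⟨s, rfl⟩ := (MulAut.conj m).surjective s
      rw [(MulAut.conj m).injective.mem_set_image]
      simp only [Set.mem_ofPred_eq, MulAut.conj_apply, conj_mul, iff, key]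
    · intro s hs a b
      obtain ⟨s, rfl⟩ : ∃ s', m * s' * m⁻¹ = s := ⟨m⁻¹ * s * m, by group⟩
      simp only [conj_mul, iff] at hs a b ⊢
      rw [mul_assoc, ← mul_assoc t, c.sq t (c.DA t ht').1, one_mul]
      exact c.Bz _ hs ((key s).1 ⟨hs, a, b⟩).2.1
  have X := core (A := A) (Subtype.val ⁻¹' D) (fun x => Subtype.ext (c.sq _ x.2)) (fun h => (c.DA _ h).2 rfl)
    ((nc D fun _ h => h).trans n.d) (fun t ht => (nc {s | s ∈ D ∧ s * t ∈ D} fun _ h => h.1).trans (n.b t ht))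
    fun t ht u hu ut tu => ⟨(nc {s | s ∈ D ∧ s * t ∈ D ∧ s * u ∈ D} fun _ h => h.1).trans
      (four t ht u hu (fun e => ut (Subtype.ext e)) tu).1, fun s => (four t ht u hu (fun e => ut (Subtype.ext e)) tu).2 s⟩
  refine ⟨fun t ht s hs r hr st rt rs rst => ?_, fun t ht s hs r hr w hw st rt wt rst wst rw sr sw => ?_⟩
  · exact X.one ⟨t, (c.DA _ ht).1⟩ ht ⟨s, (c.DA _ hs).1⟩ hs ⟨r, (c.DA _ hr).1⟩ hr st rt
      (fun e => rs (congrArg Subtype.val e)) fun e => rst (congrArg Subtype.val e)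
  · exact X.tr ⟨t, (c.DA _ ht).1⟩ ht ⟨s, (c.DA _ hs).1⟩ hs ⟨r, (c.DA _ hr).1⟩ hr ⟨w, (c.DA _ hw).1⟩ hw st rt wt
      (fun e => rst (congrArg Subtype.val e)) (fun e => wst (congrArg Subtype.val e))
      (fun e => rw (congrArg Subtype.val e)) sr sw

end H04.FzX
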