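import Mathlib
import Cfsg.Agent.H01.SR1
import Cfsg.Agent.H04.Metacyclic

/-!
# MacWilliams' theorem, generic lemmas (namespace `H04.MW`)

* `R2 N` : sectional rank of `N` at most 2 in ambient form; `r2_of` : the squaring-fibre criterion;
* `top` : gluing with a quotient of order at most 4 or non-abelian of order at most 8.
-/

set_option autoImplicit false
set_option linter.unusedSectionVars false
open Cfsg BG Subgroup
open scoped commutatorElement

namespace H04.MW
variable {G : Type*} [Group G] [Finite G]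

def R2 (N : Subgroup G) : Prop := ∀ H K : Subgroup G, H ≤ N → (∀ x ∈ H, x * x ∈ K) → K.relIndex H ≤ 4

theorem pw (n : ℕ) : ∀ (m : ℕ) (s : G), s ^ 2 ^ m = 1 → s ^ 2 ^ n ≠ 1 →
    ∃ k, (s ^ k) ^ 2 ^ (n + 1) = 1 ∧ (s ^ k) ^ 2 ^ n ≠ 1 := by
  intro m
  induction m with
  | zero => intro s h h'; exact absurd (by simp at h; simp [h]) h'
  | succ m ih =>
    intro s h h'
    by_cases e : s ^ 2 ^ (n + 1) = 1
    · exact ⟨1, by simpa using e, by simpa using h'⟩
    · obtain ⟨k, h1, h2⟩ := ih (s ^ 2) (by rw [← pow_mul, ← pow_succ']; exact h)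
        (by rw [← pow_mul, ← pow_succ']; exact e)
      exact ⟨2 * k, by rw [pow_mul]; exact h1, by rw [pow_mul]; exact h2⟩

theorem pw' (hG : IsPGroup 2 G) (n : ℕ) (s : G) (h : s ^ 2 ^ n ≠ 1) :
    ∃ k, (s ^ k) ^ 2 ^ (n + 1) = 1 ∧ (s ^ k) ^ 2 ^ n ≠ 1 := by
  obtain ⟨m, hm⟩ := hG s
  exact pw n m s hm h

theorem r2_of {N Z : Subgroup G} (hZ : Nat.card Z ≤ 4)
    (h : ∀ x ∈ N, ∀ s ∈ N, x * s * x⁻¹ = s⁻¹ → s ∈ Z) : R2 N := by
  classical
  intro H K hH hsq
  let f : H → (K ⊓ H : Subgroup G) := fun x => ⟨x * x, hsq x x.2, H.mul_mem x.2 x.2⟩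
  let r : (K ⊓ H : Subgroup G) → H := Function.invFun f
  have hr : ∀ x, ((r (f x) : H) : G) * r (f x) = x * x := fun x =>
    congrArg Subtype.val (Function.invFun_eq ⟨x, rfl⟩ : f (r (f x)) = f x)
  have hm : ∀ x : H, (x : G) * ((r (f x) : H) : G)⁻¹ ∈ Z := fun x => by
    refine h x (hH x.2) _ (hH (H.mul_mem x.2 (H.inv_mem (r (f x)).2))) ?_
    rw [← mul_assoc, ← hr x]; group
  let F : H → (K ⊓ H : Subgroup G) × Z := fun x => (f x, ⟨_, hm x⟩)
  have hF : Function.Injective F := fun x y e => by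
    have e1 : f x = f y := congrArg Prod.fst e
    have e2 : (x : G) * ((r (f x) : H) : G)⁻¹ = y * ((r (f y) : H) : G)⁻¹ :=
      congrArg (fun t => ((Prod.snd t : Z) : G)) e
    rw [e1] at e2
    exact Subtype.ext (mul_right_cancel e2)
  have h1 := Nat.card_le_card_of_injective F hF
  rw [Nat.card_prod, ← BG.card_inf_mul_relIndex K H] at h1
  exact (Nat.le_of_mul_le_mul_left h1 (card_pos _)).trans hZ

theorem two_le {A B : Subgroup G} (h : ¬ B ≤ A) : 2 ≤ A.relIndex B := by
  have h1 := BG.relIndex_ne_zero A B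
  have h2 : A.relIndex B ≠ 1 := fun e => h (relIndex_eq_one.1 e)
  omega

theorem top {N : Subgroup G} [hN : N.Normal] (hR : R2 N)
    (h : N.index ≤ 4 ∨ (N.index ≤ 8 ∧ ∃ a b : G, ⁅a, b⁆ ∉ N)) : SectionalPRankLE 2 4 G := by
  refine H04.sectional_iff.2 fun H K h1 h2 h3 => ?_
  have hn := le_norm_of_der_le h2 h1
  have hKN : K ≤ N_(N) := le_top.trans (normalizer_eq_top N).ge
  have e1 : (K ⊔ N) ⊓ H = K ⊔ (H ⊓ N) := by rw [inf_comm, BG.dedekind h1 (Or.inr hKN)]
  have s := H01.SR.step K (K ⊔ N) H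
  rw [e1, BG.relIndex_sup (inf_le_left.trans hn)] at s
  have s1 : K.relIndex (H ⊓ N) ≤ 4 := hR _ _ inf_le_right fun x hx => by rw [← sq]; exact h3 x hx.1
  have s2 : (K ⊔ N).relIndex H ≤ 4 := by
    have t0 : (K ⊔ N).relIndex H ≤ (K ⊔ N).index := by
      rw [← relIndex_top_right]; exact H01.SR.idx_mono le_top
    have t1 : N.relIndex (K ⊔ N) * (K ⊔ N).index = N.index := relIndex_mul_index le_sup_right
    rcases h with h | ⟨h, a, b, hab⟩
    · have := BG.relIndex_ne_zero N (K ⊔ N)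
      nlinarith [Nat.pos_of_ne_zero this]
    · by_cases hK : K ≤ N
      · rw [sup_eq_right.2 hK]
        have t2 : N.relIndex (H ⊔ N) * (H ⊔ N).index = N.index := relIndex_mul_index le_sup_right
        rw [relIndex_sup_right] at t2
        have t3 : 2 ≤ (H ⊔ N).index := by
          rw [← relIndex_top_right]
          refine two_le fun ht => hab ?_
          obtain ⟨a1, ha1, a2, ha2, rfl⟩ := mem_sup_of_normal_right.1 (ht (mem_top a))
          obtain ⟨b1, hb1, b2, hb2, rfl⟩ := mem_sup_of_normal_right.1 (ht (mem_top b))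
          have c := hK (h2 (commutator_mem_commutator ha1 hb1))
          rw [← QuotientGroup.eq_one_iff] at c ha2 hb2 ⊢
          simp only [commutatorElement_def, QuotientGroup.mk_mul, QuotientGroup.mk_inv, ha2, hb2, mul_one] at c ⊢
          exact c
        nlinarith
      · have t3 : 2 ≤ N.relIndex (K ⊔ N) := two_le fun ht => hK (le_sup_left.trans ht)
        nlinarith
  calc K.relIndex H ≤ _ := s
    _ ≤ 4 * 4 := Nat.mul_le_mul s1 s2
    _ = 2 ^ 4 := by norm_num

theorem four {Z : Subgroup G} (hZ : Nat.card Z ≤ 4) {p q d : G} (hp : p ∈ Z) (hq : q ∈ Z) (hd : d ∈ Z)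
    (h1 : p ≠ 1) (h2 : q ≠ 1) (h3 : p * q ≠ 1) (h4 : p ≠ q) : d = 1 ∨ d = p ∨ d = q ∨ d = p * q := by
  classical
  by_contra hc
  push Not at hc
  obtain ⟨c1, c2, c3, c4⟩ := hc
  have := Fintype.ofFinite (Z : Set G)
  have hs : ({d, 1, p, q, p * q} : Finset G) ⊆ (Z : Set G).toFinset := by
    intro x hx
    simp only [Finset.mem_insert, Finset.mem_singleton] at hx
    rw [Set.mem_toFinset]
    rcases hx with rfl | rfl | rfl | rfl | rfl
    exacts [hd, Z.one_mem, hp, hq, Z.mul_mem hp hq]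
  have hc := Finset.card_le_card hs
  rw [Set.toFinset_card, ← Nat.card_eq_fintype_card] at hc
  have e1 : p ≠ p * q := fun e => h2 (by simpa using e.symm)
  have e2 : q ≠ p * q := fun e => h1 (by simpa using e.symm)
  rw [Finset.card_insert_of_notMem (by simp [c1, c2, c3, c4]), Finset.card_insert_of_notMem (by simp [h1.symm, h2.symm, h3.symm]),
    Finset.card_insert_of_notMem (by simp [h4, e1]), Finset.card_insert_of_notMem (by simp [e2]), Finset.card_singleton] at hc
  change _ ≤ Nat.card Z at hc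
  omega

end H04.MW
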