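import Mathlib
import Cfsg.Agent.H04.MWa

/-!
# MacWilliams' theorem, the setting (namespace `H04.MW`)

`St W Z` : `W` normal abelian of exponent 4 containing all elements of order dividing 4 of its centralizer, `Z = Ω₁(W)`,
no normal `E₈`.  `St.big` : a coset `uC` central in `G/C` inverting nothing of order 4 has no elements of order dividing 4.
-/

set_option autoImplicit false
set_option linter.unusedSectionVars false
open Cfsg BG Subgroup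
open scoped commutatorElement

namespace H04.MW
variable {G : Type*} [Group G] [Finite G]

/-- `K ∪ Ku` -/
def ext (K : Subgroup G) [hK : K.Normal] (u : G) (h : u * u ∈ K) : Subgroup G where
  carrier := {y | y ∈ K ∨ y * u⁻¹ ∈ K}
  one_mem' := Or.inl K.one_mem
  mul_mem' := by
    rintro a b (ha | ha) (hb | hb)
    · exact Or.inl (K.mul_mem ha hb)
    · exact Or.inr (by rw [mul_assoc]; exact K.mul_mem ha hb)
    · exact Or.inr (by
        have := K.mul_mem ha (hK.conj_mem b hb u)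
        rwa [show a * u⁻¹ * (u * b * u⁻¹) = a * b * u⁻¹ by group] at this)
    · exact Or.inl (by
        have := K.mul_mem (K.mul_mem ha (hK.conj_mem _ hb u)) h
        rwa [show a * u⁻¹ * (u * (b * u⁻¹) * u⁻¹) * (u * u) = a * b by group] at this)
  inv_mem' := by
    rintro a (ha | ha)
    · exact Or.inl (K.inv_mem ha)
    · exact Or.inr (by
        have := K.mul_mem (hK.conj_mem _ (K.inv_mem ha) u⁻¹) (K.inv_mem h)
        rwa [show u⁻¹ * (a * u⁻¹)⁻¹ * u⁻¹⁻¹ * (u * u)⁻¹ = a⁻¹ * u⁻¹ by group] at this)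

theorem mem_ext {K : Subgroup G} [K.Normal] {u y : G} {h : u * u ∈ K} : y ∈ ext K u h ↔ y ∈ K ∨ y * u⁻¹ ∈ K := Iff.rfl

theorem ext_normal {K : Subgroup G} [hK : K.Normal] {u : G} (h : u * u ∈ K) (hc : ∀ g : G, ⁅g, u⁆ ∈ K) : (ext K u h).Normal :=
  ⟨by
    rintro a (ha | ha) g
    · exact Or.inl (hK.conj_mem a ha g)
    · refine Or.inr ?_
      have := K.mul_mem (hK.conj_mem _ ha g) (hc g)
      rwa [show g * (a * u⁻¹) * g⁻¹ * ⁅g, u⁆ = g * a * g⁻¹ * u⁻¹ by rw [commutatorElement_def]; group] at this⟩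

theorem p4 (x : G) : x ^ 4 = x * x * (x * x) := by simp only [pow_succ, pow_zero, one_mul, mul_assoc]

structure St (W Z : Subgroup G) : Prop where
  pg : IsPGroup 2 G
  nW : W.Normal
  comm : ∀ a ∈ W, ∀ b ∈ W, a * b = b * a
  ex : ∀ a ∈ W, a ^ 4 = 1
  alp : ∀ x ∈ C_(W), x ^ 4 = 1 → x ∈ W
  mZ : ∀ a, a ∈ Z ↔ a ∈ W ∧ a * a = 1
  ne8 : ∀ A : Subgroup G, A.Normal → IsMulCommutative A → (∀ a ∈ A, a ^ 2 = 1) → Nat.card A ≤ 4

def NI (W : Subgroup G) (x : G) : Prop := ∀ w ∈ W, x * w * x⁻¹ = w⁻¹ → w * w = 1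
def NF (W : Subgroup G) (x : G) : Prop := ∀ w ∈ W, x * w * x⁻¹ = w → w * w = 1

namespace St
variable {W Z : Subgroup G} (h : St W Z) {a b c g u v w w' x y : G}
include h

theorem ZW (ha : a ∈ Z) : a ∈ W := ((h.mZ a).1 ha).1
theorem zz (ha : a ∈ Z) : a * a = 1 := ((h.mZ a).1 ha).2
theorem zi (ha : a ∈ Z) : a⁻¹ = a := inv_eq_of_mul_eq_one_right (h.zz ha)
theorem nZ : Z.Normal := ⟨fun a ha g => (h.mZ _).2 ⟨h.nW.conj_mem a (h.ZW ha) g, by rw [conj_mul, h.zz ha]; simp⟩⟩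
theorem cZ : Nat.card Z ≤ 4 :=
  h.ne8 Z h.nZ ⟨⟨fun a b => Subtype.ext (h.comm _ (h.ZW a.2) _ (h.ZW b.2))⟩⟩ fun a ha => by rw [sq, h.zz ha]
theorem WC (hw : w ∈ W) : w ∈ C_(W) := mem_cent.2 fun a ha => h.comm a ha w hw
theorem nC : C_(W).Normal := have := h.nW; inferInstance
theorem nT : C_(Z).Normal := have := h.nZ; inferInstance
theorem CT (hc : c ∈ C_(W)) : c ∈ C_(Z) := mem_cent.2 fun a ha => mem_cent.1 hc a (h.ZW ha)
theorem sqZ (hw : w ∈ W) : w * w ∈ Z := (h.mZ _).2 ⟨W.mul_mem hw hw, by rw [← h.ex w hw, p4]⟩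
theorem sqm (hw : w ∈ W) (hw' : w' ∈ W) : w * w' * (w * w') = w * w * (w' * w') := by
  rw [mul_assoc, ← mul_assoc w', ← h.comm w hw w' hw']; group
theorem sqeq (hw : w ∈ W) (hw' : w' ∈ W) (e : w * w = w' * w') : w * w'⁻¹ ∈ Z :=
  (h.mZ _).2 ⟨W.mul_mem hw (W.inv_mem hw'), by rw [h.sqm hw (W.inv_mem hw'), e]; group⟩
theorem tz (hx : x ∈ C_(Z)) (ha : a ∈ Z) : x * a = a * x := (mem_cent.1 hx a ha).symm
theorem tz' (hx : x ∈ C_(Z)) (ha : a ∈ Z) : x * a * x⁻¹ = a := by rw [h.tz hx ha]; group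
theorem cw (hx : x ∈ C_(W)) (ha : a ∈ W) : x * a * x⁻¹ = a := by rw [← mem_cent.1 hx a ha]; group
theorem act (hx : x ∈ C_(Z)) (hw : w ∈ W) : ∃ a ∈ Z, x * w * x⁻¹ = a * w :=
  ⟨_, h.sqeq (h.nW.conj_mem w hw x) hw (by rw [conj_mul, h.tz' hx (h.sqZ hw)]), by group⟩
theorem mc (hx : ∀ w ∈ W, x * w * x⁻¹ = w) : x ∈ C_(W) := mem_cent.2 fun w hw => by
  conv_lhs => rw [← hx w hw]
  group
theorem two (hx : x ∈ C_(Z)) (ha : a ∈ Z) (hb : b ∈ Z) (e1 : x * w * x⁻¹ = a * w)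
    (e2 : y * w * y⁻¹ = b * w) : x * y * w * (x * y)⁻¹ = a * b * w := by
  rw [show x * y * w * (x * y)⁻¹ = x * (y * w * y⁻¹) * x⁻¹ by group, e2, ← conj_mul, h.tz' hx hb, e1, ← mul_assoc,
    h.comm b (h.ZW hb) a (h.ZW ha)]
theorem Tsq (hx : x ∈ C_(Z)) : x * x ∈ C_(W) := h.mc fun w hw => by
  obtain ⟨a, ha, e⟩ := h.act hx hw
  rw [h.two hx ha ha e e, h.zz ha, one_mul]
theorem Tcomm (hx : x ∈ C_(Z)) (hy : y ∈ C_(Z)) : ⁅x, y⁆ ∈ C_(W) := by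
  have := h.nC
  have h1 := h.Tsq (mul_mem hx hy)
  have h2 := h.Tsq hx
  have h3 := h.Tsq hy
  have := mul_mem (mul_mem h1 (this.conj_mem _ (inv_mem h3) 1)) (this.conj_mem _ (inv_mem h2) y)
  rwa [show x * y * (x * y) * (1 * (y * y)⁻¹ * 1⁻¹) * (y * (x * x)⁻¹ * y⁻¹) = ⁅x, y⁆ by
    rw [commutatorElement_def]; group] at this

theorem invC (hx : NI W x) (hc : c ∈ C_(W)) (e : x * c * x⁻¹ = c⁻¹) : c ∈ Z := by
  by_cases h2 : c ^ 2 ^ 1 = 1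
  · exact (h.mZ _).2 ⟨h.alp c hc (by rw [show 4 = 2 ^ 1 * 2 from rfl, pow_mul, h2, one_pow]), by simpa [sq] using h2⟩
  · obtain ⟨k, h3, h4⟩ := pw' h.pg 1 c h2
    exact absurd (by simpa [sq] using hx _ (h.alp _ (pow_mem hc k) h3) (by rw [← conj_pow, e, inv_pow])) h4

theorem fixC (hx : NF W x) (hc : c ∈ C_(W)) (e : x * c * x⁻¹ = c) : c ∈ Z := by
  by_cases h2 : c ^ 2 ^ 1 = 1
  · exact (h.mZ _).2 ⟨h.alp c hc (by rw [show 4 = 2 ^ 1 * 2 from rfl, pow_mul, h2, one_pow]), by simpa [sq] using h2⟩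
  · obtain ⟨k, h3, h4⟩ := pw' h.pg 1 c h2
    exact absurd (by simpa [sq] using hx _ (h.alp _ (pow_mem hc k) h3) (by rw [← conj_pow, e])) h4

theorem niC (hx : x ∈ C_(W)) : NI W x := fun w hw e => by
  rw [h.cw hx hw] at e
  nth_rewrite 1 [e]; group

theorem r2C : R2 C_(W) := r2_of h.cZ fun _ hx _ hs e => h.invC (h.niC hx) hs e

theorem coset (hv : v * u⁻¹ ∈ C_(W)) (hw : w ∈ W) : v * w * v⁻¹ = u * w * u⁻¹ := by
  rw [← h.cw hv (h.nW.conj_mem w hw u)]; group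

theorem NIc (hu : NI W u) (hv : v * u⁻¹ ∈ C_(W)) : NI W v := fun w hw e => hu w hw (by rw [← h.coset hv hw, e])

variable {w0 w1 : G} (h0 : w0 ∈ W) (h1 : w1 ∈ W) (n0 : w0 * w0 ≠ 1) (n1 : w1 * w1 ≠ 1) (n01 : w0 * w0 ≠ w1 * w1)
include h0 h1 n0 n1 n01

theorem n2 : w0 * w0 * (w1 * w1) ≠ 1 := fun e => n01 (by rw [eq_inv_of_mul_eq_one_left e, h.zi (h.sqZ h1)])

theorem big (hv : v ∈ C_(Z)) (hvC : v ∉ C_(W)) (hc : ∀ g : G, ⁅g, v⁆ ∈ C_(W)) (hi : NI W v) : v ^ 4 ≠ 1 := by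
  intro e
  have hd : v * v ∈ Z := (h.mZ _).2 ⟨h.alp _ (h.Tsq hv) (by rw [← sq, ← pow_mul, show 2 * 4 = 4 * 2 from rfl, pow_mul, e, one_pow]),
    by rw [← e, p4]⟩
  have hφ : ∀ w ∈ W, w * (v * w * v⁻¹) ∈ Z := fun w hw => by
    obtain ⟨a, ha, e⟩ := h.act hv hw
    rw [e, h.comm a (h.ZW ha) w hw, ← mul_assoc]
    exact Z.mul_mem (h.sqZ hw) ha
  have hφ1 : ∀ w ∈ W, w * w ≠ 1 → w * (v * w * v⁻¹) ≠ 1 := fun w hw hn e => hn (hi w hw (eq_inv_of_mul_eq_one_right e))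
  have hm : w0 * w1 * (v * (w0 * w1) * v⁻¹) = w0 * (v * w0 * v⁻¹) * (w1 * (v * w1 * v⁻¹)) := by
    rw [← conj_mul, mul_assoc, mul_assoc w0, ← mul_assoc w1, h.comm w1 h1 _ (h.nW.conj_mem w0 h0 v), mul_assoc]
  have h01 := hφ1 _ (W.mul_mem h0 h1) (by rw [h.sqm h0 h1]; exact h.n2 h0 h1 n0 n1 n01)
  rw [hm] at h01
  obtain ⟨w, hw, ew⟩ : ∃ w ∈ W, v * v = w * (v * w * v⁻¹) := by
    rcases four h.cZ (hφ w0 h0) (hφ w1 h1) hd (hφ1 w0 h0 n0) (hφ1 w1 h1 n1) h01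
      (fun e => h01 (by rw [e]; exact h.zz (hφ w1 h1))) with e | e | e | e
    exacts [⟨1, W.one_mem, by rw [e]; group⟩, ⟨w0, h0, e⟩, ⟨w1, h1, e⟩, ⟨_, W.mul_mem h0 h1, e.trans hm.symm⟩]
  have ht : w * v * (w * v) = 1 := by
    rw [show w * v * (w * v) = w * (v * w * v⁻¹) * (v * v) by group, ← ew, h.zz hd]
  have htv : w * v * v⁻¹ ∈ C_(W) := by simpa using h.WC hw
  have hT : w * v ∈ C_(Z) := mul_mem (h.CT (h.WC hw)) hv
  have hct : ∀ g : G, ⁅g, w * v⁆ ∈ C_(W) := fun g => by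
    have := mul_mem (h.WC (h.nW.conj_mem w hw g)) (mul_mem (hc g) (h.WC (W.inv_mem hw)))
    rwa [show g * w * g⁻¹ * (⁅g, v⁆ * w⁻¹) = ⁅g, w * v⁆ by simp only [commutatorElement_def]; group] at this
  have hi' := h.NIc hi htv
  have hvt : w * v ∈ C_(W) → v ∈ C_(W) := fun e => by simpa using mul_mem (inv_mem (h.WC hw)) e
  generalize w * v = t at ht hT hct hi' hvt
  have ti : t⁻¹ = t := inv_eq_of_mul_eq_one_right ht
  have := h.nZ
  have hA := ext_normal (K := Z) (u := t) (by rw [ht]; exact Z.one_mem) fun g => h.invC hi' (hct g) (by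
    rw [commutatorElement_def, mul_inv_rev, mul_inv_rev, mul_inv_rev, ti, inv_inv, ti, mul_assoc, mul_assoc _ t t, ht]; group)
  have hel : ∀ a ∈ ext Z t (by rw [ht]; exact Z.one_mem), a * a = 1 := by
    rintro a (ha | ha)
    · exact h.zz ha
    · rw [show a * a = a * t⁻¹ * (t * (a * t⁻¹) * t⁻¹) * (t * t) by group, h.tz' hT ha, h.zz ha, ht, one_mul]
  have hcA := h.ne8 _ hA ⟨⟨fun a b => Subtype.ext (mem_cent.1 (H01.SR.el_comm hel b.2) a a.2)⟩⟩ fun a ha => by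
    rw [sq, hel a ha]
  have hW : t ∈ W := by
    rcases four hcA (Or.inl (h.sqZ h0)) (Or.inl (h.sqZ h1)) (Or.inr (by simp) : t ∈ ext Z t _) n0 n1
      (h.n2 h0 h1 n0 n1 n01) n01 with e | e | e | e <;> rw [e]
    exacts [W.one_mem, W.mul_mem h0 h0, W.mul_mem h1 h1, W.mul_mem (W.mul_mem h0 h0) (W.mul_mem h1 h1)]
  exact hvC (hvt (h.WC hW))

end St
end H04.MW
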