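import Mathlib
import Cfsg.Agent.H04.MWb

/-!
# MacWilliams' theorem, the action on `W ≅ C₄ × C₄` (namespace `H04.MW`)

`In Z w0 w1 a b` : some `x ∈ C(Z)` multiplies `w0` by `a` and `w1` by `b`; `idx2`, `idx8` : counting; `r3` : the excluded case.
-/

set_option autoImplicit false
set_option linter.unusedSectionVars false
open Cfsg BG Subgroup
open scoped commutatorElement

namespace H04.MW
variable {G : Type*} [Group G] [Finite G]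

def In (Z : Subgroup G) (w0 w1 a b : G) : Prop := ∃ x ∈ C_(Z), x * w0 * x⁻¹ = a * w0 ∧ x * w1 * x⁻¹ = b * w1

namespace St
variable {W Z : Subgroup G} (h : St W Z) {a b a' b' c g u v w w' x y : G}
include h

theorem sqNF (hx : x ∈ C_(Z)) (hf : NF W x) : x * x ∈ Z := h.fixC hf (h.Tsq hx) (by group)

theorem act2 (hx : x ∈ C_(Z)) (ha : a ∈ Z) (e : x * w * x⁻¹ = b * w) (hb : b ∈ Z) : x * (a * w) * x⁻¹ = b * (a * w) := by
  rw [← conj_mul, h.tz' hx ha, e, ← mul_assoc, ← mul_assoc, h.comm a (h.ZW ha) b (h.ZW hb)]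

theorem act3 (hw : w ∈ W) (hb : b ∈ Z) (e : x * w * x⁻¹ = a * w) (e' : x * w' * x⁻¹ = b * w') :
    x * (w * w') * x⁻¹ = a * b * (w * w') := by
  rw [← conj_mul, e, e', mul_assoc, ← mul_assoc w, h.comm w hw b (h.ZW hb)]; group

theorem zsq (ha : a ∈ Z) (hw : w ∈ W) : a * w * (a * w) = w * w := by rw [h.sqm (h.ZW ha) hw, h.zz ha, one_mul]

variable {w0 w1 : G} (h0 : w0 ∈ W) (h1 : w1 ∈ W) (n0 : w0 * w0 ≠ 1) (n1 : w1 * w1 ≠ 1) (n01 : w0 * w0 ≠ w1 * w1)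
include h0 h1 n0 n1 n01

theorem zc (ha : a ∈ Z) : a = 1 ∨ a = w0 * w0 ∨ a = w1 * w1 ∨ a = w0 * w0 * (w1 * w1) :=
  four h.cZ (h.sqZ h0) (h.sqZ h1) ha n0 n1 (h.n2 h0 h1 n0 n1 n01) n01

theorem dec (hw : w ∈ W) : ∃ a ∈ Z, w = a ∨ w = a * w0 ∨ w = a * w1 ∨ w = a * (w0 * w1) := by
  rcases h.zc h0 h1 n0 n1 n01 (h.sqZ hw) with e | e | e | e
  · exact ⟨w, (h.mZ w).2 ⟨hw, e⟩, Or.inl rfl⟩
  · exact ⟨_, h.sqeq hw h0 e, by simp⟩
  · exact ⟨_, h.sqeq hw h1 e, by simp⟩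
  · exact ⟨_, h.sqeq hw (W.mul_mem h0 h1) (by rw [e, h.sqm h0 h1]), Or.inr (Or.inr (Or.inr (by group)))⟩

section M
variable (hx : x ∈ C_(Z)) (ha : a ∈ Z) (hb : b ∈ Z) (e0 : x * w0 * x⁻¹ = a * w0) (e1 : x * w1 * x⁻¹ = b * w1)
include hx ha hb e0 e1

theorem all (hw : w ∈ W) : (w * w = 1 ∧ x * w * x⁻¹ = w) ∨ (w * w = w0 * w0 ∧ x * w * x⁻¹ = a * w) ∨
    (w * w = w1 * w1 ∧ x * w * x⁻¹ = b * w) ∨ (w * w = w0 * w0 * (w1 * w1) ∧ x * w * x⁻¹ = a * b * w) := by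
  obtain ⟨d, hd, rfl | rfl | rfl | rfl⟩ := h.dec h0 h1 n0 n1 n01 hw
  · exact Or.inl ⟨h.zz hd, h.tz' hx hd⟩
  · exact Or.inr (Or.inl ⟨h.zsq hd h0, h.act2 hx hd e0 ha⟩)
  · exact Or.inr (Or.inr (Or.inl ⟨h.zsq hd h1, h.act2 hx hd e1 hb⟩))
  · exact Or.inr (Or.inr (Or.inr ⟨by rw [h.zsq hd (W.mul_mem h0 h1), h.sqm h0 h1],
      h.act2 hx hd (h.act3 h0 hb e0 e1) (Z.mul_mem ha hb)⟩))

theorem ni_of (c0 : a ≠ w0 * w0) (c1 : b ≠ w1 * w1) (c2 : a * b ≠ w0 * w0 * (w1 * w1)) : NI W x := fun w hw e => by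
  have k : ∀ d, x * w * x⁻¹ = d * w → d = w * w := fun d e' => by
    rw [← h.zi (h.sqZ hw), mul_inv_rev]; exact eq_mul_inv_of_mul_eq (e'.symm.trans e)
  rcases h.all h0 h1 n0 n1 n01 hx ha hb e0 e1 hw with ⟨e, -⟩ | ⟨e2, e'⟩ | ⟨e2, e'⟩ | ⟨e2, e'⟩
  · exact e
  · exact absurd ((k _ e').trans e2) c0
  · exact absurd ((k _ e').trans e2) c1
  · exact absurd ((k _ e').trans e2) c2

theorem nf_of (c0 : a ≠ 1) (c1 : b ≠ 1) (c2 : a * b ≠ 1) : NF W x := fun w hw e => by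
  have k : ∀ d, x * w * x⁻¹ = d * w → d = 1 := fun d e' => by rw [e] at e'; simpa using e'.symm
  rcases h.all h0 h1 n0 n1 n01 hx ha hb e0 e1 hw with ⟨e, -⟩ | ⟨e2, e'⟩ | ⟨e2, e'⟩ | ⟨e2, e'⟩
  · exact e
  · exact absurd (k _ e') c0
  · exact absurd (k _ e') c1
  · exact absurd (k _ e') c2

theorem same (hy : y ∈ C_(Z)) (f0 : y * w0 * y⁻¹ = a * w0) (f1 : y * w1 * y⁻¹ = b * w1) : y * x⁻¹ ∈ C_(W) := by
  have e : ∀ w ∈ W, y * w * y⁻¹ = x * w * x⁻¹ := fun w hw => by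
    obtain ⟨d, hd, rfl | rfl | rfl | rfl⟩ := h.dec h0 h1 n0 n1 n01 hw
    · rw [h.tz' hx hd, h.tz' hy hd]
    · rw [h.act2 hx hd e0 ha, h.act2 hy hd f0 ha]
    · rw [h.act2 hx hd e1 hb, h.act2 hy hd f1 hb]
    · rw [h.act2 hx hd (h.act3 h0 hb e0 e1) (Z.mul_mem ha hb), h.act2 hy hd (h.act3 h0 hb f0 f1) (Z.mul_mem ha hb)]
  refine h.mc fun w hw => ?_
  have := e _ (h.nW.conj_mem w hw x⁻¹)
  rw [show y * x⁻¹ * w * (y * x⁻¹)⁻¹ = y * (x⁻¹ * w * x⁻¹⁻¹) * y⁻¹ by group, this]; group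
end M

theorem inmul (ha : a ∈ Z) (hb : b ∈ Z) (ha' : a' ∈ Z) (hb' : b' ∈ Z) (i : In Z w0 w1 a b) (i' : In Z w0 w1 a' b') :
    In Z w0 w1 (a * a') (b * b') := by
  obtain ⟨x, hx, e0, e1⟩ := i
  obtain ⟨y, hy, f0, f1⟩ := i'
  exact ⟨x * y, mul_mem hx hy, h.two hx ha ha' e0 f0, h.two hx hb hb' e1 f1⟩

theorem hom : ∃ L : Subgroup (Z × Z), Nat.card L = C_(W).relIndex C_(Z) ∧ ∀ a b : Z, (a, b) ∈ L ↔ In Z w0 w1 a b := by
  have k : ∀ x : C_(Z), ∀ w ∈ W, (x : G) * w * (x : G)⁻¹ * w⁻¹ ∈ Z := fun x w hw => by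
    obtain ⟨a, ha, e⟩ := h.act x.2 hw
    rw [e]; simpa using ha
  have k2 : ∀ x y : C_(Z), ∀ w ∈ W, (x : G) * y * w * ((x : G) * y)⁻¹ * w⁻¹ =
      (x : G) * w * (x : G)⁻¹ * w⁻¹ * ((y : G) * w * (y : G)⁻¹ * w⁻¹) := fun x y w hw => by
    rw [h.two x.2 (k x w hw) (k y w hw) (w := w) (by group) (by group)]; group
  let μ : C_(Z) →* Z × Z := MonoidHom.mk' (fun x => (⟨_, k x w0 h0⟩, ⟨_, k x w1 h1⟩)) fun x y =>
    Prod.ext (Subtype.ext (k2 x y w0 h0)) (Subtype.ext (k2 x y w1 h1))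
  refine ⟨μ.range, ?_, fun a b => ⟨?_, ?_⟩⟩
  · rw [← index_ker]
    congr 1
    ext x
    rw [MonoidHom.mem_ker, mem_subgroupOf]
    refine ⟨fun e => ?_, fun e => Prod.ext (Subtype.ext ?_) (Subtype.ext ?_)⟩
    · have e0 : (x : G) * w0 * (x : G)⁻¹ * w0⁻¹ = 1 := congrArg (fun t => ((Prod.fst t : Z) : G)) e
      have e1 : (x : G) * w1 * (x : G)⁻¹ * w1⁻¹ = 1 := congrArg (fun t => ((Prod.snd t : Z) : G)) e
      simpa using h.same h0 h1 n0 n1 n01 (one_mem _) Z.one_mem Z.one_mem (by group) (by group) x.2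
        (by rw [one_mul, mul_inv_eq_one.1 e0]) (by rw [one_mul, mul_inv_eq_one.1 e1])
    · exact mul_inv_eq_one.2 (h.cw e h0)
    · exact mul_inv_eq_one.2 (h.cw e h1)
  · rintro ⟨x, e⟩
    have e0 : (x : G) * w0 * (x : G)⁻¹ * w0⁻¹ = a := congrArg (fun t => ((Prod.fst t : Z) : G)) e
    have e1 : (x : G) * w1 * (x : G)⁻¹ * w1⁻¹ = b := congrArg (fun t => ((Prod.snd t : Z) : G)) e
    exact ⟨x, x.2, by rw [← e0]; group, by rw [← e1]; group⟩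
  · rintro ⟨x, hx, e0, e1⟩
    exact ⟨⟨x, hx⟩, Prod.ext (Subtype.ext (mul_inv_eq_of_eq_mul e0)) (Subtype.ext (mul_inv_eq_of_eq_mul e1))⟩

theorem idx2 (h4 : 4 < C_(W).relIndex C_(Z)) (ha : a ∈ Z) (hb : b ∈ Z) (ha' : a' ∈ Z) (hb' : b' ∈ Z) :
    In Z w0 w1 a b ∨ In Z w0 w1 a' b' ∨ In Z w0 w1 (a * a') (b * b') := by
  obtain ⟨L, hL, hi⟩ := h.hom h0 h1 n0 n1 n01
  have e := L.card_mul_index
  have d := L.index_dvd_card
  rw [Nat.card_prod] at e d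
  have c := h.cZ
  have := Fact.mk Nat.prime_two
  obtain ⟨n, hn⟩ := IsPGroup.iff_card.1 (h.pg.to_subgroup Z)
  have i0 : L.index ≠ 0 := index_ne_zero_of_finite
  have i3 : L.index ≠ 3 := fun e3 => by
    rw [e3, hn, ← pow_add] at d
    exact absurd (Nat.prime_three.dvd_of_dvd_pow d) (by norm_num)
  have i4 : L.index < 4 := by nlinarith
  have k := hi (⟨a, ha⟩ * ⟨a', ha'⟩) (⟨b, hb⟩ * ⟨b', hb'⟩)
  change _ ↔ In Z w0 w1 (a * a') (b * b') at k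
  rw [← hi ⟨a, ha⟩ ⟨b, hb⟩, ← hi ⟨a', ha'⟩ ⟨b', hb'⟩, ← k]
  obtain e1 | e2 : L.index = 1 ∨ L.index = 2 := by omega
  · left; rw [index_eq_one.1 e1]; trivial
  · have := mul_mem_iff_of_index_two e2 (a := (⟨a, ha⟩, ⟨b, hb⟩)) (b := (⟨a', ha'⟩, ⟨b', hb'⟩))
    rw [Prod.mk_mul_mk] at this
    tauto

theorem idx8 (ha : a ∈ Z) (hb : b ∈ Z) (hn : ¬ In Z w0 w1 a b) : C_(W).relIndex C_(Z) ≤ 8 := by
  obtain ⟨L, hL, hi⟩ := h.hom h0 h1 n0 n1 n01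
  have e := L.card_mul_index
  rw [Nat.card_prod] at e
  have c := h.cZ
  have i0 : L.index ≠ 0 := index_ne_zero_of_finite
  have i1 : L.index ≠ 1 := fun e1 => hn ((hi ⟨a, ha⟩ ⟨b, hb⟩).1 (by rw [index_eq_one.1 e1]; trivial))
  have : 2 ≤ L.index := by omega
  nlinarith

section U
variable (hu : u ∈ C_(Z)) (huC : u ∉ C_(W)) (hc : ∀ g : G, ⁅g, u⁆ ∈ C_(W)) (hi : NI W u)
include hu huC hc hi

theorem big' (hv : v * u⁻¹ ∈ C_(W)) : v ^ 4 ≠ 1 := by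
  have := h.nC
  refine h.big h0 h1 n0 n1 n01 (by simpa using mul_mem (h.CT hv) hu) (fun e => huC ?_) (fun g => ?_) (h.NIc hi hv)
  · simpa using mul_mem (inv_mem hv) e
  · have := mul_mem (mul_mem (this.conj_mem _ hv g) (hc g)) (inv_mem hv)
    rwa [show g * (v * u⁻¹) * g⁻¹ * ⁅g, u⁆ * (v * u⁻¹)⁻¹ = ⁅g, v⁆ by simp only [commutatorElement_def]; group] at this

theorem nof (hf : NF W u) : False :=
  h.big' h0 h1 n0 n1 n01 hu huC hc hi (v := u) (by simp) (by rw [p4, h.zz (h.sqNF hu hf)])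

theorem r2N : R2 (ext (hK := h.nC) C_(W) u (h.Tsq hu)) := by
  have := h.nC
  refine r2_of h.cZ fun x hx s hs e => ?_
  have hx' : NI W x := hx.elim h.niC (h.NIc hi)
  rcases hs with hs | hs
  · exact h.invC hx' hs e
  · have := h.invC hx' (h.Tsq (x := s) (by simpa using mul_mem (h.CT hs) hu)) (by rw [← conj_mul, e]; group)
    exact absurd (by rw [p4, h.zz this]) (h.big' h0 h1 n0 n1 n01 hu huC hc hi hs)

/-- the final step with `N = C ∪ Cu` -/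
theorem fin (hn : C_(W).index ≤ 8 ∨ (C_(W).index ≤ 16 ∧ ∃ a b : G, ⁅a, b⁆ ∉ C_(W) ∧ ⁅a, b⁆ * u⁻¹ ∉ C_(W))) :
    SectionalPRankLE 2 4 G := by
  have := h.nC
  have hN := ext_normal (h.Tsq hu) hc
  have e := relIndex_mul_index (show C_(W) ≤ ext C_(W) u (h.Tsq hu) from fun _ hx => Or.inl hx)
  have t := two_le (A := C_(W)) (B := ext C_(W) u (h.Tsq hu)) fun e => huC (e (Or.inr (by simp)))
  refine top (h.r2N h0 h1 n0 n1 n01 hu huC hc hi) ?_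
  rcases hn with hn | ⟨hn, a, b, k1, k2⟩
  · left; nlinarith
  · exact Or.inr ⟨by nlinarith, a, b, fun k => k.elim k1 k2⟩
end U

end St
end H04.MW
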