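import Mathlib
import Cfsg.Agent.H04.MWc

/-!
# MacWilliams' theorem, the excluded triangular case (namespace `H04.MW`)
-/

set_option autoImplicit false
set_option linter.unusedSectionVars false
open Cfsg BG Subgroup
open scoped commutatorElement

namespace H04.MW
variable {G : Type*} [Group G] [Finite G]

theorem ord (hG : IsPGroup 2 G) (n : ℕ) (s : G) (h : s ^ 2 ^ n ≠ 1) : ∃ j, s ^ 2 ^ (j + n + 1) = 1 ∧ s ^ 2 ^ (j + n) ≠ 1 := by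
  by_contra hc
  push Not at hc
  have k : ∀ j, s ^ 2 ^ (j + n) ≠ 1 := fun j => by
    induction j with
    | zero => simpa using h
    | succ j ih => exact fun e => ih (hc j (by rw [← e]; congr 2; omega))
  obtain ⟨m, hm⟩ := hG s
  exact k m (by rw [pow_add, pow_mul, hm, one_pow])

theorem pp (s : G) (a b : ℕ) : s ^ 2 ^ (a + b) = (s ^ 2 ^ a) ^ 2 ^ b := by rw [pow_add, pow_mul]

namespace St
variable {W Z : Subgroup G} (h : St W Z) {a b a' b' c g u v w w' x y : G}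
variable {w0 w1 : G} (h0 : w0 ∈ W) (h1 : w1 ∈ W) (n0 : w0 * w0 ≠ 1) (n1 : w1 * w1 ≠ 1) (n01 : w0 * w0 ≠ w1 * w1)
  (hz : ∀ g : G, g * (w0 * w0) * g⁻¹ = w0 * w0)
include h h0 h1 n0 n1 n01 hz

theorem out (g : G) : g * (w1 * w1) * g⁻¹ = w1 * w1 ∨ g * (w1 * w1) * g⁻¹ = w0 * w0 * (w1 * w1) := by
  rcases h.zc h0 h1 n0 n1 n01 (h.nZ.conj_mem _ (h.sqZ h1) g) with e | e | e | e
  · exact absurd (by simpa using e) n1
  · rw [← hz g] at e; exact absurd (by simpa using e.symm) n01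
  · exact Or.inl e
  · exact Or.inr e

theorem inT (e : g * (w1 * w1) * g⁻¹ = w1 * w1) : g ∈ C_(Z) := mem_cent.2 fun a ha => by
  have k : g * a * g⁻¹ = a := by
    rcases h.zc h0 h1 n0 n1 n01 ha with rfl | rfl | rfl | rfl
    · group
    · exact hz g
    · exact e
    · rw [← conj_mul, hz g, e]
  conv_lhs => rw [← k]
  group

theorem out' (hg : g ∉ C_(Z)) : g * (w1 * w1) * g⁻¹ = w0 * w0 * (w1 * w1) :=
  (h.out h0 h1 n0 n1 n01 hz g).resolve_left fun e => hg (h.inT h0 h1 n0 n1 n01 hz e)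

theorem conjIn (hg : g ∉ C_(Z)) (hx : x ∈ C_(Z)) (ha : a ∈ Z) (e0 : x * w0 * x⁻¹ = a * w0) (e1 : x * w1 * x⁻¹ = b * w1) :
    g * x * g⁻¹ * w0 * (g * x * g⁻¹)⁻¹ = g * a * g⁻¹ * w0 ∧ g * x * g⁻¹ * w1 * (g * x * g⁻¹)⁻¹ = g * (a * b) * g⁻¹ * w1 := by
  have hy := h.nT.conj_mem x hx g
  obtain ⟨a', ha', f0⟩ := h.act hy h0
  obtain ⟨b', hb', f1⟩ := h.act hy h1
  have hα := h.sqeq (h.nW.conj_mem w0 h0 g) h0 (by rw [conj_mul, hz])
  have hβ := h.sqeq (h.nW.conj_mem w1 h1 g) (W.mul_mem h0 h1) (by rw [conj_mul, h.out' h0 h1 n0 n1 n01 hz hg, h.sqm h0 h1])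
  have k0 := h.act2 hy hα f0 ha'
  have k1 := h.act2 hy hβ (h.act3 h0 hb' f0 f1) (Z.mul_mem ha' hb')
  rw [inv_mul_cancel_right] at k0 k1
  rw [show g * x * g⁻¹ * (g * w0 * g⁻¹) * (g * x * g⁻¹)⁻¹ = g * (x * w0 * x⁻¹) * g⁻¹ by group, e0, ← conj_mul] at k0
  rw [show g * x * g⁻¹ * (g * w1 * g⁻¹) * (g * x * g⁻¹)⁻¹ = g * (x * w1 * x⁻¹) * g⁻¹ by group, e1, ← conj_mul] at k1
  have k0' := mul_right_cancel k0
  have k1' := mul_right_cancel k1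
  rw [f0, f1, ← conj_mul, k0', k1', ← mul_assoc a', h.zz ha', one_mul]
  exact ⟨rfl, rfl⟩

section U
variable (hu : u ∈ C_(Z)) (u0 : u * w0 * u⁻¹ = 1 * w0) (u1 : u * w1 * u⁻¹ = w0 * w0 * w1)
include hu u0 u1

theorem uC : u ∉ C_(W) := fun e => n0 (by rw [h.cw e h1] at u1; simpa using u1.symm)

theorem uc (g : G) : ⁅g, u⁆ ∈ C_(W) := by
  by_cases hg : g ∈ C_(Z)
  · exact h.Tcomm hg hu
  · obtain ⟨k0, k1⟩ := h.conjIn h0 h1 n0 n1 n01 hz hg hu Z.one_mem u0 u1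
    rw [one_mul, hz] at k1
    rw [mul_one, mul_inv_cancel] at k0
    exact h.same h0 h1 n0 n1 n01 hu Z.one_mem (h.sqZ h0) u0 u1 (h.nT.conj_mem u hu g) k0 k1

theorem ui : NI W u := h.ni_of h0 h1 n0 n1 n01 hu Z.one_mem (h.sqZ h0) u0 u1 n0.symm n01 (by simpa using n1)

theorem r3 (hg : g ∉ C_(Z)) (i1 : In Z w0 w1 (w0 * w0) (w1 * w1)) (i2 : In Z w0 w1 1 (w1 * w1)) : False := by
  obtain ⟨x, hx, x0, x1⟩ := i1
  obtain ⟨f, hf, f0, f1⟩ := i2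
  have nC := h.nC
  have z0 := h.sqZ h0
  have z1 := h.sqZ h1
  have n2 := h.n2 h0 h1 n0 n1 n01
  have hui := h.ui h0 h1 n0 n1 n01 hz hu u0 u1
  have big := fun v => h.big' h0 h1 n0 n1 n01 hu (h.uC h0 h1 n0 n1 n01 hz hu u0 u1) (h.uc h0 h1 n0 n1 n01 hz hu u0 u1) hui (v := v)
  obtain ⟨N, hN⟩ : ∃ N : Subgroup G, ∀ y, y ∈ N ↔ y ∈ C_(W) ∨ y * u⁻¹ ∈ C_(W) := ⟨ext C_(W) u (h.Tsq hu), fun _ => Iff.rfl⟩
  have NT : ∀ y ∈ N, y ∈ C_(Z) := fun y hy => ((hN y).1 hy).elim h.CT fun e => by simpa using mul_mem (h.CT e) hu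
  have CN : ∀ y ∈ C_(W), y ∈ N := fun y hy => (hN y).2 (Or.inl hy)
  have s1 : ∀ y ∈ N, ∃ β ∈ Z, x * y * x⁻¹ = β * y⁻¹ := fun y hy => by
    have hxy := mul_mem hx (NT y hy)
    have k : x * y * (x * y) ∈ Z := by
      refine h.sqNF hxy ?_
      rcases (hN y).1 hy with e | e
      · refine h.nf_of h0 h1 n0 n1 n01 hxy (Z.mul_mem z0 Z.one_mem) (Z.mul_mem z1 Z.one_mem)
          (h.two hx z0 Z.one_mem x0 (by rw [h.cw e h0, one_mul])) (h.two hx z1 Z.one_mem x1 (by rw [h.cw e h1, one_mul]))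
          (by simpa using n0) (by simpa using n1) (by simpa using n2)
      · refine h.nf_of h0 h1 n0 n1 n01 hxy (Z.mul_mem z0 Z.one_mem) (Z.mul_mem z1 z0)
          (h.two hx z0 Z.one_mem x0 (by rw [h.coset e h0, u0])) (h.two hx z1 z0 x1 (by rw [h.coset e h1, u1]))
          (by simpa using n0) (by rw [h.comm _ (h.ZW z1) _ (h.ZW z0)]; exact n2)
          (by rw [h.comm _ (h.ZW z1) _ (h.ZW z0), mul_one, ← mul_assoc, h.zz z0, one_mul]; exact n1)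
    have k2 : x * x ∈ Z := h.sqNF hx (h.nf_of h0 h1 n0 n1 n01 hx z0 z1 x0 x1 n0 n1 n2)
    refine ⟨_, Z.mul_mem k (Z.inv_mem k2), ?_⟩
    rw [mul_assoc _ (x * x)⁻¹, ← h.tz (inv_mem (NT y hy)) (Z.inv_mem k2)]; group
  have s2 : ∀ y ∈ N, ∀ y' ∈ N, ∃ κ ∈ Z, y' * y = κ * (y * y') := fun y hy y' hy' => by
    obtain ⟨b1, hb1, e1⟩ := s1 _ (N.mul_mem (N.inv_mem hy) (N.inv_mem hy'))
    obtain ⟨b2, hb2, e2⟩ := s1 _ (N.inv_mem hy)
    obtain ⟨b3, hb3, e3⟩ := s1 _ (N.inv_mem hy')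
    rw [← conj_mul, e2, e3, mul_inv_rev, inv_inv, inv_inv, mul_assoc, ← mul_assoc y, h.tz (NT y hy) hb3] at e1
    exact ⟨b1⁻¹ * b2 * b3, Z.mul_mem (Z.mul_mem (Z.inv_mem hb1) hb2) hb3, by
      rw [mul_assoc, mul_assoc, ← mul_assoc b3, mul_assoc b3, ← mul_assoc b3 y, e1]; group⟩
  have s3 : ∀ y ∈ N, ∀ y' ∈ N, Commute (y * y) y' := fun y hy y' hy' => by
    obtain ⟨κ, hκ, e⟩ := s2 y hy y' hy'
    have : y' * (y * y) = y * y * y' := by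
      rw [← mul_assoc, e, mul_assoc, mul_assoc, e, ← mul_assoc y, h.tz (NT y hy) hκ, mul_assoc, ← mul_assoc κ κ, h.zz hκ]; group
    exact this.symm
  have s4 : ∀ m, ∀ y ∈ N, ∀ y' ∈ N, (y * y') ^ 2 ^ (m + 2) = y ^ 2 ^ (m + 2) * y' ^ 2 ^ (m + 2) := fun m y hy y' hy' => by
    obtain ⟨κ, hκ, e⟩ := s2 y hy y' hy'
    have c := s3 y hy _ (N.mul_mem hy' hy')
    have e2 : (y * y') ^ 2 = κ * (y * y * (y' * y')) := by
      rw [sq, mul_assoc, ← mul_assoc y', e, ← mul_assoc, ← mul_assoc, h.tz (NT y hy) hκ]; group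
    have c2 : Commute κ (y * y * (y' * y')) := (h.tz (NT _ (N.mul_mem (N.mul_mem hy hy) (N.mul_mem hy' hy'))) hκ).symm
    rw [show 2 ^ (m + 2) = 2 * (2 * 2 ^ m) by ring, pow_mul, pow_mul y, pow_mul y', e2, c2.mul_pow, pow_mul κ, sq κ, h.zz hκ,
      one_pow, one_mul, c.mul_pow, sq, sq]
  have s5 : ∀ k, ∀ y ∈ N, y ^ 2 ^ (k + 2 + 1) = 1 → y ^ 2 ^ (k + 2) ≠ 1 → y ^ 2 ^ (k + 2) = w0 * w0 := fun k y hy e e' => by
    rw [add_assoc, pp] at e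
    rw [pp] at e' ⊢
    have hy := N.pow_mem hy (2 ^ k)
    generalize y ^ 2 ^ k = y at e e' hy
    have hw : y * y ∈ W := h.alp _ (h.Tsq (NT y hy)) (by rw [← sq, ← pow_mul]; exact e)
    have c : u * (y * y) * u⁻¹ = y * y := by rw [← (s3 y hy u ((hN u).2 (Or.inr (by simp)))).eq]; group
    rw [show 2 ^ 2 = 4 from rfl, p4] at e' ⊢
    rcases h.all h0 h1 n0 n1 n01 hu Z.one_mem z0 u0 u1 hw with ⟨k, -⟩ | ⟨k, -⟩ | ⟨-, k⟩ | ⟨-, k⟩
    · exact absurd k e'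
    · exact k
    · rw [c] at k; exact absurd (by simpa using k) n0
    · rw [c] at k; exact absurd (by simpa using k) n0
  have s6 : ∀ j, ∀ v, v * u⁻¹ ∈ C_(W) → v ^ 2 ^ (j + 2 + 1) = 1 → ∀ c ∈ C_(W), c ^ 2 ^ (j + 2) = 1 := by
    intro j
    induction j using Nat.strong_induction_on with
    | _ j ih =>
    intro v hv e c hc
    by_contra hn
    obtain ⟨k, k1, k2⟩ := pw' h.pg _ c hn
    have hc' := pow_mem hc k
    obtain ⟨v', hv', e'⟩ : ∃ v', v' * u⁻¹ ∈ C_(W) ∧ v' ^ 2 ^ (j + 2) = 1 := by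
      by_cases e' : v ^ 2 ^ (j + 2) = 1
      · exact ⟨v, hv, e'⟩
      · refine ⟨c ^ k * v, by rw [mul_assoc]; exact mul_mem hc' hv, ?_⟩
        rw [s4 j _ (CN _ hc') v ((hN v).2 (Or.inr hv)), s5 j _ (CN _ hc') k1 k2, s5 j v ((hN v).2 (Or.inr hv)) e e', h.zz z0]
    rcases j with _ | j
    · exact big v' hv' e'
    · exact hn (by rw [show j + 1 + 2 = j + 2 + 1 by ring, pp, ih j (by omega) v' hv' e' c hc, one_pow])
  obtain ⟨k0, k1⟩ := h.conjIn h0 h1 n0 n1 n01 hz hg hf Z.one_mem f0 f1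
  rw [one_mul, h.out' h0 h1 n0 n1 n01 hz hg] at k1
  rw [mul_one, mul_inv_cancel] at k0
  have hv : g * f * g⁻¹ * f⁻¹ * u⁻¹ ∈ C_(W) := by
    have := h.same h0 h1 n0 n1 n01 (mul_mem hu hf) (Z.mul_mem Z.one_mem Z.one_mem) (Z.mul_mem z0 z1)
      (h.two hu Z.one_mem Z.one_mem u0 f0) (h.two hu z0 z1 u1 f1) (h.nT.conj_mem f hf g) (by rw [k0, one_mul 1]) k1
    rwa [mul_inv_rev, ← mul_assoc] at this
  obtain ⟨v, ev⟩ : ∃ v, v = g * f * g⁻¹ * f⁻¹ := ⟨_, rfl⟩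
  rw [← ev] at hv
  have vN := (hN v).2 (Or.inr hv)
  obtain ⟨d, hd, ed⟩ : ∃ d ∈ C_(W), f * v * f⁻¹ = d * v := ⟨_, h.Tcomm hf (NT v vN), by rw [commutatorElement_def]; group⟩
  have ec : g * (f * f) * g⁻¹ = v * (d * v) * (f * f) := by rw [← ed, ev]; group
  have hc := h.Tsq hf
  obtain ⟨j, j1, j2⟩ := ord h.pg 2 v (big v hv)
  have j3 := s5 j v vN j1 j2
  have j4 := s6 j v hv j1
  have pv : v ^ 2 ^ (j + 1) * v ^ 2 ^ (j + 1) = w0 * w0 := by rw [← j3, ← sq, ← pow_mul, ← pow_succ]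
  have pW : v ^ 2 ^ (j + 1) ∈ W := h.alp _ (by rw [pow_succ', pow_mul, sq]; exact pow_mem (h.Tsq (NT v vN)) _)
    (by rw [p4, pv, h.zz z0])
  have pf : (d * v) ^ 2 ^ (j + 1) = v ^ 2 ^ (j + 1) := by
    rw [← ed, conj_pow]
    rcases h.all h0 h1 n0 n1 n01 hf Z.one_mem z1 f0 f1 pW with ⟨-, k⟩ | ⟨-, k⟩ | ⟨k, -⟩ | ⟨k, -⟩
    · exact k
    · rw [k, one_mul]
    · exact absurd (pv.symm.trans k) n01
    · rw [pv] at k; exact absurd (by simpa using k) n1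
  have pc : (v * (d * v) * (f * f)) ^ 2 ^ (j + 1) = (f * f) ^ 2 ^ (j + 1) := by
    rw [← ec, conj_pow, pow_succ, pow_mul, sq]
    have dW : (f * f) ^ 2 ^ j ∈ W := h.alp _ (pow_mem hc _) (by rw [← pow_mul, ← j4 _ hc, pow_add]; rfl)
    have c : f * (f * f) ^ 2 ^ j * f⁻¹ = (f * f) ^ 2 ^ j := by rw [← conj_pow]; group
    rcases h.all h0 h1 n0 n1 n01 hf Z.one_mem z1 f0 f1 dW with ⟨k, -⟩ | ⟨k, -⟩ | ⟨-, k⟩ | ⟨-, k⟩
    · rw [k]; group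
    · rw [k, hz]
    · rw [c] at k; exact absurd (by simpa using k) n1
    · rw [c] at k; exact absurd (by simpa using k) n1
  rcases j with _ | j
  · have dW : d ∈ W := h.alp d hd (j4 d hd)
    have fW : f * f ∈ W := h.alp _ hc (j4 _ hc)
    simp only [zero_add, pow_one, sq] at pf pc pv pW
    have e1 : v * d * v⁻¹ = d⁻¹ := by
      rw [show v * d * v⁻¹ = d⁻¹ * (d * v * (d * v)) * (v * v)⁻¹ by group, pf]; group
    have e2 := h.NIc hui hv d dW e1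
    have e3 : v * (d * v) = d⁻¹ * (v * v) := by rw [← e1]; group
    rw [e3, h.sqm (W.mul_mem (W.inv_mem dW) pW) fW, h.sqm (W.inv_mem dW) pW, pv, ← mul_inv_rev, e2] at pc
    exact n0 (by simpa using pc)
  · have dN := CN d hd
    rw [show j + 1 + 1 = j + 2 from rfl] at pf pc pv
    rw [s4 j _ (N.mul_mem vN (N.mul_mem dN vN)) _ (CN _ hc), s4 j v vN _ (N.mul_mem dN vN), pf, pv] at pc
    exact n0 (by simpa using pc)
end U

end St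
end H04.MW
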