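import Mathlib
import Cfsg.Agent.H04.MWd
import Cfsg.Agent.S0130

/-!
# MacWilliams' theorem (namespace `H04.MW`) : a 2-group without normal `E₈` has sectional rank at most 4
-/

set_option autoImplicit false
set_option linter.unusedSectionVars false
open Cfsg BG Subgroup
open scoped commutatorElement

namespace H04.MW
variable {G : Type*} [Group G] [Finite G]

theorem card_zp {z : G} (h : z * z = 1) : Nat.card (zpowers z) ≤ 2 := by
  rw [Nat.card_zpowers]; exact orderOf_le_of_pow_eq_one (by norm_num) (by rw [sq, h])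

namespace St
variable {W Z : Subgroup G} (h : St W Z) {a b a' b' c g u v w w' x y : G}
include h

theorem gfix (hx : x ∈ C_(Z)) (hw : w ∈ W) (hα : g * w * g⁻¹ * w⁻¹ ∈ Z) (ha : a ∈ Z) (e : x * w * x⁻¹ = a * w)
    (hc : ⁅g, x⁆ ∈ C_(W)) : g * a * g⁻¹ = a := by
  have k := h.act2 hx hα e ha
  rw [inv_mul_cancel_right, ← h.coset (v := g * x * g⁻¹) hc (h.nW.conj_mem w hw g),
    show g * x * g⁻¹ * (g * w * g⁻¹) * (g * x * g⁻¹)⁻¹ = g * (x * w * x⁻¹) * g⁻¹ by group, e, ← conj_mul] at k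
  exact mul_right_cancel k

theorem cidx {M : Subgroup G} (hw : w ∈ W) (hM : ∀ x ∈ C_(Z), ∀ a ∈ Z, x * w * x⁻¹ = a * w → a ∈ M)
    (hC : ∀ x ∈ C_(Z), x * w * x⁻¹ = w → x ∈ C_(W)) : C_(W).relIndex C_(Z) ≤ Nat.card M := by
  have k := H04.relIndex_centralizer_le (x := w) (D := C_(Z)) (N := M) fun y hy => by
    obtain ⟨a, ha, e⟩ := h.act hy hw
    rw [← M.inv_mem_iff, commutatorElement_inv, commutatorElement_def, e, mul_inv_cancel_right]
    exact hM y hy a ha e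
  refine le_trans (le_of_eq ?_) k
  rw [← inf_relIndex_right C_(W), ← inf_relIndex_right (centralizer {w})]
  congr 1
  ext x
  exact ⟨fun e => ⟨cent_le_cent1 hw e.1, e.2⟩, fun e => ⟨hC x e.2 (by rw [mem_cent1.1 e.1]; group), e.2⟩⟩

theorem imul : C_(W).relIndex C_(Z) * C_(Z).index = C_(W).index := relIndex_mul_index fun _ => h.CT

theorem tidx {z1 z2 : G} (h1 : z1 ∈ Z) (ho : ∀ g : G, g * z2 * g⁻¹ = z2 ∨ g * z2 * g⁻¹ = z1 * z2)
    (hi : ∀ g : G, g * z2 * g⁻¹ = z2 → g ∈ C_(Z)) : C_(Z).index ≤ 2 := by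
  have k := H04.relIndex_centralizer_le (x := z2) (D := ⊤) (N := zpowers z1) fun y _ => by
    rw [← (zpowers z1).inv_mem_iff, commutatorElement_inv, commutatorElement_def]
    rcases ho y with e | e <;> rw [e] <;> simp
  rw [relIndex_top_right] at k
  exact (index_antitone fun g hg => hi g (by rw [mem_cent1.1 hg]; group)).trans (k.trans (card_zp (h.zz h1)))

theorem small {w0 : G} (h0 : w0 ∈ W) (hs : ∀ w ∈ W, w ∈ Z ∨ w * w0⁻¹ ∈ Z) : SectionalPRankLE 2 4 G := by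
  have := h.nC
  have := h.nZ
  have hC : ∀ x ∈ C_(Z), x * w0 * x⁻¹ = w0 → x ∈ C_(W) := fun x hx e => h.mc fun w hw => by
    rcases hs w hw with k | k
    · exact h.tz' hx k
    · have := h.act2 hx k (e.trans (one_mul w0).symm) Z.one_mem
      simpa using this
  have c4 := (h.cidx h0 (fun _ _ a ha _ => ha) hC).trans h.cZ
  have e := h.imul
  refine top h.r2C ?_
  by_cases hT : ∀ g : G, g ∈ C_(Z)
  · rw [index_eq_one.2 (eq_top_iff.2 fun g _ => hT g)] at e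
    left; omega
  push Not at hT
  obtain ⟨g, hg⟩ := hT
  obtain ⟨z2, h2, k2⟩ : ∃ z2 ∈ Z, ¬ z2 * g = g * z2 := by
    by_contra hc
    push Not at hc
    exact hg (mem_cent.2 hc)
  have := Fact.mk Nat.prime_two
  obtain ⟨z1, h1, n1, -, c1⟩ := H04.exists_mem_center_pow_eq_one_of_normal h.pg Z (by
    rintro rfl; rw [mem_bot.1 h2] at k2; simp at k2)
  have c1' : ∀ g : G, g * z1 * g⁻¹ = z1 := fun g => by rw [mem_center_iff.1 c1 g]; group
  have n2 : z2 ≠ 1 := by rintro rfl; simp at k2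
  have n12 : z1 ≠ z2 := by rintro rfl; exact k2 (mem_center_iff.1 c1 g).symm
  have zc : ∀ a ∈ Z, a = 1 ∨ a = z1 ∨ a = z2 ∨ a = z1 * z2 := fun a ha =>
    four h.cZ h1 h2 ha n1 n2 (fun e => n12 (by rw [eq_inv_of_mul_eq_one_left e, h.zi h2])) n12
  have t2 : C_(Z).index ≤ 2 := h.tidx (z2 := z2) h1 (fun g => by
      rcases zc _ (h.nZ.conj_mem _ h2 g) with e | e | e | e
      · exact absurd (by simpa using e) n2
      · rw [← c1' g] at e; exact absurd (by simpa using e.symm) n12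
      · exact Or.inl e
      · exact Or.inr e) fun g e => mem_cent.2 fun a ha => by
    have k : g * a * g⁻¹ = a := by
      rcases zc a ha with rfl | rfl | rfl | rfl
      · group
      · exact c1' g
      · exact e
      · rw [← conj_mul, c1' g, e]
    conv_lhs => rw [← k]
    group
  by_cases hn : ∃ x ∈ C_(Z), ⁅g, x⁆ ∉ C_(W)
  · obtain ⟨x, -, hx⟩ := hn
    exact Or.inr ⟨by nlinarith, g, x, hx⟩
  push Not at hn
  have hα : g * w0 * g⁻¹ * w0⁻¹ ∈ Z := by
    rcases hs _ (h.nW.conj_mem w0 h0 g) with k | k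
    · exact Z.mul_mem k (Z.inv_mem (by simpa [mul_assoc] using h.nZ.conj_mem _ k g⁻¹))
    · exact k
  have c2 := (h.cidx (M := zpowers z1) h0 (fun x hx a ha e => by
    have k := h.gfix hx h0 hα ha e (hn x hx)
    rcases zc a ha with rfl | rfl | rfl | rfl
    · simp
    · simp
    · exact absurd (by conv_lhs => rw [← k]
                       group) k2
    · rw [← conj_mul, c1' g] at k
      exact absurd (by conv_lhs => rw [← mul_left_cancel k]
                       group) k2) hC).trans (card_zp (h.zz h1))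
  left; nlinarith

variable {w0 w1 : G} (h0 : w0 ∈ W) (h1 : w1 ∈ W) (n0 : w0 * w0 ≠ 1) (n1 : w1 * w1 ≠ 1) (n01 : w0 * w0 ≠ w1 * w1)
include h0 h1 n0 n1 n01

theorem bigT (hT : ∀ g : G, g ∈ C_(Z)) : SectionalPRankLE 2 4 G := by
  have := h.nC
  have z0 := h.sqZ h0
  have z1 := h.sqZ h1
  have n2 := h.n2 h0 h1 n0 n1 n01
  have e := h.imul
  rw [index_eq_one.2 (eq_top_iff.2 fun g _ => hT g), mul_one] at e
  by_cases h4 : C_(W).index ≤ 4
  · exact top h.r2C (Or.inl h4)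
  have key : ∀ a ∈ Z, ∀ b ∈ Z, In Z w0 w1 a b → (a ≠ 1 ∨ b ≠ 1) → a ≠ w0 * w0 → b ≠ w1 * w1 → a * b ≠ w0 * w0 * (w1 * w1) →
      ∃ u ∈ C_(Z), u ∉ C_(W) ∧ NI W u ∧ (a ≠ 1 → b ≠ 1 → a * b ≠ 1 → NF W u) := by
    rintro a ha b hb ⟨u, hu, u0, u1⟩ k c0 c1 c2
    refine ⟨u, hu, fun hC => ?_, h.ni_of h0 h1 n0 n1 n01 hu ha hb u0 u1 c0 c1 c2, h.nf_of h0 h1 n0 n1 n01 hu ha hb u0 u1⟩
    rw [h.cw hC h0] at u0
    rw [h.cw hC h1] at u1
    exact k.elim (fun k => k (by simpa using u0.symm)) fun k => k (by simpa using u1.symm)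
  have e1 := h.zz z0
  have e2 := h.zz z1
  have e3 := h.comm _ (h.ZW z1) _ (h.ZW z0)
  have i2 := fun a ha b hb a' ha' b' hb' => h.idx2 h0 h1 n0 n1 n01 (a := a) (b := b) (a' := a') (b' := b') (by omega) ha hb ha' hb'
  have i8 := fun a ha b hb => h.idx8 h0 h1 n0 n1 n01 (a := a) (b := b) ha hb
  have im := fun a ha b hb a' ha' b' hb' => h.inmul h0 h1 n0 n1 n01 (a := a) (b := b) (a' := a') (b' := b') ha hb ha' hb'
  have nof := fun u hu huC => h.nof h0 h1 n0 n1 n01 (u := u) hu huC fun g => h.Tcomm (hT g) hu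
  have fin := fun u hu huC hi => h.fin h0 h1 n0 n1 n01 (u := u) hu huC (fun g => h.Tcomm (hT g) hu) hi
  generalize w0 * w0 = p at *
  generalize w1 * w1 = q at *
  have pq := Z.mul_mem z0 z1
  have m1 : q * (p * q) = p := by rw [← mul_assoc, e3, mul_assoc, e2, mul_one]
  have m2 : p * q * p = q := by rw [mul_assoc, e3, ← mul_assoc, e1, one_mul]
  have m3 : p * q * (p * q) = 1 := h.zz pq
  have d1 : p * q ≠ q := by simpa using n0
  have d2 : p * q ≠ p := by simpa using n1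
  have w1' : ¬ In Z w0 w1 q (p * q) := fun i => by
    obtain ⟨u, hu, k1, k2, k3⟩ := key _ z1 _ pq i (Or.inl n1) n01.symm d1 (by rw [m1]; exact d2.symm)
    exact nof u hu k1 k2 (k3 n1 n2 (by rw [m1]; exact n0))
  have w2' : ¬ In Z w0 w1 (p * q) p := fun i => by
    obtain ⟨u, hu, k1, k2, k3⟩ := key _ pq _ z0 i (Or.inl n2) d2 n01 (by rw [m2]; exact d1.symm)
    exact nof u hu k1 k2 (k3 n2 n0 (by rw [m2]; exact n1))
  have h8 := i8 _ z1 _ pq w1'
  have iI := ((i2 _ z1 _ pq _ pq _ z0).resolve_left w1').resolve_left w2'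
  rw [m1, m2] at iI
  rcases i2 _ Z.one_mem _ z0 _ z1 _ Z.one_mem with i | i | i
  · obtain ⟨u, hu, k1, k2, -⟩ := key _ Z.one_mem _ z0 i (Or.inr n0) n0.symm n01 (by rw [one_mul]; exact d2.symm)
    exact fin u hu k1 k2 (Or.inl (by omega))
  · obtain ⟨u, hu, k1, k2, -⟩ := key _ z1 _ Z.one_mem i (Or.inl n1) n01.symm n1.symm (by rw [mul_one]; exact d1.symm)
    exact fin u hu k1 k2 (Or.inl (by omega))
  · rw [one_mul, mul_one] at i
    have i' := im _ z0 _ z1 _ z1 _ z0 iI i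
    rw [e3] at i'
    obtain ⟨u, hu, k1, k2, -⟩ := key _ pq _ pq i' (Or.inl n2) d2 d1 (by rw [m3]; exact n2.symm)
    exact fin u hu k1 k2 (Or.inl (by omega))

theorem bigO (hz : ∀ g : G, g * (w0 * w0) * g⁻¹ = w0 * w0) (hg : g ∉ C_(Z)) : SectionalPRankLE 2 4 G := by
  have := h.nC
  have z0 := h.sqZ h0
  have z1 := h.sqZ h1
  have n2 := h.n2 h0 h1 n0 n1 n01
  have e := h.imul
  have t2 := h.tidx z0 (h.out h0 h1 n0 n1 n01 hz) fun g => h.inT h0 h1 n0 n1 n01 hz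
  have o := h.out' h0 h1 n0 n1 n01 hz hg
  have cj : ∀ a ∈ Z, ∀ b, In Z w0 w1 a b → In Z w0 w1 (g * a * g⁻¹) (g * (a * b) * g⁻¹) := by
    rintro a ha b ⟨x, hx, x0, x1⟩
    exact ⟨_, h.nT.conj_mem x hx g, h.conjIn h0 h1 n0 n1 n01 hz hg hx ha x0 x1⟩
  have e1 := h.zz z0
  have e2 := h.zz z1
  have im := fun a ha b hb a' ha' b' hb' => h.inmul h0 h1 n0 n1 n01 (a := a) (b := b) (a' := a') (b' := b') ha hb ha' hb'
  have pq := Z.mul_mem z0 z1
  have o' : g * (w0 * w0 * (w1 * w1)) * g⁻¹ = w1 * w1 := by rw [← conj_mul, hz, o, ← mul_assoc, e1, one_mul]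
  by_cases iN : In Z w0 w1 1 (w0 * w0)
  · obtain ⟨u, hu, u0, u1⟩ := iN
    have fin := h.fin h0 h1 n0 n1 n01 hu (h.uC h0 h1 n0 n1 n01 hz hu u0 u1) (h.uc h0 h1 n0 n1 n01 hz hu u0 u1)
      (h.ui h0 h1 n0 n1 n01 hz hu u0 u1)
    by_cases h4 : C_(W).relIndex C_(Z) ≤ 4
    · exact fin (Or.inl (by nlinarith))
    have i2 := fun a ha b hb a' ha' b' hb' => h.idx2 h0 h1 n0 n1 n01 (a := a) (b := b) (a' := a') (b' := b') (by omega) ha hb ha' hb'
    have iI : In Z w0 w1 (w0 * w0) (w1 * w1) := by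
      have k : In Z w0 w1 (w0 * w0 * (w1 * w1) * (w1 * w1)) (1 * (w1 * w1)) := by
        rcases i2 _ pq _ Z.one_mem _ z1 _ z1 with i | i | i
        · have := cj _ pq _ i
          rw [mul_one, o'] at this
          exact im _ pq _ Z.one_mem _ z1 _ z1 i this
        · have := cj _ z1 _ i
          rw [e2, o, mul_one, mul_inv_cancel] at this
          exact im _ pq _ Z.one_mem _ z1 _ z1 this i
        · exact i
      rwa [mul_assoc, e2, mul_one, one_mul] at k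
    have n22 : ¬ In Z w0 w1 1 (w1 * w1) := h.r3 h0 h1 n0 n1 n01 hz hu u0 u1 hg iI
    have h8 := h.idx8 h0 h1 n0 n1 n01 Z.one_mem z1 n22
    obtain ⟨b, x, hx, x0, x1⟩ : ∃ b, In Z w0 w1 (w1 * w1) b := by
      rcases (i2 _ Z.one_mem _ z1 _ z1 _ Z.one_mem).resolve_left n22 with i | i
      · exact ⟨_, i⟩
      · exact ⟨_, by rwa [one_mul] at i⟩
    have k := (h.conjIn h0 h1 n0 n1 n01 hz hg hx z1 x0 x1).1
    rw [o] at k
    refine fin (Or.inr ⟨by nlinarith, g, x, fun hc => ?_, fun hc => ?_⟩)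
    · rw [h.coset (v := g * x * g⁻¹) hc h0, x0] at k
      exact n0 (by simpa using k)
    · rw [h.coset (v := g * x * g⁻¹) (u := u * x) (by rwa [mul_inv_rev, ← mul_assoc]) h0, h.two hu Z.one_mem z1 u0 x0] at k
      exact n0 (by simpa using k)
  have h4 : C_(W).relIndex C_(Z) ≤ 4 := by
    by_contra h4
    have i2 := fun a ha b hb a' ha' b' hb' => h.idx2 h0 h1 n0 n1 n01 (a := a) (b := b) (a' := a') (b' := b') (by omega) ha hb ha' hb'
    have k : In Z w0 w1 (w0 * w0 * (w0 * w0)) (1 * (w0 * w0)) := by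
      rcases i2 _ z0 _ Z.one_mem _ z0 _ z0 with i | i | i
      · have := cj _ z0 _ i
        rw [mul_one, hz] at this
        exact im _ z0 _ Z.one_mem _ z0 _ z0 i this
      · have := cj _ z0 _ i
        rw [e1, hz, mul_one, mul_inv_cancel] at this
        exact im _ z0 _ Z.one_mem _ z0 _ z0 this i
      · exact i
    rw [e1, one_mul] at k
    exact iN k
  refine top h.r2C ?_
  by_cases hn : ∃ x ∈ C_(Z), ⁅g, x⁆ ∉ C_(W)
  · obtain ⟨x, -, hx⟩ := hn
    exact Or.inr ⟨by nlinarith, g, x, hx⟩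
  push Not at hn
  have fx : ∀ x ∈ C_(Z), ∀ a ∈ Z, ∀ b, x * w0 * x⁻¹ = a * w0 → x * w1 * x⁻¹ = b * w1 →
      g * a * g⁻¹ = a ∧ g * (a * b) * g⁻¹ = b := fun x hx a ha b x0 x1 => by
    obtain ⟨k0, k1⟩ := h.conjIn h0 h1 n0 n1 n01 hz hg hx ha x0 x1
    rw [h.coset (v := g * x * g⁻¹) (hn x hx) h0, x0] at k0
    rw [h.coset (v := g * x * g⁻¹) (hn x hx) h1, x1] at k1
    exact ⟨(mul_right_cancel k0).symm, (mul_right_cancel k1).symm⟩
  have fz : ∀ a ∈ Z, g * a * g⁻¹ = a → a = 1 ∨ a = w0 * w0 := fun a ha k => by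
    rcases h.zc h0 h1 n0 n1 n01 ha with rfl | rfl | rfl | rfl
    · exact Or.inl rfl
    · exact Or.inr rfl
    · rw [o] at k; exact absurd (by simpa using k) n0
    · rw [o'] at k; exact absurd (by simpa using k) n0
  have c2 := (h.cidx (M := zpowers (w0 * w0)) h0 (fun x hx a ha e => by
    obtain ⟨b, -, x1⟩ := h.act hx h1
    rcases fz a ha (fx x hx a ha b e x1).1 with rfl | rfl <;> simp) fun x hx e => by
      obtain ⟨b, hb, x1⟩ := h.act hx h1
      have e' := e.trans (one_mul w0).symm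
      rcases fz b hb (by simpa using (fx x hx 1 Z.one_mem b e' x1).2) with rfl | rfl
      · simpa using h.same h0 h1 n0 n1 n01 (one_mem _) Z.one_mem Z.one_mem (by group) (by group) hx e' x1
      · exact absurd ⟨x, hx, e', x1⟩ iN).trans (card_zp e1)
  left; nlinarith

theorem bigA (hz : ∀ g : G, g * (w0 * w0) * g⁻¹ = w0 * w0) : SectionalPRankLE 2 4 G := by
  by_cases hT : ∀ g : G, g ∈ C_(Z)
  · exact h.bigT h0 h1 n0 n1 n01 hT
  · push Not at hT
    obtain ⟨g, hg⟩ := hT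
    exact h.bigO h0 h1 n0 n1 n01 hz hg

theorem bigB : SectionalPRankLE 2 4 G := by
  have := h.nZ
  have := Fact.mk Nat.prime_two
  obtain ⟨z, hz, n, -, c⟩ := H04.exists_mem_center_pow_eq_one_of_normal h.pg Z fun e => n0 (by
    have := h.sqZ h0; rwa [e, mem_bot] at this)
  have c' : ∀ g : G, g * z * g⁻¹ = z := fun g => by rw [mem_center_iff.1 c g]; group
  rcases h.zc h0 h1 n0 n1 n01 hz with e | e | e | e
  · exact absurd e n
  · exact h.bigA h0 h1 n0 n1 n01 (e ▸ c')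
  · exact h.bigA h1 h0 n1 n0 n01.symm (e ▸ c')
  · rw [← h.sqm h0 h1] at e
    exact h.bigA (W.mul_mem h0 h1) h1 (e ▸ n) n1 (by rw [h.sqm h0 h1]; simpa using n0) (e ▸ c')
end St

theorem St.main {W Z : Subgroup G} (h : St W Z) : SectionalPRankLE 2 4 G := by
  by_cases k : ∃ w0 ∈ W, w0 * w0 ≠ 1
  · obtain ⟨w0, h0, n0⟩ := k
    by_cases k : ∃ w1 ∈ W, w1 * w1 ≠ 1 ∧ w0 * w0 ≠ w1 * w1
    · obtain ⟨w1, h1, n1, n01⟩ := k
      exact h.bigB h0 h1 n0 n1 n01
    · push Not at k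
      exact h.small h0 fun w hw => (em (w * w = 1)).imp (fun e => (h.mZ w).2 ⟨hw, e⟩) fun e => h.sqeq hw h0 (k w hw e).symm
  · push Not at k
    exact h.small W.one_mem fun w hw => Or.inl ((h.mZ w).2 ⟨hw, k w hw⟩)

theorem main (hP : IsPGroup 2 G)
    (h : ∀ A : Subgroup G, A.Normal → IsMulCommutative A → (∀ a ∈ A, a ^ 2 = 1) → Nat.card A ≤ 4) :
    SectionalPRankLE 2 4 G := by
  have := Fact.mk Nat.prime_two
  obtain ⟨W, ⟨h1, h2, h3⟩, hm⟩ := Set.Finite.exists_maximalFor (fun B : Subgroup G => B)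
    {B : Subgroup G | B.Normal ∧ IsMulCommutative B ∧ ∀ b ∈ B, b ^ 2 ^ 2 = 1} (Set.toFinite _)
    ⟨⊥, inferInstance, inferInstance, fun b hb => by rw [mem_bot.1 hb, one_pow]⟩
  have hc : ∀ a ∈ W, ∀ b ∈ W, a * b = b * a := fun a ha b hb => congrArg Subtype.val (h2.is_comm.comm ⟨a, ha⟩ ⟨b, hb⟩)
  let Z : Subgroup G :=
    { carrier := {a | a ∈ W ∧ a * a = 1}
      one_mem' := ⟨W.one_mem, one_mul 1⟩
      mul_mem' := fun {a b} ha hb => ⟨W.mul_mem ha.1 hb.1, by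
        rw [mul_assoc, ← mul_assoc b, ← hc a ha.1 b hb.1, mul_assoc, hb.2, mul_one, ha.2]⟩
      inv_mem' := fun {a} ha => ⟨W.inv_mem ha.1, by rw [← mul_inv_rev, ha.2, inv_one]⟩ }
  exact St.main (W := W) (Z := Z) ⟨hP, h1, hc, h3, fun x hx e =>
    Cfsg.Agent.S0130.result hP 2 (by norm_num) W h2 h3 (fun B b1 b2 b3 hle => le_antisymm (hm ⟨b1, b2, b3⟩ hle) hle) x hx e,
    fun _ => Iff.rfl, h⟩

end H04.MW
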