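import Mathlib
import Cfsg.Agent.H04.MWe

/-!
# Harada's self-centralizing `E₈` theorem, generic lemmas (namespace `H04.HE`)

`split`, `q4` : index splitting along a normal subgroup; `suz` : Suzuki's lemma; `Cq V U Y` : `Y/V` cyclic of index at most 2 in `U/V`;
`sqr` : squaring in an abelian group; `onto`, `eight`, `d8`.
-/

set_option autoImplicit false
set_option linter.unusedSectionVars false
open Cfsg BG Subgroup H01.SR H04.MW
open scoped commutatorElement

namespace H04.HE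
variable {G : Type*} [Group G] [Finite G] {A B H K N U V Y Z : Subgroup G} {a b g s u v x x' y z : G}

theorem split [hN : N.Normal] (e : EA H K) : K.relIndex H ≤ K.relIndex (H ⊓ N) * (K ⊓ H ⊔ N).relIndex H := by
  have hn : H ≤ N_(K ⊓ H) := le_norm_of_der_le (commutator_le.2 fun a ha b hb =>
    ⟨e.comm a ha b hb, H.mul_mem (H.mul_mem (H.mul_mem ha hb) (H.inv_mem ha)) (H.inv_mem hb)⟩) inf_le_right
  have hKN : K ⊓ H ≤ N_(N) := le_top.trans (normalizer_eq_top N).ge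
  have e1 : (K ⊓ H ⊔ N) ⊓ H = K ⊓ H ⊔ (H ⊓ N) := by rw [inf_comm, BG.dedekind inf_le_right (Or.inr hKN)]
  have s := step (K ⊓ H) (K ⊓ H ⊔ N) H
  rw [e1, BG.relIndex_sup (inf_le_left.trans hn), inf_relIndex_right, ← inf_relIndex_right (K ⊓ H) (H ⊓ N), inf_assoc,
    inf_eq_right.2 (inf_le_left : H ⊓ N ≤ H), inf_relIndex_right] at s
  exact s

theorem q4 [hN : N.Normal] (h : N.index ≤ 4 ∨ (N.index ≤ 8 ∧ ∃ a b : G, ⁅a, b⁆ ∉ N)) (e : EA H K) :
    (K ⊓ H ⊔ N).relIndex H ≤ 4 := by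
  have h2 : ∀ a ∈ H, ∀ b ∈ H, ⁅a, b⁆ ∈ K ⊓ H := fun a ha b hb =>
    ⟨e.comm a ha b hb, H.mul_mem (H.mul_mem (H.mul_mem ha hb) (H.inv_mem ha)) (H.inv_mem hb)⟩
  generalize K ⊓ H = K at h2
  have t0 : (K ⊔ N).relIndex H ≤ (K ⊔ N).index := by
    rw [← relIndex_top_right]; exact idx_mono le_top
  have t1 : N.relIndex (K ⊔ N) * (K ⊔ N).index = N.index := relIndex_mul_index le_sup_right
  rcases h with h | ⟨h, a, b, hab⟩
  · have := BG.relIndex_ne_zero N (K ⊔ N)
    nlinarith [Nat.pos_of_ne_zero this]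
  · by_cases hK : K ≤ N
    · rw [sup_eq_right.2 hK]
      have t2 : N.relIndex (H ⊔ N) * (H ⊔ N).index = N.index := relIndex_mul_index le_sup_right
      rw [relIndex_sup_right] at t2
      have t3 : 2 ≤ (H ⊔ N).index := by
        rw [← relIndex_top_right]
        refine two_le fun ht => hab ?_
        obtain ⟨a1, ha1, a2, ha2, rfl⟩ := mem_sup_of_normal_right.1 (ht (mem_top a))
        obtain ⟨b1, hb1, b2, hb2, rfl⟩ := mem_sup_of_normal_right.1 (ht (mem_top b))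
        have c := hK (h2 _ ha1 _ hb1)
        rw [← QuotientGroup.eq_one_iff] at c ha2 hb2 ⊢
        simp only [commutatorElement_def, QuotientGroup.mk_mul, QuotientGroup.mk_inv, ha2, hb2, mul_one] at c ⊢
        exact c
      nlinarith
    · have t3 : 2 ≤ N.relIndex (K ⊔ N) := two_le fun ht => hK (le_sup_left.trans ht)
      nlinarith

theorem idx2 (h : A.relIndex B ≤ 2) (hx : x ∈ B) (hy : y ∈ B) (h1 : x ∉ A) (h2 : y ∉ A) : x * y ∈ A := by
  have t := two_le (A := A) (B := B) fun e => h1 (e hx)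
  have := mul_mem_iff_of_index_two (H := A.subgroupOf B) (le_antisymm h t) (a := ⟨x, hx⟩) (b := ⟨y, hy⟩)
  simp only [mem_subgroupOf] at this
  exact this.2 (iff_of_false h1 h2)

theorem eight (hB : B ≤ V) (h : Nat.card V ≤ 2 * Nat.card B) (hx : x ∈ V) (hy : y ∈ V) (h1 : x ∉ B) (h2 : y ∉ B) : x * y ∈ B := by
  have := BG.card_mul_relIndex hB
  exact idx2 (by nlinarith [card_pos B]) hx hy h1 h2

theorem suz0 (hG : IsPGroup 2 G) (h : Nat.card C_[a] ≤ 4) : ∃ y : G, (zpowers y).index ≤ 2 := by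
  have := Fact.mk Nat.prime_two
  have h1 := H04.relIndex_centralizer_le (x := a) (D := ⊤) (N := commutator G) fun y _ =>
    commutator_mem_commutator (mem_top _) (mem_top _)
  rw [relIndex_top_right] at h1
  have h2 := card_mul_index C_[a]
  have h3 := card_mul_index (commutator G)
  have h4 : (commutator G).index ≤ 4 := by nlinarith [card_pos (commutator G)]
  obtain ⟨n, hn⟩ := hG.index (commutator G)
  by_cases h5 : (commutator G).index ≤ 2
  · obtain ⟨y, hy⟩ : ∃ y, commutator G ⊔ zpowers y = ⊤ := by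
      by_cases e : commutator G = ⊤
      · exact ⟨1, by simp [e]⟩
      · obtain ⟨y, -, hy⟩ := SetLike.exists_of_lt (lt_top_iff_ne_top.2 e)
        have : (commutator G).index ≠ 1 := fun e' => e (index_eq_one.1 e')
        have : (commutator G).index ≠ 0 := index_ne_zero_of_finite
        exact ⟨y, H04.sup_eq_top_of_index_two (by omega) hy⟩
    refine ⟨y, ?_⟩
    rw [frattini_nongenerating (K := zpowers y) (eq_top_iff.2 (by
      rw [← hy, sup_comm]; exact sup_le_sup_left (H04.commutator_le_frattini hG) _)), index_top]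
    norm_num
  have h6 : (commutator G).index = 4 := by
    rw [hn] at h4 h5 ⊢
    have : n ≤ 2 := (Nat.pow_le_pow_iff_right (by norm_num : 1 < 2)).1 h4
    interval_cases n <;> omega
  by_cases hc : IsMulCommutative G
  · have e : C_[a] = ⊤ := eq_top_iff.2 fun x _ => mem_cent1.2 (hc.is_comm.comm x a)
    rw [e, card_top] at h
    have : Nontrivial G := Finite.one_lt_card_iff_nontrivial.1 (by nlinarith [card_pos (commutator G)])
    obtain ⟨y, hy⟩ := exists_ne (1 : G)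
    have h7 := card_mul_index (zpowers y)
    have h8 : 1 < Nat.card (zpowers y) := (one_lt_card_iff_ne_bot _).2 (by simpa using hy)
    exact ⟨y, by nlinarith⟩
  · obtain ⟨m, y, b, d⟩ := H04.taussky hG hc h6
    exact ⟨y, d.index.le⟩

structure Cq (V U Y : Subgroup G) : Prop where
  VY : V ≤ Y
  YU : Y ≤ U
  idx : Y.relIndex U ≤ 2
  gen : ∃ y ∈ Y, ∀ x ∈ Y, ∃ i : ℤ, x * (y ^ i)⁻¹ ∈ V

theorem suz (hG : IsPGroup 2 G) [V.Normal] (hV : V ≤ U) (ha : a ∈ U) {P : Subgroup G} (hP : ∀ x ∈ U, ⁅x, a⁆ ∈ V → x ∈ P)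
    (hc : Nat.card P ≤ 4 * Nat.card V) : ∃ Y, Cq V U Y := by
  let f : U →* G ⧸ V := (QuotientGroup.mk' V).comp U.subtype
  let φ := f.rangeRestrict
  have hφ : Function.Surjective φ := f.rangeRestrict_surjective
  have hk : φ.ker = V.subgroupOf U := by
    rw [MonoidHom.ker_rangeRestrict]; ext x; simp [f, mem_subgroupOf]
  obtain ⟨y, hy⟩ := suz0 (a := φ ⟨a, ha⟩) ((hG.to_quotient V).to_subgroup f.range) (by
    have h1 := BG.card_mul_relIndex (show φ.ker ≤ comap φ C_[φ ⟨a, ha⟩] from ker_le_comap _ _)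
    have h2 : φ.ker.relIndex (comap φ C_[φ ⟨a, ha⟩]) = Nat.card C_[φ ⟨a, ha⟩] := by
      rw [relIndex_ker, map_comap_eq_self_of_surjective hφ]
    have h3 : Nat.card (comap φ C_[φ ⟨a, ha⟩]) ≤ Nat.card P := by
      rw [← card_map_of_injective U.subtype_injective]
      refine card_le ?_
      rintro _ ⟨x, hx, rfl⟩
      refine hP x x.2 ?_
      have : ⁅x, (⟨a, ha⟩ : U)⁆ ∈ φ.ker := by
        rw [MonoidHom.mem_ker, map_commutatorElement, commutatorElement_eq_one_iff_mul_comm]; exact mem_cent1.1 hx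
      rwa [hk] at this
    rw [h2, hk, Nat.card_congr (subgroupOfEquivOfLe hV).toEquiv] at h1
    nlinarith [card_pos V])
  obtain ⟨y, rfl⟩ := hφ y
  refine ⟨(comap φ (zpowers (φ y))).map U.subtype, fun v hv => ⟨⟨v, hV hv⟩, ker_le_comap _ _ (by rw [hk]; exact hv), rfl⟩,
    map_subtype_le _, ?_, y, ⟨y, mem_zpowers _, rfl⟩, ?_⟩
  · rw [relIndex, subgroupOf, comap_map_eq_self_of_injective U.subtype_injective, index_comap_of_surjective _ hφ]
    exact hy
  · rintro _ ⟨x, ⟨i, hi⟩, rfl⟩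
    refine ⟨i, ?_⟩
    have : x * (y ^ i)⁻¹ ∈ φ.ker := by rw [MonoidHom.mem_ker, map_mul, map_inv, map_zpow, ← hi, mul_inv_cancel]
    rwa [hk] at this

namespace Cq
variable [hV : V.Normal] (h : Cq V U Y)
include h

theorem cyc : IsCyclic (Y.map (QuotientGroup.mk' V)) := by
  obtain ⟨y, hy, e⟩ := h.gen
  refine (Subgroup.isCyclic_iff_exists_zpowers_eq_top _).2 ⟨(y : G ⧸ V), le_antisymm (zpowers_le.2 ⟨y, hy, rfl⟩) ?_⟩
  rintro _ ⟨x, hx, rfl⟩
  obtain ⟨i, hi⟩ := e x hx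
  rw [← QuotientGroup.eq_one_iff, QuotientGroup.mk_mul, QuotientGroup.mk_inv, mul_inv_eq_one] at hi
  exact ⟨i, hi.symm⟩

theorem q2 (hH : H ≤ Y) (e : EA H K) : K.relIndex H ≤ K.relIndex (H ⊓ V) * 2 := by
  refine (split (N := V) e).trans (Nat.mul_le_mul_left _ ?_)
  have := h.cyc
  have k := H01.SR.cyc (K := (K ⊓ H).map (QuotientGroup.mk' V)) (isCyclic_of_le (map_mono (f := QuotientGroup.mk' V) hH)) (by
    rintro _ ⟨x, hx, rfl⟩
    exact ⟨x * x, ⟨e.sq x hx, H.mul_mem hx hx⟩, map_mul _ _ _⟩)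
  rwa [← relIndex_comap, comap_map_eq, QuotientGroup.ker_mk'] at k

theorem uniq (hx : x ∈ Y) (hx' : x' ∈ Y) (h1 : x ∉ V) (h2 : x' ∉ V) (e1 : x * x ∈ V) (e2 : x' * x' ∈ V) : x * x'⁻¹ ∈ V := by
  classical
  have := h.cyc
  have := Fintype.ofFinite (Y.map (QuotientGroup.mk' V))
  have k := IsCyclic.card_pow_eq_one_le (α := Y.map (QuotientGroup.mk' V)) (n := 2) (by norm_num)
  rw [← QuotientGroup.eq_one_iff] at h1 h2 e1 e2 ⊢
  rw [QuotientGroup.mk_mul, QuotientGroup.mk_inv, mul_inv_eq_one]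
  by_contra hn
  have := Finset.card_le_card (s := {1, ⟨(x : G ⧸ V), x, hx, rfl⟩, ⟨(x' : G ⧸ V), x', hx', rfl⟩})
    (t := Finset.univ.filter fun a : Y.map (QuotientGroup.mk' V) => a ^ 2 = 1) (by
      intro t ht
      simp only [Finset.mem_insert, Finset.mem_singleton] at ht
      rcases ht with rfl | rfl | rfl <;> simp only [Finset.mem_filter, Finset.mem_univ, true_and]
      exacts [one_pow 2, Subtype.ext (by rw [sq]; exact e1), Subtype.ext (by rw [sq]; exact e2)])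
  rw [Finset.card_eq_three.2 ⟨_, _, _, fun e => h1 (congrArg Subtype.val e).symm, fun e => h2 (congrArg Subtype.val e).symm,
    fun e => hn (congrArg Subtype.val e), rfl⟩] at this
  omega

theorem comm (hx : x ∈ Y) (hx' : x' ∈ Y) : ⁅x, x'⁆ ∈ V := by
  have := h.cyc
  have := IsCyclic.isMulCommutative (α := Y.map (QuotientGroup.mk' V))
  rw [← QuotientGroup.eq_one_iff, ← QuotientGroup.mk'_apply, map_commutatorElement, commutatorElement_eq_one_iff_mul_comm]
  exact congrArg Subtype.val (this.is_comm.comm (⟨_, x, hx, rfl⟩ : Y.map (QuotientGroup.mk' V)) ⟨_, x', hx', rfl⟩)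

theorem conj (hu : u ∈ U) (hx : x ∈ Y) : u * x * u⁻¹ ∈ Y := by
  by_cases e : u ∈ Y
  · exact Y.mul_mem (Y.mul_mem e hx) (Y.inv_mem e)
  · exact idx2 h.idx (U.mul_mem hu (h.YU hx)) (U.inv_mem hu) (fun k => e (by simpa using Y.mul_mem k (Y.inv_mem hx))) (by simpa using e)

theorem ab (hc : V ≤ C_(V)) (hx : x ∈ Y) (hx' : x' ∈ Y) (h1 : x ∈ C_(V)) (h2 : x' ∈ C_(V)) : x * x' = x' * x := by
  obtain ⟨y, hy, e⟩ := h.gen
  obtain ⟨i, hi⟩ := e x hx
  obtain ⟨j, hj⟩ := e x' hx'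
  have c1 : Commute x (x' * (y ^ j)⁻¹) := (mem_cent.1 h1 _ hj).symm
  have c2 : Commute (x * (y ^ i)⁻¹) x' := mem_cent.1 h2 _ hi
  have c3 : Commute (x * (y ^ i)⁻¹) (x' * (y ^ j)⁻¹) := mem_cent.1 (hc hj) _ hi
  have c4 : Commute (x * (y ^ i)⁻¹) (y ^ j) := by simpa using (c3.inv_right.mul_right c2)
  have c5 : Commute x (y ^ j) := by simpa using c4.mul_left (Commute.zpow_zpow_self y i j)
  simpa using (c1.mul_right c5).eq
end Cq

theorem sqr (hG : IsPGroup 2 G) (hc : ∀ a ∈ H, ∀ b ∈ H, a * b = b * a) (hV : ∀ x ∈ H, x * x = 1 → x ∈ V) (c8 : Nat.card V ≤ 8)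
    (hK : ∀ x ∈ H, x * x ∈ K) : K.relIndex H ≤ 4 ∨ (K.relIndex H ≤ 8 ∧ V ≤ H ∧ ∀ k ∈ K ⊓ H, ∃ d ∈ H, d * d = k) := by
  let σ : H →* G := MonoidHom.mk' (fun x => (x : G) * x) fun x y => by
    rw [coe_mul, mul_assoc, ← mul_assoc (y : G), ← hc x x.2 y y.2]; group
  have h1 := σ.ker.card_mul_index
  rw [index_ker, ← card_map_of_injective H.subtype_injective, ← BG.card_inf_mul_relIndex K H] at h1
  have l1 : σ.ker.map H.subtype ≤ V := by rintro _ ⟨x, hx, rfl⟩; exact hV x x.2 hx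
  have l2 : σ.range ≤ K ⊓ H := by rintro _ ⟨x, rfl⟩; exact ⟨hK x x.2, H.mul_mem x.2 x.2⟩
  have p := card_pos σ.range
  have hT : IsPGroup 2 (⊤ : Subgroup G) := hG.to_subgroup _
  have c1 := card_le l1
  have c2 := card_le l2
  rcases l1.eq_or_lt with e1 | e1
  · rcases l2.eq_or_lt with e2 | e2
    · refine Or.inr ⟨by nlinarith, e1 ▸ map_subtype_le _, fun k hk => ?_⟩
      obtain ⟨d, hd⟩ := e2.ge hk
      exact ⟨d, d.2, hd⟩
    · have := half hT le_top e2
      left; nlinarith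
  · have := half hT le_top e1
    left; nlinarith

theorem onto (hc : ∀ a ∈ V, ∀ b ∈ V, a * b = b * a) (ha : ∀ v ∈ V, a * v * a⁻¹ ∈ V) (hN : ∀ v ∈ V, ⁅a, v⁆ ∈ N)
    (h : Nat.card N * Nat.card (V ⊓ C_[a] : Subgroup G) ≤ Nat.card V) (hx : x ∈ N) : ∃ v ∈ V, ⁅a, v⁆ = x := by
  let σ : V →* G := MonoidHom.mk' (fun v => ⁅a, (v : G)⁆) fun x y => by
    have := hc _ (V.inv_mem x.2) _ (V.mul_mem (ha y y.2) (V.inv_mem y.2))
    simp only [commutatorElement_def, coe_mul]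
    rw [mul_assoc _ (x : G)⁻¹, this]; group
  have h1 := σ.ker.card_mul_index
  have e : σ.ker.map V.subtype = V ⊓ C_[a] := by
    ext v
    exact ⟨by rintro ⟨x, hx, rfl⟩; exact ⟨x.2, mem_cent1.2 (commutatorElement_eq_one_iff_mul_comm.1 hx).symm⟩,
      fun hv => ⟨⟨v, hv.1⟩, commutatorElement_eq_one_iff_mul_comm.2 (mem_cent1.1 hv.2).symm, rfl⟩⟩
  rw [index_ker, ← card_map_of_injective V.subtype_injective, e] at h1
  have l2 : σ.range ≤ N := by rintro _ ⟨x, rfl⟩; exact hN x x.2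
  obtain ⟨d, hd⟩ := (eq_of_le_of_card_le l2 (by nlinarith [card_pos (V ⊓ C_[a])])).ge hx
  exact ⟨d, d.2, hd⟩

theorem rel2 (hs : s * s = 1) (h : ∀ y ∈ H, y * x * y⁻¹ = x ∨ y * x * y⁻¹ = s * x) : C_[x].relIndex H ≤ 2 := by
  refine (H04.relIndex_centralizer_le (x := x) (D := H) (N := zpowers s) fun y hy => ?_).trans (card_zp hs)
  rw [← (zpowers s).inv_mem_iff, commutatorElement_inv, commutatorElement_def]
  rcases h y hy with e | e <;> rw [e] <;> simp

end H04.HE
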