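import Mathlib
import Cfsg.Agent.H04.HEa

/-!
# Harada's self-centralizing `E₈` theorem, a maximal normal elementary abelian subgroup (namespace `H04.HE`)

`Vm V` : the setting; `d8`, `fin3`, `fin4` : the finishing bounds for `|V| = 8, 16`.
-/

set_option autoImplicit false
set_option linter.unusedSectionVars false
open Cfsg BG Subgroup H01.SR H04.MW
open scoped commutatorElement

namespace H04.HE
variable {G : Type*} [Group G] [Finite G] {A B H K N U V X Y Z : Subgroup G} {a b g s u v w x x' y z : G}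

theorem le4 {p q r : G} (h : ∀ v ∈ V, v = 1 ∨ v = p ∨ v = q ∨ v = r) : Nat.card V ≤ 4 := by
  have h1 : (V : Set G) ⊆ {1, p, q, r} := fun v hv => by simpa using h v hv
  have h2 := Set.ncard_le_ncard h1
  have h3 := Set.ncard_insert_le (1 : G) {p, q, r}
  have h4 := Set.ncard_insert_le p {q, r}
  have h5 := Set.ncard_insert_le q {r}
  rw [Set.ncard_singleton] at h5
  rw [← Nat.card_coe_set_eq] at h2
  change Nat.card V ≤ _ at h2
  omega

theorem le2 {p : G} (h : ∀ v ∈ V, v = 1 ∨ v = p) : Nat.card V ≤ 2 := by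
  have h1 : (V : Set G) ⊆ {1, p} := fun v hv => by simpa using h v hv
  have h2 := Set.ncard_le_ncard h1
  have h5 := Set.ncard_insert_le (1 : G) {p}
  rw [Set.ncard_singleton] at h5
  rw [← Nat.card_coe_set_eq] at h2
  change Nat.card V ≤ _ at h2
  omega

theorem cj1 : y ∈ C_[x] ↔ y * x * y⁻¹ = x := by rw [mem_cent1, mul_inv_eq_iff_eq_mul]
theorem cj2 : x ∈ C_[y] ↔ y * x * y⁻¹ = x := by rw [mem_cent1_comm, cj1]
theorem cjT : y ∈ C_(V) ↔ ∀ v ∈ V, y * v * y⁻¹ = v :=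
  mem_cent.trans (forall₂_congr fun v _ => by rw [mul_inv_eq_iff_eq_mul, eq_comm])

structure Vm (V : Subgroup G) : Prop where
  pg : IsPGroup 2 G
  nV : V.Normal
  sq : ∀ v ∈ V, v * v = 1
  mx : ∀ B : Subgroup G, B.Normal → (∀ b ∈ B, b * b = 1) → V ≤ B → B ≤ V

namespace Vm
variable (h : Vm V)
include h

theorem vc : V ≤ C_(V) := el_comm h.sq
theorem comm (ha : a ∈ V) (hb : b ∈ V) : a * b = b * a := mem_cent.1 (h.vc hb) a ha
theorem zi (ha : a ∈ V) : a⁻¹ = a := inv_eq_of_mul_eq_one_right (h.sq a ha)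
theorem nT : C_(V).Normal := have := h.nV; inferInstance
theorem hf (e : A < B) : 2 * Nat.card A ≤ Nat.card B := half (h.pg.to_subgroup ⊤) le_top e
theorem cv (g : G) (hv : v ∈ V) : ⁅g, v⁆ ∈ V := V.mul_mem (h.nV.conj_mem v hv g) (V.inv_mem hv)

theorem cz [N.Normal] (e : N ≠ ⊥) : ∃ z ∈ N, z ≠ 1 ∧ ∀ g : G, g * z * g⁻¹ = z := by
  have := Fact.mk Nat.prime_two
  obtain ⟨z, h1, n1, -, c1⟩ := H04.exists_mem_center_pow_eq_one_of_normal h.pg N e
  exact ⟨z, h1, n1, fun g => by rw [mem_center_iff.1 c1 g]; group⟩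

theorem cs (A B : Subgroup G) [A.Normal] [B.Normal] (e : ¬ B ≤ A) : ∃ x ∈ B, x ∉ A ∧ x * x ∈ A ∧ ∀ g : G, ⁅g, x⁆ ∈ A := by
  have := Fact.mk Nat.prime_two
  obtain ⟨x, h1, h2, h3, h4⟩ := H04.exists_central_step h.pg A B e
  exact ⟨x, h1, h2, by rwa [← _root_.sq], fun g => by rw [← A.inv_mem_iff, commutatorElement_inv]; exact h4 g⟩

theorem cb (e : EA H K) [N.Normal] (hg : g ∈ H) : K.relIndex (H ⊓ N) ≤ Nat.card (N ⊓ C_[g] : Subgroup G) :=
  (comm_bound (X := H ⊓ N) (g := g) (mem_norm_of_cj_le fun x hx => by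
    obtain ⟨x, hx', rfl⟩ := mem_cj'.1 hx
    exact ⟨H.mul_mem (H.mul_mem hg hx'.1) (H.inv_mem hg), Normal.conj_mem inferInstance _ hx'.2 g⟩)
    fun y hy => e.comm g hg y hy.1).trans (card_le (inf_le_inf_right _ inf_le_right))

theorem cfix (ha : a * a = 1) (hv : v ∈ V) : ⁅a, v⁆ ∈ C_[a] := by
  rw [cj2, commutatorElement_def, ← conj_mul, show a * (a * v * a⁻¹) * a⁻¹ = (a * a) * v * (a * a)⁻¹ by group, ha, h.zi hv,
    h.comm (h.nV.conj_mem v hv a) hv]; group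

theorem sqle (ha : a * a = 1) (hX : X ≤ V) (hn : ∀ x ∈ X, a * x * a⁻¹ ∈ X) :
    Nat.card X ≤ Nat.card (X ⊓ C_[a] : Subgroup G) * Nat.card (X ⊓ C_[a] : Subgroup G) := by
  have := comm_bound (X := X) (g := a) (K := C_[a]) (mem_norm_of_cj_le fun x hx => by
    obtain ⟨x, hx', rfl⟩ := mem_cj'.1 hx
    exact hn x hx') fun y hy => h.cfix ha (hX hy)
  rw [← BG.card_inf_mul_relIndex C_[a] X, inf_comm]
  exact Nat.mul_le_mul_left _ this

theorem sqW (hw : w ∈ C_(V)) (hx : x * w⁻¹ ∈ V) : x * x = w * w := by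
  rw [show x * x = x * w⁻¹ * (w * (x * w⁻¹) * w⁻¹) * (w * w) by group, cjT.1 hw _ hx, h.sq _ hx, one_mul]

theorem w1 (e : ¬ C_(V) ≤ V) : ∃ w ∈ C_(V), w ∉ V ∧ w * w ∈ V ∧ w * w ≠ 1 ∧ (∀ g : G, ⁅g, w⁆ ∈ V) ∧
    ∀ g : G, g * (w * w) * g⁻¹ = w * w := by
  have := h.nV
  have := h.nT
  obtain ⟨w, h1, h2, h3, h4⟩ := h.cs V C_(V) e
  refine ⟨w, h1, h2, h3, fun e => h2 (h.mx _ (ext_normal h3 h4) ?_ (fun _ hv => Or.inl hv) (Or.inr (by simp))), h4, fun g => ?_⟩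
  · rintro b (hb | hb)
    · exact h.sq b hb
    · rw [h.sqW h1 hb, e]
  · rw [← conj_mul]; exact h.sqW h1 (h4 g)

theorem bas (c8 : Nat.card V = 8) (hs : s ∈ V) (hb : b ∈ V) (s1 : s ≠ 1) (b1 : b ≠ 1) (sb : s ≠ b) :
    ∃ v ∈ V, ∀ x : G, x * s * x⁻¹ = s → x * b * x⁻¹ = b → x * v * x⁻¹ = v → x ∈ C_(V) := by
  obtain ⟨v, hv, k⟩ : ∃ v ∈ V, ¬ (v = 1 ∨ v = s ∨ v = b ∨ v = s * b) := by
    by_contra hc
    push Not at hc
    have := le4 fun v hv => by have := hc v hv; tauto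
    omega
  refine ⟨v, hv, fun x e1 e2 e3 => cjT.2 fun y hy => cj2.1 ?_⟩
  by_contra hn
  have := h.hf (show V ⊓ C_[x] < V from lt_of_le_of_ne inf_le_left fun e => hn (e.ge hy).2)
  exact k (four (Z := V ⊓ C_[x]) (by omega) ⟨hs, cj2.2 e1⟩ ⟨hb, cj2.2 e2⟩ ⟨hv, cj2.2 e3⟩ s1 b1
    (fun e => sb (by rw [eq_inv_of_mul_eq_one_left e, h.zi hb])) sb)

theorem d8 (c8 : Nat.card V = 8) : C_(V).index ≤ 4 ∨ (C_(V).index ≤ 8 ∧ ∃ a b : G, ⁅a, b⁆ ∉ C_(V)) := by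
  have := Fact.mk Nat.prime_two
  have := h.nV
  obtain ⟨B, nB, BV, cB⟩ := H04.exists_normal_card_eq h.pg V 2 (by omega)
  obtain ⟨z, hz, z1, zc⟩ := h.cz (N := B) (by rintro rfl; simp at cB)
  obtain ⟨b, hb, b1, bz⟩ : ∃ b ∈ B, b ≠ 1 ∧ b ≠ z := by
    by_contra hc
    push Not at hc
    have := le2 (V := B) (p := z) fun v hv => (em (v = 1)).imp id (hc v hv)
    omega
  have fB : ∀ d ∈ B, d = 1 ∨ d = z ∨ d = b ∨ d = z * b := fun d hd => four (by omega) hz hb hd z1 b1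
    (fun e => bz (by rw [eq_inv_of_mul_eq_one_right e, h.zi (BV hz)])) bz.symm
  have o : ∀ y : G, y * b * y⁻¹ = b ∨ y * b * y⁻¹ = z * b := fun y => by
    rcases fB _ (nB.conj_mem b hb y) with e | e | e | e
    · exact absurd (by simpa using e) b1
    · rw [← zc y] at e; exact absurd (by simpa using e) bz
    · exact Or.inl e
    · exact Or.inr e
  have i2 := rel2 (H := ⊤) (h.sq z (BV hz)) fun y _ => o y
  rw [relIndex_top_right] at i2
  obtain ⟨v, hv, hT⟩ := h.bas c8 (BV hz) (BV hb) z1 b1 bz.symm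
  have cB' : ∀ x ∈ C_[b], ∀ d ∈ B, x * d * x⁻¹ = d := fun x hx d hd => by
    rcases fB d hd with rfl | rfl | rfl | rfl
    exacts [by group, zc x, cj1.1 hx, by rw [← conj_mul, zc, cj1.1 hx]]
  have e : C_[v].relIndex C_[b] * C_[b].index = C_(V).index := by
    rw [← inf_relIndex_right, relIndex_mul_index inf_le_right]
    congr 1
    exact le_antisymm (fun x hx => hT x (zc x) (cj1.1 hx.2) (cj1.1 hx.1)) (le_inf (cent_le_cent1 hv) (cent_le_cent1 (BV hb)))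
  have cv : ∀ y : G, y * v * y⁻¹ * v⁻¹ ∈ B := fun y => by
    by_cases k : v ∈ B
    · exact B.mul_mem (nB.conj_mem v k y) (B.inv_mem k)
    · exact eight BV (by omega) (h.nV.conj_mem v hv y) (V.inv_mem hv)
        (fun e => k (by simpa [mul_assoc] using nB.conj_mem _ e y⁻¹)) (by simpa using k)
  have i4 := H04.relIndex_centralizer_le (x := v) (D := C_[b]) (N := B) fun y _ => by
    rw [← B.inv_mem_iff, commutatorElement_inv]; exact cv y
  by_cases hg : ∀ g : G, g ∈ C_[b]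
  · rw [index_eq_one.2 (eq_top_iff.2 fun g _ => hg g)] at e
    left; omega
  push Not at hg
  obtain ⟨g, hg⟩ := hg
  by_cases hn : ∃ x, ⁅g, x⁆ ∉ C_(V)
  · obtain ⟨x, hx⟩ := hn
    exact Or.inr ⟨by nlinarith, g, x, hx⟩
  push Not at hn
  have og := (o g).resolve_left fun e => hg (cj1.2 e)
  have i3 := rel2 (H := C_[b]) (x := v) (h.sq z (BV hz)) fun x hx => by
    have k : g * (x * v * x⁻¹ * v⁻¹) * g⁻¹ = x * v * x⁻¹ * v⁻¹ := by
      have k1 := cjT.1 (hn x) _ (h.nV.conj_mem _ (h.nV.conj_mem v hv g) x)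
      have k2 := cB' x hx _ (cv g)
      have k3 := h.comm (BV (cv g)) (BV (cv x))
      rw [commutatorElement_def] at k1
      calc _ = g * x * g⁻¹ * x⁻¹ * (x * (g * v * g⁻¹) * x⁻¹) * (g * x * g⁻¹ * x⁻¹)⁻¹ * (g * v * g⁻¹)⁻¹ := by group
        _ = x * (g * v * g⁻¹ * v⁻¹) * x⁻¹ * (x * v * x⁻¹ * v⁻¹) * (g * v * g⁻¹ * v⁻¹)⁻¹ := by rw [k1]; group
        _ = _ := by rw [k2, k3]; group
    rcases fB _ (cv x) with e | e | e | e
    · exact Or.inl (mul_inv_eq_one.1 e)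
    · exact Or.inr (eq_mul_of_mul_inv_eq e)
    · rw [e, og] at k; exact absurd (by simpa using k) z1
    · rw [e, ← conj_mul, zc, og] at k; exact absurd (by simpa using k) z1
  left; nlinarith

theorem fin4 (c16 : Nat.card V = 16) (hY : Cq V ⊤ Y) (hfr : ∀ x, x ∉ V → (∀ g : G, ⁅g, x⁆ ∈ V) → Nat.card (V ⊓ C_[x] : Subgroup G) ≤ 4)
    (e : EA H K) : K.relIndex H ≤ 16 := by
  have := h.nV
  have TV : C_(V) ≤ V := by
    by_contra hn
    obtain ⟨w, h1, h2, -, -, h3, -⟩ := h.w1 hn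
    have := hfr w h2 h3
    rw [inf_eq_left.2 (le_cent1_iff.2 h1)] at this
    omega
  have s := step K Y H
  have s1 : Y.relIndex H ≤ 2 := (idx_mono le_top).trans hY.idx
  by_cases k : Y ⊓ H ≤ V
  · by_cases k' : H ≤ V
    · exact (le_card K H).trans (c16 ▸ card_le k')
    · obtain ⟨g, hg, hgV⟩ := SetLike.not_le_iff_exists.1 k'
      have c1 := (idx_mono (K := K) (le_inf inf_le_right k)).trans (h.cb (N := V) e hg)
      have c2 := h.hf (show V ⊓ C_[g] < V from lt_of_le_of_ne inf_le_left fun e => hgV (TV (le_cent1_iff.1 (inf_eq_left.1 e))))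
      nlinarith
  · obtain ⟨x, hx, hxV⟩ := SetLike.not_le_iff_exists.1 k
    obtain ⟨i, i1, i2⟩ := pw' (h.pg.to_quotient V) 0 (x : G ⧸ V) (by simpa using hxV)
    simp only [zero_add, pow_one, pow_zero, _root_.sq, ← QuotientGroup.mk_pow, ← QuotientGroup.mk_mul, ne_eq,
      QuotientGroup.eq_one_iff] at i1 i2
    have hx' := pow_mem hx i
    generalize x ^ i = t at i1 i2 hx'
    have c1 := hfr t i2 fun g => hY.uniq (hY.conj (mem_top g) hx'.1) hx'.1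
      (fun e => i2 (by simpa [mul_assoc] using h.nV.conj_mem _ e g⁻¹)) i2 (by rw [conj_mul]; exact h.nV.conj_mem _ i1 g) i1
    have c2 := h.cb (N := V) (e.mono (inf_le_right : Y ⊓ H ≤ H)) hx'
    have c3 := hY.q2 inf_le_left (e.mono (inf_le_right : Y ⊓ H ≤ H))
    nlinarith

theorem fin3 (c8 : Nat.card V = 8) (hs : s ∈ V) (sc : ∀ g : G, g * s * g⁻¹ = s)
    (ab : ∀ x ∈ C_(V), ∀ y ∈ C_(V), x * y = y * x) (o1 : ∀ x ∈ C_(V), x * x = 1 → x ∈ V)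
    (o2 : ∀ x ∈ C_(V), x * x ∈ V → x * x = 1 ∨ x * x = s) (e : EA H K) (hb : ¬ K.relIndex H ≤ 16) :
    s ≠ 1 ∧ 4 < K.relIndex (H ⊓ C_(V)) ∧ (∀ x ∈ H, x * x ∈ C_(V) → ∃ d ∈ C_(V), d * d = x * x) ∧
    (∀ x ∈ H, ∀ v ∈ V, x * v * x⁻¹ = v ∨ x * v * x⁻¹ = s * v) ∧
    ∀ b ∈ V, b ≠ 1 → b ≠ s → (∃ x ∈ H, x ∉ C_(V) ∧ x * b * x⁻¹ = b) ∧ ∃ f ∈ H, f * b * f⁻¹ = s * b := by
  have := h.nT
  have s1 := split (N := C_(V)) e
  have s2 := q4 (h.d8 c8) e
  rcases sqr (H := H ⊓ C_(V)) (K := K) h.pg (fun a ha b hb => ab a ha.2 b hb.2) (fun x hx => o1 x hx.2) c8.le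
    (fun x hx => e.sq x hx.1) with k | ⟨k, VH, hk⟩
  · exact absurd (by nlinarith) hb
  have s3 : 2 < C_(V).relIndex H := by
    have := relIndex_le_of_le_left (L := H) (le_sup_right : C_(V) ≤ K ⊓ H ⊔ C_(V)) (BG.relIndex_ne_zero _ _)
    by_contra hc
    exact hb (by nlinarith)
  have F : ∀ x ∈ H, ∀ v ∈ V, x * v * x⁻¹ = v ∨ x * v * x⁻¹ = s * v := fun x hx v hv => by
    obtain ⟨d, hd, ed⟩ := hk ⁅x, v⁆ ⟨e.comm x hx v (VH hv).1, VH (h.cv x hv)⟩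
    rcases o2 d hd.2 (ed ▸ h.cv x hv) with k | k <;> rw [ed, commutatorElement_def] at k
    exacts [Or.inl (mul_inv_eq_one.1 k), Or.inr (eq_mul_of_mul_inv_eq k)]
  have n1 : s ≠ 1 := by
    rintro rfl
    rw [relIndex_eq_one.2 fun x hx => cjT.2 fun v hv => by simpa using F x hx v hv] at s3
    omega
  refine ⟨n1, by by_contra hc; exact hb (by nlinarith), fun x hx hx2 => ?_, F, fun b hb b1 bs => ?_⟩
  · obtain ⟨d, hd, ed⟩ := hk (x * x) ⟨e.sq x hx, H.mul_mem hx hx, hx2⟩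
    exact ⟨d, hd.2, ed⟩
  obtain ⟨v, hv, hT⟩ := h.bas c8 hs hb n1 b1 (Ne.symm bs)
  have r := fun v hv => rel2 (H := H) (x := v) (h.sq s hs) fun y hy => F y hy v hv
  constructor
  · by_contra hc
    push Not at hc
    have : C_(V).relIndex H ≤ C_[b].relIndex H := by
      rw [← inf_relIndex_right C_[b]]
      exact relIndex_le_of_le_left (fun x hx => by_contra fun k => hc x hx.2 k (cj1.1 hx.1)) (BG.relIndex_ne_zero _ _)
    have := r b hb
    omega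
  · by_contra hc
    push Not at hc
    have : C_(V).relIndex H ≤ C_[v].relIndex H := by
      rw [← inf_relIndex_right C_[v]]
      exact relIndex_le_of_le_left (fun x hx => hT x (sc x) ((F x hx.2 b hb).resolve_right (hc x hx.2)) (cj1.1 hx.1))
        (BG.relIndex_ne_zero _ _)
    have := r v hv
    omega

theorem same (c8 : Nat.card V = 8) (hs : s ∈ V) (hb : b ∈ V) (s1 : s ≠ 1) (b1 : b ≠ 1) (sb : s ≠ b)
    (x1 : x * s * x⁻¹ = s) (x2 : x * b * x⁻¹ = b) (a1 : a * s * a⁻¹ = s) (a2 : a * b * a⁻¹ = b) (hx : x ∉ C_(V)) (ha : a ∉ C_(V))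
    {t : G} (ht : t ∈ V) (x3 : x * t * x⁻¹ = t) (fx : ∀ v ∈ V, x * v * x⁻¹ = v ∨ x * v * x⁻¹ = t * v)
    (fa : ∀ v ∈ V, a * v * a⁻¹ = v ∨ a * v * a⁻¹ = t * v) : x * a ∈ C_(V) := by
  obtain ⟨v, hv, hT⟩ := h.bas c8 hs hb s1 b1 sb
  have k : ∀ d, x * a * d * (x * a)⁻¹ = x * (a * d * a⁻¹) * x⁻¹ := fun d => by group
  refine hT _ (by rw [k, a1, x1]) (by rw [k, a2, x2]) ?_
  rw [k, (fa v hv).resolve_left fun e => ha (hT a a1 a2 e), ← conj_mul, x3, (fx v hv).resolve_left fun e => hx (hT x x1 x2 e),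
    ← mul_assoc, h.sq t ht, one_mul]

/-- the case of a transvection `a` with centre `s` -/
theorem fin3a (c8 : Nat.card V = 8) (hs : s ∈ V) (sc : ∀ g : G, g * s * g⁻¹ = s)
    (ab : ∀ x ∈ C_(V), ∀ y ∈ C_(V), x * y = y * x) (o1 : ∀ x ∈ C_(V), x * x = 1 → x ∈ V)
    (o2 : ∀ x ∈ C_(V), x * x ∈ V → x * x = 1 ∨ x * x = s) (aa : a * a = 1) (ha : a ∉ C_(V))
    (fa : ∀ v ∈ V, a * v * a⁻¹ = v ∨ a * v * a⁻¹ = s * v) (c4 : Nat.card (C_(V) ⊓ C_[a] : Subgroup G) ≤ 4)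
    (e : EA H K) : K.relIndex H ≤ 16 := by
  by_contra hn
  obtain ⟨s1, k4, -, F, ex⟩ := h.fin3 c8 hs sc ab o1 o2 e hn
  obtain ⟨b, hb, b1, bs⟩ : ∃ b ∈ V ⊓ C_[a], b ≠ 1 ∧ b ≠ s := by
    by_contra hc
    push Not at hc
    have := le2 (p := s) fun v hv => (em (v = 1)).imp id (hc v hv)
    have := h.sqle aa le_rfl fun x hx => h.nV.conj_mem x hx a
    nlinarith
  obtain ⟨⟨x, hx, xT, xb⟩, -⟩ := ex b hb.1 b1 bs
  have k := h.same c8 hs hb.1 s1 b1 bs.symm (sc x) xb (sc a) (cj2.1 hb.2) xT ha hs (sc x) (F x hx) fa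
  have := h.nT
  have c := h.cb (N := C_(V)) e hx
  have : C_(V) ⊓ C_[x] ≤ C_(V) ⊓ C_[a] := fun y hy => ⟨hy.1, mem_cent1.2 (by
    have c1 : Commute y (x * a) := ab y hy.1 _ k
    have c2 : Commute y x := mem_cent1.1 hy.2
    simpa using (c2.inv_right.mul_right c1).eq)⟩
  have := card_le this
  omega

end Vm
end H04.HE
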