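import Mathlib
import Cfsg.Agent.H04.HEb

/-!
# Harada's self-centralizing `E₈` theorem, the case `|A ∩ V| = 4` (namespace `H04.HE`)
-/

set_option autoImplicit false
set_option linter.unusedSectionVars false
open Cfsg BG Subgroup H01.SR H04.MW
open scoped commutatorElement

namespace H04.HE
variable {G : Type*} [Group G] [Finite G] {A B H K N U V X Y Z : Subgroup G} {a b g s t u v w x x' y z : G}

structure Ha (A V : Subgroup G) : Prop extends Vm V where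
  asq : ∀ a ∈ A, a * a = 1
  cA : Nat.card A = 8
  cent : C_(A) ≤ A
  c8 : 8 ≤ Nat.card V

/-- `{x | [x, a] ∈ V}` -/
def Pm (V : Subgroup G) [V.Normal] (a : G) : Subgroup G := comap (QuotientGroup.mk' V) C_[(a : G ⧸ V)]

theorem mem_Pm [V.Normal] : x ∈ Pm V a ↔ ⁅x, a⁆ ∈ V := by
  rw [Pm, mem_comap, mem_cent1, ← QuotientGroup.eq_one_iff, ← QuotientGroup.mk'_apply V ⁅x, a⁆, map_commutatorElement,
    commutatorElement_eq_one_iff_mul_comm]; rfl

theorem cinv (aa : a * a = 1) (x : G) : a * ⁅x, a⁆ * a⁻¹ = ⁅x, a⁆⁻¹ := by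
  rw [commutatorElement_inv, commutatorElement_def, commutatorElement_def,
    show a * (x * a * x⁻¹ * a⁻¹) * a⁻¹ = a * x * a * x⁻¹ * (a * a)⁻¹ by group, aa, inv_eq_of_mul_eq_one_right aa]; group

theorem Vm.cfix' (h : Vm V) (aa : a * a = 1) (hx : ⁅x, a⁆ ∈ V) : ⁅x, a⁆ ∈ V ⊓ C_[a] := ⟨hx, cj2.2 (by rw [cinv aa, h.zi hx])⟩

theorem Vm.cardP (h : Vm V) (aa : a * a = 1) (hP : ∀ x ∈ X, ⁅x, a⁆ ∈ V) :
    Nat.card X ≤ Nat.card (C_[a] ⊓ X : Subgroup G) * Nat.card (V ⊓ C_[a] : Subgroup G) := by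
  rw [← BG.card_inf_mul_relIndex C_[a] X]
  exact Nat.mul_le_mul_left _ (H04.relIndex_centralizer_le fun y hy => by
    rw [← (V ⊓ C_[a]).inv_mem_iff, commutatorElement_inv]; exact h.cfix' aa (hP y hy))

theorem cmul (hx : x ∈ C_(V)) (h : ⁅y, a⁆ ∈ V) : ⁅x * y, a⁆ = ⁅y, a⁆ * ⁅x, a⁆ := by
  rw [← cjT.1 hx _ h]; simp only [commutatorElement_def]; group

namespace Ha
variable (h : Ha A V)
include h

theorem ac : A ≤ C_(A) := el_comm h.asq

section Four
variable (c4 : Nat.card (A ⊓ V : Subgroup G) = 4) (ha : a ∈ A) (haV : a ∉ V)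
include c4 ha haV

theorem a1 (hx : x ∈ C_(A ⊓ V)) (e : x ∈ C_[a]) : x ∈ A := h.cent (mem_cent.2 fun c hc => by
  by_cases k : c ∈ A ⊓ V
  · exact mem_cent.1 hx c k
  · have c1 : Commute (c * a) x := mem_cent.1 hx _ (eight inf_le_left (by rw [h.cA, c4]) hc ha k fun e => haV e.2)
    have c2 : Commute a x := (mem_cent1.1 e).symm
    simpa using (c1.mul_left c2.inv_left).eq)

theorem a2 : V ⊓ C_[a] = A ⊓ V :=
  le_antisymm (fun _ hx => ⟨h.a1 c4 ha haV (cent_anti inf_le_right (h.vc hx.1)) hx.2, hx.1⟩)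
    fun _ hx => ⟨hx.2, cent_le_cent1 ha (h.ac hx.1)⟩

theorem a3 : a ∉ C_(V) := fun e => by
  have := h.a2 c4 ha haV
  rw [inf_eq_left.2 (le_cent1_iff.2 e)] at this
  have := h.c8
  rw [‹V = A ⊓ V›] at this
  omega

theorem a4 (hx : x ∈ C_(V)) (e : x ∈ C_[a]) : x ∈ V := by
  have hA := h.a1 c4 ha haV (cent_anti inf_le_right hx) e
  by_contra k
  have := eight inf_le_left (by rw [h.cA, c4]) hA ha (fun e => k e.2) fun e => haV e.2
  exact h.a3 c4 ha haV (by simpa using mul_mem (inv_mem hx) (h.vc this.2))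

theorem four16 (c16 : Nat.card V = 16) (e : EA H K) : K.relIndex H ≤ 16 := by
  have := h.nV
  have aa := h.asq a ha
  have e2 := h.a2 c4 ha haV
  have on : ∀ x ∈ A ⊓ V, ∃ v ∈ V, ⁅a, v⁆ = x := fun x hx =>
    onto (fun a ha b hb => h.comm ha hb) (fun v hv => h.nV.conj_mem v hv a) (fun v hv => e2 ▸ ⟨h.cv a hv, h.cfix aa hv⟩)
      (by rw [e2, c4, c16]) hx
  obtain ⟨z, hz, z1, zc⟩ := h.cz (N := V) (by rintro rfl; simp at c16)
  have zA : z ∈ A ⊓ V := e2 ▸ ⟨hz, cj2.2 (zc a)⟩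
  obtain ⟨b, hb, b1, bz⟩ : ∃ b ∈ A ⊓ V, b ≠ 1 ∧ b ≠ z := by
    by_contra hc
    push Not at hc
    have := le2 (p := z) fun v hv => (em (v = 1)).imp id (hc v hv)
    omega
  have fB : ∀ d ∈ A ⊓ V, d = 1 ∨ d = z ∨ d = b ∨ d = z * b := fun d hd => four c4.le zA hb hd z1 b1
    (fun e => bz (by rw [eq_inv_of_mul_eq_one_right e, h.zi hz])) bz.symm
  have inA : ∀ x ∈ C_[a], x ∈ C_[b] → x ∈ A := fun x hx k => h.a1 c4 ha haV (cjT.2 fun d hd => by
    rcases fB d hd with rfl | rfl | rfl | rfl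
    exacts [by group, zc x, cj1.1 k, by rw [← conj_mul, zc, cj1.1 k]]) hx
  have i2 := rel2 (H := C_[a]) (x := b) (h.sq z hz) fun y hy => by
    have : y * b * y⁻¹ ∈ A ⊓ V := e2 ▸ ⟨h.nV.conj_mem b hb.2 y, C_[a].mul_mem (C_[a].mul_mem hy (e2.ge hb).2) (C_[a].inv_mem hy)⟩
    rcases fB _ this with e | e | e | e
    · exact absurd (by simpa using e) b1
    · rw [← zc y] at e; exact absurd (by simpa using e) bz
    · exact Or.inl e
    · exact Or.inr e
  have c1 : Nat.card C_[a] ≤ 16 := by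
    have := BG.card_inf_mul_relIndex C_[b] C_[a]
    have := card_le (show C_[b] ⊓ C_[a] ≤ A from fun x hx => inA x hx.2 hx.1)
    have := h.cA
    nlinarith
  obtain ⟨Y, hY⟩ := suz h.pg (le_top : V ≤ ⊤) (mem_top a) (P := Pm V a) (fun x _ e => mem_Pm.2 e) (by
    have := h.cardP aa fun x hx => mem_Pm.1 hx
    have := card_le (inf_le_left : C_[a] ⊓ Pm V a ≤ _)
    rw [e2, c4] at *
    omega)
  refine h.fin4 c16 hY (fun x hx hc => ?_) e
  obtain ⟨v, hv, ev⟩ := on ⁅a, x⁆ (by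
    rw [← e2, ← Subgroup.inv_mem_iff, commutatorElement_inv]
    exact h.cfix' aa (by rw [← V.inv_mem_iff, commutatorElement_inv]; exact hc a))
  have hy : v⁻¹ * x ∈ C_[a] := cj2.2 (by
    rw [show a * (v⁻¹ * x) * a⁻¹ = v⁻¹ * (⁅a, v⁆⁻¹ * ⁅a, x⁆) * x by simp only [commutatorElement_def]; group, ev]; group)
  have ee : V ⊓ C_[x] = V ⊓ C_[v⁻¹ * x] := by
    ext d
    refine and_congr_right fun hd => ?_
    have c : Commute d v := h.comm hd hv
    exact ⟨fun k => mem_cent1.2 (c.inv_right.mul_right (mem_cent1.1 k)).eq, fun k => mem_cent1.2 (by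
      simpa using (c.mul_right (mem_cent1.1 k)).eq)⟩
  have yV : v⁻¹ * x ∉ V := fun k => hx (by simpa using V.mul_mem hv k)
  rw [ee]
  generalize v⁻¹ * x = y at hy yV
  by_cases k : y ∈ C_[b]
  · rw [h.a2 c4 (inA y hy k) yV, c4]
  · by_contra hn
    obtain ⟨v, hv, ev⟩ := on b hb
    have := Fact.mk Nat.prime_two
    obtain ⟨n, cn⟩ := IsPGroup.iff_card.1 (h.pg.to_subgroup (V ⊓ C_[y]))
    have : 8 ≤ Nat.card (V ⊓ C_[y] : Subgroup G) := by
      rw [cn] at hn ⊢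
      exact Nat.pow_le_pow_right (n := 2) (i := 3) (by norm_num) ((Nat.pow_lt_pow_iff_right (a := 2) (n := 2) (by norm_num)).1 (by omega))
    have ay : a ∈ C_[y] := mem_cent1_comm.1 hy
    have m : ⁅a, v⁆ ∈ V ⊓ C_[y] := by
      by_cases k' : v ∈ C_[y]
      · exact ⟨h.cv a hv, C_[y].mul_mem (C_[y].mul_mem (C_[y].mul_mem ay k') (C_[y].inv_mem ay)) (C_[y].inv_mem k')⟩
      · exact eight inf_le_left (by omega) (h.nV.conj_mem v hv a) (V.inv_mem hv)
          (fun e => k' (by simpa [mul_assoc] using mul_mem (mul_mem (inv_mem ay) e.2) ay)) fun e => k' (by simpa using e.2)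
    exact k (mem_cent1_comm.1 (ev ▸ m.2))

theorem four8 (c8 : Nat.card V = 8) (e : EA H K) : K.relIndex H ≤ 16 := by
  have := h.nV
  have nT := h.nT
  have aa := h.asq a ha
  have e2 := h.a2 c4 ha haV
  have aT := h.a3 c4 ha haV
  by_cases TV : C_(V) ≤ V
  · by_contra hn
    exact (h.fin3 c8 V.one_mem (by simp) (fun x hx y hy => h.comm (TV hx) (TV hy)) (fun x hx _ => TV hx)
      (fun x hx _ => Or.inl (h.sq x (TV hx))) e hn).1 rfl
  obtain ⟨w, wT, wV, ws, s1, wc, sc⟩ := h.w1 TV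
  obtain ⟨v, hv, va⟩ : ∃ v ∈ V, v ∉ C_[a] := by
    by_contra hc
    push Not at hc
    exact aT (le_cent1_iff.1 hc)
  obtain ⟨t, et⟩ : ∃ t, t = ⁅a, v⁆ := ⟨_, rfl⟩
  have tA : t ∈ A ⊓ V := e2 ▸ et ▸ ⟨h.cv a hv, h.cfix aa hv⟩
  have t1 : t ≠ 1 := fun e => va (mem_cent1.2 (commutatorElement_eq_one_iff_mul_comm.1 (et ▸ e)).symm)
  have vA : v ∉ A ⊓ V := fun e => va (e2.ge e).2
  have dv : ∀ d ∈ V, d ∈ A ⊓ V ∨ d * v ∈ A ⊓ V := fun d hd =>
    (em _).imp id fun k => eight inf_le_right (by omega) hd hv k vA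
  -- action of elements of `U`
  have fU : ∀ u ∈ C_(A ⊓ V), ∀ d ∈ V, u * d * u⁻¹ = d ∨ u * d * u⁻¹ = ⁅u, v⁆ * d := fun u hu d hd => by
    rcases dv d hd with k | k
    · exact Or.inl (cjT.1 hu d k)
    · have := cjT.1 hu _ k
      right
      rw [show u * d * u⁻¹ = u * (d * v) * u⁻¹ * (u * v * u⁻¹)⁻¹ by group, this, h.zi (h.nV.conj_mem v hv u), h.comm (h.cv u hv) hd,
        commutatorElement_def, h.zi hv, mul_assoc, h.comm hv (h.nV.conj_mem v hv u)]
  have aU : a ∈ C_(A ⊓ V) := cent_anti inf_le_left (h.ac ha)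
  have TU : C_(V) ≤ C_(A ⊓ V) := cent_anti inf_le_right
  have fa := fU a aU
  rw [← et] at fa
  have k1 : ∀ x ∈ C_(V), ⁅x, a⁆ = 1 ∨ ⁅x, a⁆ = t → x ∈ V := by
    rintro x hx (k | k)
    · exact h.a4 c4 ha haV hx (mem_cent1.2 (commutatorElement_eq_one_iff_mul_comm.1 k))
    · have k' : ⁅v, a⁆ = t := by rw [← commutatorElement_inv, ← et, h.zi tA.2]
      have := h.a4 c4 ha haV (mul_mem hx (h.vc hv)) (mem_cent1.2 (commutatorElement_eq_one_iff_mul_comm.1 (by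
        rw [cmul hx (k' ▸ tA.2), k, k', h.sq t tA.2])))
      simpa using V.mul_mem this (V.inv_mem hv)
  have k2 : ∀ x ∈ C_(V), x ∉ V → ⁅x, a⁆ ∈ V → x * w⁻¹ ∈ V := fun x hx xV xa => by
    have wa : ⁅w⁻¹, a⁆ ∈ V := mem_Pm.1 (inv_mem (mem_Pm.2 (by rw [← V.inv_mem_iff, commutatorElement_inv]; exact wc a)))
    have n1 := mt (k1 x hx) xV
    have n2 := mt (k1 _ (inv_mem wT)) (by simpa using wV)
    push Not at n1 n2
    have m1 := e2 ▸ h.cfix' aa xa
    have m2 := e2 ▸ h.cfix' aa wa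
    refine k1 _ (mul_mem hx (inv_mem wT)) ?_
    rw [cmul hx wa]
    rcases four c4.le tA m1 m2 t1 n1.1 (fun e => n1.2 (by rw [eq_inv_of_mul_eq_one_right e, h.zi tA.2])) n1.2.symm with k | k | k | k
    · exact absurd k n2.1
    · exact absurd k n2.2
    · rw [k]; exact Or.inl (h.sq _ xa)
    · rw [k, mul_assoc, h.sq _ xa, mul_one]; exact Or.inr rfl
  obtain ⟨Y, hY⟩ := suz h.pg (h.vc.trans TU) aU (P := C_(A ⊓ V) ⊓ Pm V a) (fun x hx e => ⟨hx, mem_Pm.2 e⟩) (by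
    have := h.cardP aa (X := C_(A ⊓ V) ⊓ Pm V a) fun x hx => mem_Pm.1 hx.2
    have := card_le (show C_[a] ⊓ (C_(A ⊓ V) ⊓ Pm V a) ≤ A from fun x hx => h.a1 c4 ha haV hx.2.1 hx.1)
    have := h.cA
    rw [e2, c4] at *
    omega)
  have sA : w * w ∈ A ⊓ V := e2 ▸ ⟨ws, cj2.2 (sc a)⟩
  -- if `T ≰ Y` then `U / T` has order at most two
  have uT : ¬ C_(V) ≤ Y → ∀ u ∈ C_(A ⊓ V), ∀ u' ∈ C_(A ⊓ V), u ∉ C_(V) → u' ∉ C_(V) → u * u' ∈ C_(V) := by
    intro hn
    obtain ⟨τ, τT, τY⟩ := SetLike.not_le_iff_exists.1 hn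
    obtain ⟨y, yY, hy⟩ := hY.gen
    have y2 : y * y ∈ C_(V) := cjT.2 fun d hd => by
      have yU := hY.YU yY
      have cA : ⁅y, v⁆ ∈ A ⊓ V := eight inf_le_right (by omega) (h.nV.conj_mem v hv y) (V.inv_mem hv)
        (fun e => vA (by have := cjT.1 (inv_mem yU) _ e; rw [← show v = y * v * y⁻¹ by rw [← this]; group] at e; exact e))
        (by simpa using vA)
      rw [show y * y * d * (y * y)⁻¹ = y * (y * d * y⁻¹) * y⁻¹ by group]
      rcases fU y yU d hd with k | k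
      · rw [k, k]
      · rw [k, ← conj_mul, cjT.1 yU _ cA, k, ← mul_assoc, h.sq _ cA.2, one_mul]
    have k : ∀ u ∈ C_(A ⊓ V), u ∈ ext C_(V) y y2 := fun u hu => by
      have k : ∀ u ∈ Y, u ∈ ext C_(V) y y2 := fun u hu => by
        obtain ⟨i, hi⟩ := hy u hu
        simpa using mul_mem (show _ ∈ ext C_(V) y y2 from Or.inl (h.vc hi)) (zpow_mem (show y ∈ ext C_(V) y y2 from Or.inr (by simp)) i)
      by_cases e : u ∈ Y
      · exact k u e
      · simpa using mul_mem (k _ (idx2 hY.idx hu (TU τT) e τY)) (show τ⁻¹ ∈ ext C_(V) y y2 from Or.inl (inv_mem τT))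
    intro u hu u' hu' n1 n2
    have := mul_mem (mul_mem ((k u hu).resolve_left n1) (nT.conj_mem _ ((k u' hu').resolve_left n2) y)) y2
    rwa [show u * y⁻¹ * (y * (u' * y⁻¹) * y⁻¹) * (y * y) = u * u' by group] at this
  by_cases hI : C_(V) ≤ Y ∨ C_(V) ≤ ext V w ws
  · have o : ∀ x ∈ C_(V), x * x ∈ V → x ∉ V → x * w⁻¹ ∈ V := fun x hx xx xV =>
      hI.elim (fun k => hY.uniq (k hx) (k wT) xV wV xx ws) fun k => (k hx).resolve_left xV
    have ab : ∀ x ∈ C_(V), ∀ y ∈ C_(V), x * y = y * x := fun x hx y hy => hI.elim (fun k => hY.ab h.vc (k hx) (k hy) hx hy) fun k => by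
      rcases k hx with k1 | k1
      · exact mem_cent.1 hy x k1
      · rcases k hy with k2 | k2
        · exact (mem_cent.1 hx y k2).symm
        · have c1 : Commute (x * w⁻¹) y := mem_cent.1 hy _ k1
          have c2 : Commute (y * w⁻¹) w := mem_cent.1 wT _ k2
          have c3 : Commute w y := by simpa using (c2.mul_left (Commute.refl w)).symm
          simpa using (c1.mul_left c3).eq
    have o1 : ∀ x ∈ C_(V), x * x = 1 → x ∈ V := fun x hx e => by_contra fun k =>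
      s1 (by rw [← h.sqW wT (o x hx (e ▸ V.one_mem) k), e])
    have o2 : ∀ x ∈ C_(V), x * x ∈ V → x * x = 1 ∨ x * x = w * w := fun x hx e =>
      (em (x ∈ V)).imp (h.sq x) fun k => h.sqW wT (o x hx e k)
    by_cases st : w * w = t
    · exact h.fin3a c8 ws sc ab o1 o2 aa aT (st ▸ fa)
        (c4 ▸ card_le fun x hx => e2.le ⟨h.a4 c4 ha haV hx.1 hx.2, hx.2⟩) e
    by_contra hn
    obtain ⟨-, -, sq2, F, ex⟩ := h.fin3 c8 ws sc ab o1 o2 e hn
    obtain ⟨⟨x, hx, xT, xt⟩, f, hf, ft⟩ := ex t tA.2 t1 (Ne.symm st)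
    have fB : ∀ d ∈ A ⊓ V, d = 1 ∨ d = w * w ∨ d = t ∨ d = w * w * t := fun d hd => four c4.le sA tA hd s1 t1
      (fun e => st (by rw [eq_inv_of_mul_eq_one_left e, h.zi tA.2])) st
    have inU : ∀ x : G, x * t * x⁻¹ = t → x ∈ C_(A ⊓ V) := fun x k => cjT.2 fun d hd => by
      rcases fB d hd with rfl | rfl | rfl | rfl
      exacts [by group, sc x, k, by rw [← conj_mul, sc, k]]
    have xU := inU x xt
    have xv : x * v * x⁻¹ = w * w * v := (F x hx v hv).resolve_left fun k => xT (cjT.2 fun d hd => by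
      rcases fU x xU d hd with k' | k'
      · exact k'
      · rw [k', commutatorElement_def, k]; group)
    have av : a * v * a⁻¹ = t * v := (fa v hv).resolve_left fun k => va (cj2.2 k)
    have TY : C_(V) ≤ Y := by
      by_contra hc
      have := cjT.1 (uT hc a aU x xU aT xT) v hv
      rw [show a * x * v * (a * x)⁻¹ = a * (x * v * x⁻¹) * a⁻¹ by group, xv, ← conj_mul, sc, av, ← mul_assoc] at this
      exact st (by rw [eq_inv_of_mul_eq_one_left (mul_eq_right.1 this), h.zi tA.2])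
    have nY : ∀ c, c * c = 1 → c ∉ C_(V) → c ∉ Y := fun c cc cT cY =>
      cT (by simpa using mul_mem (h.vc (hY.uniq cY (TY wT) (fun e => cT (h.vc e)) wV (cc ▸ V.one_mem) ws)) wT)
    have f2 : f⁻¹ * t * f⁻¹⁻¹ = w * w * t := by
      have : f * (w * w * t) * f⁻¹ = t := by rw [← conj_mul, sc, ft, ← mul_assoc, h.sq _ ws, one_mul]
      conv_lhs => rw [← this]
      group
    have a'U : f * a * f⁻¹ ∈ C_(A ⊓ V) := inU _ (by
      rw [show f * a * f⁻¹ * t * (f * a * f⁻¹)⁻¹ = f * (a * (f⁻¹ * t * f⁻¹⁻¹) * a⁻¹) * f⁻¹ by group, f2,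
        cjT.1 aU _ (mul_mem sA tA), ← f2]; group)
    have a'T : f * a * f⁻¹ ∉ C_(V) := fun k => aT (by simpa [mul_assoc] using nT.conj_mem _ k f⁻¹)
    have a'v : f * a * f⁻¹ * v * (f * a * f⁻¹)⁻¹ = w * w * t * v := by
      have hv' := h.nV.conj_mem v hv f⁻¹
      rw [show f * a * f⁻¹ * v * (f * a * f⁻¹)⁻¹ = f * (a * (f⁻¹ * v * f⁻¹⁻¹) * a⁻¹) * f⁻¹ by group]
      rcases fa _ hv' with k | k
      · exfalso
        refine a'T (cjT.2 fun d hd => ?_)
        rcases fU _ a'U d hd with k' | k'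
        · exact k'
        · rw [k', commutatorElement_def, show f * a * f⁻¹ * v * (f * a * f⁻¹)⁻¹ = f * (a * (f⁻¹ * v * f⁻¹⁻¹) * a⁻¹) * f⁻¹ by group, k]
          group
      · rw [k, ← conj_mul, ft]; group
    have aaY := idx2 hY.idx aU a'U (nY a aa aT) (nY _ (by rw [conj_mul, aa]; group) a'T)
    have pT : x * (a * (f * a * f⁻¹)) ∈ C_(V) := cjT.2 fun d hd => by
      have pU := mul_mem xU (mul_mem aU a'U)
      rcases fU _ pU d hd with k' | k'
      · exact k'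
      · rw [k', commutatorElement_def, show x * (a * (f * a * f⁻¹)) * v * (x * (a * (f * a * f⁻¹)))⁻¹ =
          x * (a * (f * a * f⁻¹ * v * (f * a * f⁻¹)⁻¹) * a⁻¹) * x⁻¹ by group, a'v, ← conj_mul (b := a), cjT.1 aU _ (mul_mem sA tA), av,
          mul_assoc (w * w), ← mul_assoc t, h.sq t tA.2, one_mul, ← conj_mul (b := x), sc, xv, ← mul_assoc, h.sq _ ws]
        group
    have xY : x ∈ Y := (Y.mul_mem_cancel_right aaY).1 (TY pT)
    obtain ⟨d, dT, ed⟩ := sq2 x hx (cjT.2 fun d hd => by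
      rw [show x * x * d * (x * x)⁻¹ = x * (x * d * x⁻¹) * x⁻¹ by group]
      rcases F x hx d hd with k | k
      · rw [k, k]
      · rw [k, ← conj_mul, sc, k, ← mul_assoc, h.sq _ ws, one_mul])
    have xd : x * d⁻¹ ∉ C_(V) := fun k => xT (by simpa using mul_mem k dT)
    refine xd ?_
    have q : x * d⁻¹ * (x * d⁻¹) ∈ V := by
      have := h.nV.conj_mem _ (hY.comm (inv_mem (TY dT)) xY) x
      rwa [show x * ⁅d⁻¹, x⁆ * x⁻¹ = x * d⁻¹ * (x * d⁻¹) * (d * d) * (x * x)⁻¹ by rw [commutatorElement_def]; group, ed,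
        mul_inv_cancel_right] at this
    simpa using mul_mem (h.vc (hY.uniq (mul_mem xY (inv_mem (TY dT))) (TY wT) (fun e => xd (h.vc e)) wV q ws)) wT
  push Not at hI
  have nW := ext_normal ws wc
  obtain ⟨x, xT, xW, -, xc⟩ := h.cs (ext V w ws) C_(V) hI.2
  have st : w * w ≠ t := by
    have uW : ⁅x, a⁆ ∈ ext V w ws := by rw [← Subgroup.inv_mem_iff, commutatorElement_inv]; exact xc a
    have uV : ⁅x, a⁆ ∉ V := fun k => xW (Or.inr (k2 x xT (fun e => xW (Or.inl e)) k))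
    have uw := uW.resolve_left uV
    refine fun e => uV (k1 _ (by simpa using mul_mem (h.vc uw) wT) (Or.inr ?_))
    rw [← e, ← h.sqW wT uw, commutatorElement_def ⁅x, a⁆, mul_assoc, mul_assoc, ← mul_assoc a, ← inv_inv (a * _ * _), ← conj_inv,
      inv_inv, cinv aa, inv_inv]
  have fB : ∀ d ∈ A ⊓ V, d = 1 ∨ d = w * w ∨ d = t ∨ d = w * w * t := fun d hd => four c4.le sA tA hd s1 t1
    (fun e => st (by rw [eq_inv_of_mul_eq_one_left e, h.zi tA.2])) st
  have inU : ∀ g : G, ⁅g, a⁆ ∈ C_(V) → g ∈ C_(A ⊓ V) := fun g hg => by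
    have k : g * t * g⁻¹ = t := by
      have hv' := h.nV.conj_mem v hv g
      have k1 := cjT.1 hg _ (h.nV.conj_mem _ hv' a)
      have k2 : g * t * g⁻¹ = a * (g * v * g⁻¹) * a⁻¹ * (g * v * g⁻¹)⁻¹ := by
        rw [← k1, et]; simp only [commutatorElement_def]; group
      rcases fa _ hv' with k | k <;> rw [k] at k2
      · exact absurd (by simpa using k2) t1
      · rwa [mul_inv_cancel_right] at k2
    exact cjT.2 fun d hd => by
      rcases fB d hd with rfl | rfl | rfl | rfl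
      exacts [by group, sc g, k, by rw [← conj_mul, sc, k]]
  obtain ⟨ζ, -, ζT, -, ζc⟩ := h.cs C_(V) ⊤ fun k => aT (k (mem_top a))
  have ζa := uT hI.1 ζ (inU ζ (by rw [← Subgroup.inv_mem_iff, commutatorElement_inv]; exact ζc a)) a aU ζT aT
  have UT : ∀ g, g ∈ C_(A ⊓ V) := fun g => inU g (by
    have := mul_mem (mul_mem (nT.conj_mem _ (inv_mem (ζc g)) ζ⁻¹) (nT.conj_mem _ (nT.conj_mem _ ζa g) ζ⁻¹)) (nT.conj_mem _ (inv_mem ζa) ζ⁻¹)
    rwa [show ζ⁻¹ * ⁅g, ζ⁆⁻¹ * ζ⁻¹⁻¹ * (ζ⁻¹ * (g * (ζ * a) * g⁻¹) * ζ⁻¹⁻¹) * (ζ⁻¹ * (ζ * a)⁻¹ * ζ⁻¹⁻¹) = ⁅g, a⁆ by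
      simp only [commutatorElement_def]; group] at this)
  have s := step K Y H
  have s1' : Y.relIndex H ≤ 2 := (idx_mono fun g _ => UT g).trans hY.idx
  have e' := e.mono (inf_le_right : Y ⊓ H ≤ H)
  have s2 : K.relIndex (Y ⊓ H) ≤ 8 := by
    by_cases k : Y ⊓ H ≤ C_(V)
    · rcases sqr (H := Y ⊓ H) (K := K) (V := V) h.pg (fun x hx y hy => hY.ab h.vc hx.1 hy.1 (k hx) (k hy)) (fun x hx xx => by
        by_contra xV
        have q : a * x * a⁻¹ * x⁻¹ ∈ V := hY.uniq (hY.conj aU hx.1) hx.1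
          (fun e => xV (by simpa [mul_assoc] using h.nV.conj_mem _ e a⁻¹)) xV (by rw [conj_mul, xx]; simp) (xx ▸ V.one_mem)
        exact s1 (by rw [← h.sqW wT (k2 x (k hx) xV (by rw [← V.inv_mem_iff, commutatorElement_inv]; exact q)), xx])) c8.le
        e'.sq with k | k
      · omega
      · exact k.1
    · obtain ⟨g, hg, gT⟩ := SetLike.not_le_iff_exists.1 k
      have c1 := h.cb (N := V) e' hg
      have c2 := h.hf (show V ⊓ C_[g] < V from lt_of_le_of_ne inf_le_left fun e => gT (le_cent1_iff.1 (inf_eq_left.1 e)))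
      have c3 := hY.q2 inf_le_left e'
      omega
  nlinarith
end Four

end Ha
end H04.HE
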