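import Mathlib
import Cfsg.Agent.H04.HEc

/-!
# Harada's self-centralizing `E₈` theorem (namespace `H04.HE`) : the case `|A ∩ V| = 2` and the theorem `harada`
-/

set_option autoImplicit false
set_option linter.unusedSectionVars false
open Cfsg BG Subgroup H01.SR H04.MW
open scoped commutatorElement

namespace H04.HE
variable {G : Type*} [Group G] [Finite G] {A B H K N U V X Y Z : Subgroup G} {a b c d g s t u v w x x' y z : G}

theorem c1 : x ∈ C_[a] ↔ ⁅x, a⁆ = 1 := mem_cent1.trans commutatorElement_eq_one_iff_mul_comm.symm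
theorem cadj (e : ⁅v, a⁆ = ⁅x, a⁆) : v⁻¹ * x ∈ C_[a] := cj1.2 (by
  rw [show v⁻¹ * x * a * (v⁻¹ * x)⁻¹ = v⁻¹ * (⁅x, a⁆ * a) * v by simp only [commutatorElement_def]; group, ← e,
    commutatorElement_def]; group)
theorem cflip (h : ⁅a, x⁆ ∈ K) : ⁅x, a⁆ ∈ K := by rw [← K.inv_mem_iff, commutatorElement_inv]; exact h

namespace Ha
variable (h : Ha A V) (hz : z ∈ V) (z1 : z ≠ 1) (zc : ∀ g : G, g * z * g⁻¹ = z) (c2 : ∀ x ∈ A ⊓ V, x = 1 ∨ x = z)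
include h hz z1 zc c2

theorem bas2 (hc : c ∈ A) (cV : c ∉ V) : ∃ d ∈ A, d ∉ V ∧ ∀ x ∈ C_[c], x ∈ C_[d] → x ∈ A := by
  have zA : z ∈ A := h.cent (mem_cent.2 fun a _ => mul_inv_eq_iff_eq_mul.1 (zc a))
  obtain ⟨d, hd, k⟩ : ∃ d ∈ A, ¬ (d = 1 ∨ d = z ∨ d = c ∨ d = z * c) := by
    by_contra hn
    push Not at hn
    have := le4 fun v hv => by have := hn v hv; tauto
    have := h.cA
    omega
  refine ⟨d, hd, fun e => k ((c2 d ⟨hd, e⟩).imp id Or.inl), fun x e1 e2 => h.cent (le_cent1_iff.1 ?_)⟩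
  by_contra hn
  have := h.hf (show A ⊓ C_[x] < A from lt_of_le_of_ne inf_le_left fun e => hn (inf_eq_left.1 e))
  have := h.cA
  exact k (four (Z := A ⊓ C_[x]) (by omega) ⟨zA, cj2.2 (zc x)⟩ ⟨hc, mem_cent1_comm.1 e1⟩ ⟨hd, mem_cent1_comm.1 e2⟩ z1
    (by rintro rfl; exact cV V.one_mem) (fun e => cV (by rw [eq_inv_of_mul_eq_one_right e]; exact V.inv_mem hz))
    (by rintro rfl; exact cV hz))

section Pair
variable (hc : c ∈ A) (hd : d ∈ A) (hb : ∀ x ∈ C_[c], x ∈ C_[d] → x ∈ A)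
include hc hd hb

theorem b0 : ∀ x ∈ V ⊓ C_[c], d * x * d⁻¹ ∈ V ⊓ C_[c] := fun x hx =>
  have := cent_le_cent1 hc (h.ac hd)
  ⟨h.nV.conj_mem x hx.1 d, C_[c].mul_mem (C_[c].mul_mem this hx.2) (C_[c].inv_mem this)⟩

theorem b1 : Nat.card (V ⊓ C_[c] : Subgroup G) ≤ 4 := by
  have := h.sqle (h.asq d hd) inf_le_left (h.b0 hz z1 zc c2 hc hd hb)
  have := le2 (V := V ⊓ C_[c] ⊓ C_[d]) fun x hx => c2 x ⟨hb x hx.1.2 hx.2, hx.1.1⟩
  nlinarith

theorem b2 : ∃ v ∈ V ⊓ C_[c], ⁅v, d⁆ = z := by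
  obtain ⟨v, hv, k⟩ : ∃ v ∈ V ⊓ C_[c], v ∉ C_[d] := by
    by_contra hn
    push Not at hn
    have := le2 (V := V ⊓ C_[c]) fun x hx => c2 x ⟨hb x hx.2 (hn x hx), hx.1⟩
    have := h.sqle (h.asq c hc) le_rfl fun x hx => h.nV.conj_mem x hx c
    have := h.c8
    nlinarith
  have m : ⁅d, v⁆ ∈ V ⊓ C_[c] := mul_mem (h.b0 hz z1 zc c2 hc hd hb v hv) (inv_mem hv)
  have m' := cflip m
  exact ⟨v, hv, (c2 _ ⟨hb _ m'.2 (cflip (h.cfix (h.asq d hd) hv.1)), m'.1⟩).resolve_left fun e => k (c1.2 e)⟩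

theorem b3 (hx : x ∈ C_[c]) (e : ⁅x, d⁆ ∈ V) : ∃ v ∈ V, v⁻¹ * x ∈ A := by
  have dc := cent_le_cent1 hc (h.ac hd)
  rcases c2 _ ⟨hb _ (mul_mem (mul_mem (mul_mem hx dc) (inv_mem hx)) (inv_mem dc)) (h.cfix' (h.asq d hd) e).2, e⟩ with k | k
  · exact ⟨1, V.one_mem, by simpa using hb x hx (c1.2 k)⟩
  · obtain ⟨v, hv, ev⟩ := h.b2 hz z1 zc c2 hc hd hb
    exact ⟨v, hv.1, hb _ (mul_mem (inv_mem hv.2) hx) (cadj (ev.trans k.symm))⟩
end Pair

theorem b4 (hc : c ∈ A) (cV : c ∉ V) : Nat.card (V ⊓ C_[c] : Subgroup G) ≤ 4 := by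
  obtain ⟨d, hd, -, hb⟩ := h.bas2 hz z1 zc c2 hc cV
  exact h.b1 hz z1 zc c2 hc hd hb

theorem exa : ∃ a ∈ A, a ∉ V := by
  by_contra hn
  push Not at hn
  have := le2 (V := A) fun x hx => c2 x ⟨hx, hn x hx⟩
  have := h.cA
  omega

theorem two16 (c16 : Nat.card V = 16) (e : EA H K) : K.relIndex H ≤ 16 := by
  have := h.nV
  have key : ∀ c ∈ A, ∀ d ∈ A, (∀ x ∈ C_[c], x ∈ C_[d] → x ∈ A) → ∀ x, ⁅x, c⁆ ∈ V → ⁅x, d⁆ ∈ V → ∃ v ∈ V, v⁻¹ * x ∈ A := by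
    intro c hc d hd hb x xc xd
    have k := h.b1 hz z1 zc c2 hc hd hb
    obtain ⟨v, hv, ev⟩ := onto (N := V ⊓ C_[c]) (fun a ha b hb => h.comm ha hb) (fun v hv => h.nV.conj_mem v hv c)
      (fun v hv => ⟨h.cv c hv, h.cfix (h.asq c hc) hv⟩) (by nlinarith) (cflip (h.cfix' (h.asq c hc) xc))
    obtain ⟨v', hv', e'⟩ := h.b3 hz z1 zc c2 hc hd hb (x := v⁻¹ * x)
      (cadj (by rw [← commutatorElement_inv, ev, commutatorElement_inv]))
      (mem_Pm.1 (mul_mem (inv_mem (mem_Pm.2 (cflip (h.cv d hv)))) (mem_Pm.2 xd)))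
    exact ⟨v * v', V.mul_mem hv hv', by rwa [mul_inv_rev, mul_assoc]⟩
  obtain ⟨a, ha, aV⟩ := h.exa hz z1 zc c2
  obtain ⟨d, hd, -, hb⟩ := h.bas2 hz z1 zc c2 ha aV
  have hfr : ∀ x, x ∉ V → (∀ g : G, ⁅g, x⁆ ∈ V) → ∃ v ∈ V, v⁻¹ * x ∈ A ∧ v⁻¹ * x ∉ V := fun x hx hc => by
    obtain ⟨v, hv, k⟩ := key a ha d hd hb x (cflip (hc a)) (cflip (hc d))
    exact ⟨v, hv, k, fun e => hx (by simpa using V.mul_mem hv e)⟩
  obtain ⟨ζ, -, ζV, -, ζc⟩ := h.cs V ⊤ fun k => aV (k (mem_top a))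
  obtain ⟨v, hv, bA, bV⟩ := hfr ζ ζV ζc
  have bc : ∀ g : G, ⁅g, v⁻¹ * ζ⁆ ∈ V := fun g =>
    cflip (mem_Pm.1 (mul_mem (inv_mem (mem_Pm.2 (cflip (h.cv g hv)))) (mem_Pm.2 (cflip (ζc g)))))
  obtain ⟨a', ha', -, hb'⟩ := h.bas2 hz z1 zc c2 bA bV
  obtain ⟨Y, hY⟩ := suz h.pg (le_top : V ≤ ⊤) (mem_top a') (P := V ⊔ A) (fun x _ e => by
    obtain ⟨v, hv, k⟩ := key _ bA a' ha' hb' x (bc x) e
    simpa using mul_mem (mem_sup_left hv) (mem_sup_right k)) (by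
      have e1 := BG.card_sup_mul (K := V) (H := A) (le_top.trans (normalizer_eq_top V).ge)
      have e2 : 1 < Nat.card (V ⊓ A : Subgroup G) := (one_lt_card_iff_ne_bot _).2 fun e => z1 (mem_bot.1 (e ▸
        (⟨hz, h.cent (mem_cent.2 fun a _ => mul_inv_eq_iff_eq_mul.1 (zc a))⟩ : z ∈ V ⊓ A)))
      rw [h.cA] at e1
      nlinarith)
  refine h.fin4 c16 hY (fun x hx hc => ?_) e
  obtain ⟨v, hv, k1, k2⟩ := hfr x hx hc
  refine le_trans (card_le fun d hd => ?_) (h.b4 hz z1 zc c2 k1 k2)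
  have c : Commute d v := h.comm hd.1 hv
  exact ⟨hd.1, mem_cent1.2 (c.inv_right.mul_right (mem_cent1.1 hd.2)).eq⟩

theorem two8 (c8 : Nat.card V = 8) (e : EA H K) : K.relIndex H ≤ 16 := by
  have := h.nV
  have nT := h.nT
  by_cases TV : C_(V) ≤ V
  · by_contra hn
    exact (h.fin3 c8 V.one_mem (by simp) (fun x hx y hy => h.comm (TV hx) (TV hy)) (fun x hx _ => TV hx)
      (fun x hx _ => Or.inl (h.sq x (TV hx))) e hn).1 rfl
  obtain ⟨w, wT, wV, ws, s1, wc, sc⟩ := h.w1 TV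
  have sz : w * w = z := (c2 _ ⟨h.cent (mem_cent.2 fun a _ => mul_inv_eq_iff_eq_mul.1 (sc a)), ws⟩).resolve_left s1
  have AT : ∀ c ∈ A, c ∈ C_(V) → c ∈ V := fun c hc cT => by_contra fun cV => by
    have := h.b4 hz z1 zc c2 hc cV
    rw [inf_eq_left.2 (le_cent1_iff.2 cT)] at this
    omega
  have fa : ∀ c ∈ A, c ∉ V → ∀ v ∈ V, c * v * c⁻¹ = v ∨ c * v * c⁻¹ = z * v := fun c hc cV v hv => by
    obtain ⟨d, hd, dV, hb⟩ := h.bas2 hz z1 zc c2 hc cV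
    obtain ⟨u, hu, eu⟩ := h.b2 hz z1 zc c2 hd hc fun x h1 h2 => hb x h2 h1
    by_cases k : v ∈ C_[c]
    · exact Or.inl (cj2.1 k)
    have cc := h.sqle (h.asq c hc) le_rfl fun x hx => h.nV.conj_mem x hx c
    have := Fact.mk Nat.prime_two
    obtain ⟨n, cn⟩ := IsPGroup.iff_card.1 (h.pg.to_subgroup (V ⊓ C_[c]))
    have c4 : 4 ≤ Nat.card (V ⊓ C_[c] : Subgroup G) := by
      rw [cn] at cc ⊢
      rcases n with _ | _ | n
      · omega
      · omega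
      · exact Nat.pow_le_pow_right (n := 2) (i := 2) (by norm_num) (by omega)
    have k' := eight inf_le_left (by omega) hv hu.1 (fun e => k e.2) fun e => z1 (eu ▸ c1.1 e.2)
    have e1 : c * u * c⁻¹ = z * u := by
      rw [← h.zi hz, ← eu, commutatorElement_inv, commutatorElement_def]; group
    right
    rw [show c * v * c⁻¹ = c * (v * u) * c⁻¹ * (c * u * c⁻¹)⁻¹ by group, cj2.1 k'.2, e1, mul_inv_rev, h.zi hz, h.comm hz hv]; group
  have m1 : ∀ y ∈ C_(V), (∀ c ∈ A, ⁅y, c⁆ ∈ V) → ∀ c ∈ A, c ∉ V → ⁅y, c⁆ = 1 ∨ ⁅y, c⁆ = z → y ∈ V := fun y hy ya c hc cV k => by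
    obtain ⟨d, hd, dV, hb⟩ := h.bas2 hz z1 zc c2 hc cV
    obtain ⟨u, hu, hx⟩ : ∃ u ∈ V, u⁻¹ * y ∈ C_[c] := by
      rcases k with k | k
      · exact ⟨1, V.one_mem, by simpa using c1.2 k⟩
      · obtain ⟨u, hu, eu⟩ := h.b2 hz z1 zc c2 hd hc fun x h1 h2 => hb x h2 h1
        exact ⟨u, hu.1, cadj (eu.trans k.symm)⟩
    obtain ⟨v, hv, k'⟩ := h.b3 hz z1 zc c2 hc hd hb hx
      (mem_Pm.1 (mul_mem (inv_mem (mem_Pm.2 (cflip (h.cv d hu)))) (mem_Pm.2 (ya d hd))))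
    have := AT _ k' (mul_mem (inv_mem (h.vc hv)) (mul_mem (inv_mem (h.vc hu)) hy))
    simpa using V.mul_mem hu (V.mul_mem hv this)
  obtain ⟨a, ha, aV⟩ := h.exa hz z1 zc c2
  have aa := h.asq a ha
  have wi : ∀ c : G, ⁅w⁻¹, c⁆ ∈ V := fun c => mem_Pm.1 (inv_mem (mem_Pm.2 (cflip (wc c))))
  have m2 : ∀ y ∈ C_(V), y ∉ V → (∀ c ∈ A, ⁅y, c⁆ ∈ V) → y * w⁻¹ ∈ V := fun y hy yV ya => by
    have n1 := mt (m1 y hy ya a ha aV) yV
    have n2 := mt (m1 _ (inv_mem wT) (fun c _ => wi c) a ha aV) (by simpa using wV)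
    push Not at n1 n2
    refine m1 _ (mul_mem hy (inv_mem wT)) (fun c hc => mem_Pm.1 (mul_mem (mem_Pm.2 (ya c hc)) (mem_Pm.2 (wi c)))) a ha aV ?_
    rw [cmul hy (wi a)]
    rcases four (h.b4 hz z1 zc c2 ha aV) ⟨hz, cj2.2 (zc a)⟩ (h.cfix' aa (ya a ha)) (h.cfix' aa (wi a)) z1 n1.1
      (fun e => n1.2 (by rw [eq_inv_of_mul_eq_one_right e, h.zi hz])) n1.2.symm with k | k | k | k
    · exact absurd k n2.1
    · exact absurd k n2.2
    · rw [k]; exact Or.inl (h.sq _ (ya a ha))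
    · rw [k, mul_assoc, h.sq _ (ya a ha), mul_one]; exact Or.inr rfl
  have nW := ext_normal ws wc
  have Wc : ∀ x ∈ ext V w ws, ∀ c : G, ⁅x, c⁆ ∈ V := fun x hx c => by
    rcases hx with k | k
    · exact cflip (h.cv c k)
    · have := mul_mem (mem_Pm.2 (cflip (h.cv c k))) (mem_Pm.2 (cflip (wc c)))
      rw [inv_mul_cancel_right] at this
      exact mem_Pm.1 this
  have TW : C_(V) ≤ ext V w ws := by
    by_contra hn
    obtain ⟨x, xT, xW, -, xc⟩ := h.cs (ext V w ws) C_(V) hn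
    refine xW (Or.inr (m2 x xT (fun e => xW (Or.inl e)) fun c hc => by_contra fun uV => ?_))
    have uW := cflip (xc c)
    have uw := uW.resolve_left uV
    refine uV (m1 _ (by simpa using mul_mem (h.vc uw) wT) (fun c _ => Wc _ uW c) c hc (fun e => uV (h.cv x e)) (Or.inr ?_))
    rw [← sz, ← h.sqW wT uw, commutatorElement_def ⁅x, c⁆, mul_assoc, mul_assoc, ← mul_assoc c, ← inv_inv (c * _ * _), ← conj_inv,
      inv_inv, cinv (h.asq c hc), inv_inv]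
  refine h.fin3a c8 hz zc (fun x hx y hy => ?_) (fun x hx e => by_contra fun k => s1 (by rw [← h.sqW wT ((TW hx).resolve_left k), e]))
    (fun x hx _ => (em (x ∈ V)).imp (h.sq x) fun k => (h.sqW wT ((TW hx).resolve_left k)).trans sz) aa
    (fun k => aV (AT a ha k)) (fa a ha aV) (le_trans (card_le fun x hx => ?_) (h.b4 hz z1 zc c2 ha aV)) e
  · rcases TW hx with k1 | k1
    · exact mem_cent.1 hy x k1
    · rcases TW hy with k2 | k2
      · exact (mem_cent.1 hx y k2).symm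
      · have c1 : Commute (x * w⁻¹) y := mem_cent.1 hy _ k1
        have c2 : Commute (y * w⁻¹) w := mem_cent.1 wT _ k2
        have c3 : Commute w y := by simpa using (c2.mul_left (Commute.refl w)).symm
        simpa using (c1.mul_left c3).eq
  · exact ⟨m1 x hx.1 (fun c _ => Wc x (TW hx.1) c) a ha aV (Or.inl (c1.1 hx.2)), hx.2⟩
end Ha

theorem Ha.main (h : Ha A V) (e : EA H K) : K.relIndex H ≤ 16 := by
  have := h.nV
  have := Fact.mk Nat.prime_two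
  have c8 := h.c8
  have cA := h.cA
  obtain ⟨z, hz, z1, zc⟩ := h.cz (N := V) (by rintro rfl; simp at c8)
  have zA : z ∈ A ⊓ V := ⟨h.cent (mem_cent.2 fun a _ => mul_inv_eq_iff_eq_mul.1 (zc a)), hz⟩
  have key : ∀ a ∈ A, Nat.card (V ⊓ C_[a] : Subgroup G) ≤ 4 → Nat.card V = 8 ∨ Nat.card V = 16 := fun a ha k => by
    have := h.sqle (h.asq a ha) le_rfl fun x hx => h.nV.conj_mem x hx a
    obtain ⟨n, cn⟩ := IsPGroup.iff_card.1 (h.pg.to_subgroup V)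
    have k16 : Nat.card V ≤ 16 := by nlinarith
    rw [cn] at c8 k16 ⊢
    have : n ≤ 4 := (Nat.pow_le_pow_iff_right (by norm_num : 1 < 2)).1 k16
    interval_cases n <;> omega
  by_cases AV : A ≤ V
  · have TV : C_(V) ≤ V := (cent_anti AV).trans (h.cent.trans AV)
    have e8 : Nat.card V = 8 := le_antisymm (cA ▸ card_le (h.vc.trans ((cent_anti AV).trans h.cent))) c8
    by_contra hn
    exact (h.fin3 e8 V.one_mem (by simp) (fun x hx y hy => h.comm (TV hx) (TV hy)) (fun x hx _ => TV hx)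
      (fun x hx _ => Or.inl (h.sq x (TV hx))) e hn).1 rfl
  obtain ⟨a, ha, aV⟩ := SetLike.not_le_iff_exists.1 AV
  by_cases c2 : ∀ x ∈ A ⊓ V, x = 1 ∨ x = z
  · rcases key a ha (h.b4 hz z1 zc c2 ha aV) with k | k
    · exact h.two8 hz z1 zc c2 k e
    · exact h.two16 hz z1 zc c2 k e
  push Not at c2
  obtain ⟨x, hx, x1, xz⟩ := c2
  have c4 : Nat.card (A ⊓ V : Subgroup G) = 4 := by
    have h1 := h.hf (show A ⊓ V < A from lt_of_le_of_ne inf_le_left fun e => AV (inf_eq_left.1 e))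
    have h2 := h.hf (show zpowers z < A ⊓ V from lt_of_le_of_ne (zpowers_le.2 zA) fun e => by
      rw [← e] at hx
      obtain ⟨i, rfl⟩ := hx
      rcases Int.even_or_odd' i with ⟨j, rfl | rfl⟩
      · exact x1 (by simp only [zpow_mul, zpow_ofNat, sq, h.sq z hz, one_zpow])
      · exact xz (by simp only [zpow_add, zpow_mul, zpow_ofNat, sq, h.sq z hz, one_zpow, one_mul, pow_one]))
    have h3 : 1 < Nat.card (zpowers z) := (one_lt_card_iff_ne_bot _).2 (by simpa using z1)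
    omega
  rcases key a ha (by rw [h.a2 c4 ha aV, c4]) with k | k
  · exact h.four8 c4 ha aV k e
  · exact h.four16 c4 ha aV k e

theorem harada (hG : IsPGroup 2 G) (h1 : ∀ a ∈ A, a * a = 1) (h2 : Nat.card A = 8) (h3 : C_(A) ≤ A) : SectionalPRankLE 2 4 G := by
  by_cases k : ∀ A : Subgroup G, A.Normal → IsMulCommutative A → (∀ a ∈ A, a ^ 2 = 1) → Nat.card A ≤ 4
  · exact H04.MW.main hG k
  push Not at k
  obtain ⟨E, e1, -, e3, e4⟩ := k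
  obtain ⟨V, ⟨v1, v2, v3⟩, hm⟩ := Set.Finite.exists_maximalFor (fun B : Subgroup G => B)
    {B : Subgroup G | B.Normal ∧ (∀ b ∈ B, b * b = 1) ∧ E ≤ B} (Set.toFinite _) ⟨E, e1, fun b hb => by rw [← sq, e3 b hb], le_rfl⟩
  have := Fact.mk Nat.prime_two
  have c8 : 8 ≤ Nat.card V := by
    obtain ⟨n, cn⟩ := IsPGroup.iff_card.1 (hG.to_subgroup E)
    refine le_trans ?_ (card_le v3)
    rw [cn] at e4 ⊢
    exact Nat.pow_le_pow_right (n := 2) (i := 3) (by norm_num) ((Nat.pow_lt_pow_iff_right (a := 2) (n := 2) (by norm_num)).1 e4)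
  have hh : Ha A V := ⟨⟨hG, v1, v2, fun B b1 b2 b3 => hm ⟨b1, b2, v3.trans b3⟩ b3⟩, h1, h2, h3, c8⟩
  exact H04.sectional_iff.2 fun H K _ k2 k3 => hh.main ⟨fun x hx y hy => k2 (commutator_mem_commutator hx hy),
    fun x hx => by rw [← sq]; exact k3 x hx⟩

end H04.HE
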