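import Mathlib
import Cfsg.Agent.H04.HEd

/-!
# Self-centralizing `Q₈ ∗ Q₈` (namespace `H04.HE`) : `QQ.main`, via a self-centralizing `E₈`
-/

set_option autoImplicit false
set_option linter.unusedSectionVars false
open Cfsg BG Subgroup H01.SR H04.MW
open scoped commutatorElement

namespace H04.HE
variable {G : Type*} [Group G] [Finite G] {Q : Subgroup G} {a b a' b' c g x y z i j k l : G}

def Rz (z a b : G) : Prop := a = b ∨ a = z * b

theorem Rz.conj (hg : g * z * g⁻¹ = z) (h : Rz z a b) : Rz z (g * a * g⁻¹) (g * b * g⁻¹) :=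
  h.imp (fun e => by rw [e]) fun e => by rw [e, ← conj_mul, hg]
theorem Rz.trans (zz : z * z = 1) (h : Rz z a b) (h' : Rz z b c) : Rz z a c := by
  rcases h with rfl | rfl <;> rcases h' with rfl | rfl
  exacts [Or.inl rfl, Or.inr rfl, Or.inr rfl, Or.inl (by rw [← mul_assoc, zz, one_mul])]
theorem Rz.mul (zz : z * z = 1) (hb : b * z = z * b) (h : Rz z a b) (h' : Rz z a' b') : Rz z (a * a') (b * b') := by
  rcases h with rfl | rfl <;> rcases h' with rfl | rfl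
  exacts [Or.inl rfl, Or.inr (by rw [← mul_assoc, hb, mul_assoc]), Or.inr (mul_assoc _ _ _),
    Or.inl (by rw [mul_assoc, ← mul_assoc b, hb, ← mul_assoc, ← mul_assoc, zz, one_mul])]
theorem Rz.inv (zz : z * z = 1) (hb : b * z = z * b) (h : Rz z a b) : Rz z a⁻¹ b⁻¹ := by
  rcases h with rfl | rfl
  exacts [Or.inl rfl, Or.inr (by rw [← hb, mul_inv_rev, inv_eq_of_mul_eq_one_right zz])]

structure QQ (Q : Subgroup G) (z i j k l : G) : Prop where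
  pg : IsPGroup 2 G
  iQ : i ∈ Q
  jQ : j ∈ Q
  kQ : k ∈ Q
  lQ : l ∈ Q
  ii : i * i = z
  jj : j * j = z
  kk : k * k = z
  ll : l * l = z
  zz : z * z = 1
  z1 : z ≠ 1
  ij : i * j * i⁻¹ = z * j
  kl : k * l * k⁻¹ = z * l
  ik : Commute i k
  il : Commute i l
  jk : Commute j k
  jl : Commute j l
  hc : ∀ a ∈ Q, ∀ b ∈ Q, Rz z (a * b * a⁻¹) b
  gen : ∀ T : Subgroup G, i ∈ T → j ∈ T → k ∈ T → l ∈ T → Q ≤ T
  card : Nat.card Q = 32
  cent : C_(Q) ≤ Q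

namespace QQ
variable (h : QQ Q z i j k l)
include h

theorem zc (ha : a ∈ Q) : a * z = z * a := mem_cent1.1 (h.gen C_[z] (mem_cent1.2 (by rw [← h.ii, mul_assoc]))
  (mem_cent1.2 (by rw [← h.jj, mul_assoc])) (mem_cent1.2 (by rw [← h.kk, mul_assoc])) (mem_cent1.2 (by rw [← h.ll, mul_assoc])) ha)
theorem zc' (ha : a ∈ Q) : a * z * a⁻¹ = z := by rw [h.zc ha]; group

theorem swap : QQ Q z i j l (k * l) := by
  have e : k * l = z * (l * k) := by rw [← mul_assoc, ← h.kl]; group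
  refine ⟨h.pg, h.iQ, h.jQ, h.lQ, Q.mul_mem h.kQ h.lQ, h.ii, h.jj, h.ll, ?_, h.zz, h.z1, h.ij, ?_, h.il, h.ik.mul_right h.il, h.jl,
    h.jk.mul_right h.jl, h.hc, fun T h1 h2 h3 h4 => h.gen T h1 h2 (by simpa using T.mul_mem h4 (T.inv_mem h3)) h3, h.card, h.cent⟩
  · nth_rewrite 1 [e]
    rw [show z * (l * k) * (k * l) = z * (l * (k * k)) * l by group, h.kk, h.zc h.lQ, ← mul_assoc, h.zz, one_mul, h.ll]
  · rw [e, ← mul_assoc z z, h.zz, one_mul, ← e]; group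

theorem step : SectionalPRankLE 2 4 G ∨ ∃ x : G, x * z * x⁻¹ = z ∧ Rz z (x * i * x⁻¹) k ∧ Rz z (x * j * x⁻¹) l ∧
    Rz z (x * k * x⁻¹) i ∧ Rz z (x * l * x⁻¹) j := by
  have zz := h.zz
  have z1 := h.z1
  have zQ : z ∈ Q := h.ii ▸ Q.mul_mem h.iQ h.iQ
  have pQ := Q.mul_mem h.iQ h.kQ
  have rQ := Q.mul_mem h.jQ h.lQ
  have ji : j * i * j⁻¹ = z * i := by
    rw [show j * i * j⁻¹ = j * (i * j * i⁻¹)⁻¹ * i by group, h.ij, mul_inv_rev, inv_eq_of_mul_eq_one_right zz]; group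
  have pi : i * k * i * (i * k)⁻¹ = i := by rw [mul_assoc i k i, ← h.ik.eq]; group
  have pj : i * k * j * (i * k)⁻¹ = z * j := by rw [mul_assoc i k j, ← h.jk.eq, ← h.ij]; group
  have ri : j * l * i * (j * l)⁻¹ = z * i := by rw [mul_assoc j l i, ← h.il.eq, ← ji]; group
  have rj : j * l * j * (j * l)⁻¹ = j := by rw [mul_assoc j l j, ← h.jl.eq]; group
  have pl : i * k * l * (i * k)⁻¹ = z * l := by
    rw [show i * k * l * (i * k)⁻¹ = i * (k * l * k⁻¹) * i⁻¹ by group, h.kl, ← conj_mul, h.zc' h.iQ, h.il.eq]; group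
  have pr : i * k * (j * l) * (i * k)⁻¹ = j * l := by
    rw [← conj_mul, pj, pl, mul_assoc, ← mul_assoc j, h.zc h.jQ, ← mul_assoc, ← mul_assoc, zz, one_mul]
  have pp : i * k * (i * k) = 1 := by rw [← h.ik.mul_mul_mul_comm] <;> first | rw [h.ii, h.kk, zz] | skip
  have rr : j * l * (j * l) = 1 := by rw [← h.jl.mul_mul_mul_comm] <;> first | rw [h.jj, h.ll, zz] | skip
  have ek : i * k * i = z * k := by rw [mul_assoc, ← h.ik.eq, ← mul_assoc, h.ii]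
  have el : j * l * j = z * l := by rw [mul_assoc, ← h.jl.eq, ← mul_assoc, h.jj]
  have kp : ∀ T : Subgroup G, i ∈ T → j ∈ T → i * k ∈ T → j * l ∈ T → Q ≤ T := fun T h1 h2 h3 h4 =>
    h.gen T h1 h2 ((T.mul_mem_cancel_left h1).1 h3) ((T.mul_mem_cancel_left h2).1 h4)
  have fk : ∀ x : G, x * (i * k) * x⁻¹ = i * k → x * k * x⁻¹ = (x * i * x⁻¹)⁻¹ * (i * k) := fun x e => by rw [← e]; group
  have fl : ∀ x : G, x * (j * l) * x⁻¹ = j * l → x * l * x⁻¹ = (x * j * x⁻¹)⁻¹ * (j * l) := fun x e => by rw [← e]; group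
  have gk : k⁻¹ * (i * k) = i := by rw [h.ik.eq]; group
  have gl : l⁻¹ * (j * l) = j := by rw [h.jl.eq]; group
  generalize i * k = p at *
  generalize j * l = r at *
  have hT : IsPGroup 2 (⊤ : Subgroup G) := h.pg.to_subgroup _
  have nz : ∀ a b : G, a * b * a⁻¹ = z * b → a ∉ C_[b] := fun a b e k => z1 (by rw [cj1.1 k] at e; simpa using e.symm)
  obtain ⟨A, hA⟩ : ∃ A : Subgroup G, A = Q ⊓ C_[p] ⊓ C_[r] := ⟨_, rfl⟩
  have mA : ∀ a, a ∈ A ↔ a ∈ Q ∧ a ∈ C_[p] ∧ a ∈ C_[r] := fun a => by rw [hA]; exact and_assoc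
  have zA : z ∈ A := (mA z).2 ⟨zQ, cj2.2 (h.zc' pQ), cj2.2 (h.zc' rQ)⟩
  have pA : p ∈ A := (mA p).2 ⟨pQ, mem_cent1_self p, cj1.2 pr⟩
  have rA : r ∈ A := (mA r).2 ⟨rQ, cj2.2 pr, mem_cent1_self r⟩
  have c8 : Nat.card A ≤ 8 := by
    have h1 := half hT le_top (show Q ⊓ C_[p] < Q from lt_of_le_of_ne inf_le_left fun e =>
      nz p j pj (mem_cent1_comm.1 (e.ge h.jQ).2))
    have h2 := half hT le_top (show Q ⊓ C_[p] ⊓ C_[r] < Q ⊓ C_[p] from lt_of_le_of_ne inf_le_left fun e =>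
      nz r i ri (mem_cent1_comm.1 (e.ge ⟨h.iQ, cj2.2 pi⟩).2))
    have := h.card
    rw [hA]; omega
  have zi : z ∈ C_[i] := cj2.2 (h.zc' h.iQ)
  have zj : z ∈ C_[j] := cj2.2 (h.zc' h.jQ)
  have f4 : ∀ (B : Subgroup G) (s t : G), Nat.card B ≤ 4 → z ∈ B → s ∈ B → s ∉ C_[t] → z ∈ C_[t] → ∀ d ∈ B, Rz z d 1 ∨ Rz z d s :=
    fun B s t c h1 h2 h3 h4 d hd => by
      rcases four c h1 h2 hd z1 (by rintro rfl; exact h3 (one_mem _))
        (fun e => h3 (by rw [eq_inv_of_mul_eq_one_right e]; exact inv_mem h4)) (by rintro rfl; exact h3 h4) with e | e | e | e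
      exacts [Or.inl (Or.inl e), Or.inl (Or.inr (by rw [e, mul_one])), Or.inr (Or.inl e), Or.inr (Or.inr e)]
  have cz : ∀ {d s t : G}, Rz z d s → z ∈ C_[t] → s ∈ C_[t] → d ∈ C_[t] := by
    rintro d s t (rfl | rfl) h1 h2
    exacts [h2, mul_mem h1 h2]
  have l1 : A ⊓ C_[i] < A := lt_of_le_of_ne inf_le_left fun e => nz r i ri (e.ge rA).2
  have l2 : A ⊓ C_[j] < A := lt_of_le_of_ne inf_le_left fun e => nz p j pj (e.ge pA).2
  have q1 := half hT le_top l1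
  have q2 := half hT le_top l2
  have Bi := f4 (A ⊓ C_[i]) p j (by omega) ⟨zA, zi⟩ ⟨pA, cj1.2 pi⟩ (nz p j pj) zj
  have Bj := f4 (A ⊓ C_[j]) r i (by omega) ⟨zA, zj⟩ ⟨rA, cj1.2 rj⟩ (nz r i ri) zi
  have c8' : Nat.card A = 8 := by
    have := Fact.mk Nat.prime_two
    obtain ⟨n, cn⟩ := IsPGroup.iff_card.1 (h.pg.to_subgroup A)
    have : ¬ Nat.card A ≤ 4 := fun c => (f4 A p j c zA pA (nz p j pj) zj r rA).elim
      (fun e => nz r i ri (cz e zi (one_mem _))) fun e => nz r i ri (cz e zi (cj1.2 pi))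
    rw [cn] at c8 this ⊢
    have : n ≤ 3 := (Nat.pow_le_pow_iff_right (by norm_num : 1 < 2)).1 c8
    interval_cases n <;> omega
  have sq1 : ∀ a ∈ A ⊓ C_[i], a * a = 1 := fun a ha => by
    rcases Bi a ha with (rfl | rfl) | (rfl | rfl)
    exacts [one_mul 1, by rw [mul_one, zz], pp, by rw [mul_assoc, ← mul_assoc p, h.zc pQ, ← mul_assoc, ← mul_assoc, zz, one_mul, pp]]
  have sq2 : ∀ a ∈ A, a * a = 1 := fun a ha => by
    by_cases k : a ∈ A ⊓ C_[i]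
    · exact sq1 a k
    · have := sq1 _ ⟨A.mul_mem ha rA, idx2 (rel2 zz fun y hy => h.hc y ((mA y).1 hy).1 i h.iQ) ha rA (fun e => k ⟨ha, e⟩) (nz r i ri)⟩
      rwa [mul_assoc, ← mul_assoc r, ← mem_cent1.1 ((mA a).1 ha).2.2, mul_assoc, rr, mul_one] at this
  by_cases hX : C_(A) ≤ A
  · exact Or.inl (harada h.pg sq2 c8' hX)
  right
  have nA : ∀ q ∈ Q, ∀ a ∈ A, q * a * q⁻¹ ∈ A := fun q hq a ha => by
    rcases h.hc q hq a ((mA a).1 ha).1 with e | e <;> rw [e]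
    exacts [ha, A.mul_mem zA ha]
  have QX : ∀ x ∈ C_(A), x ∈ Q → x ∈ A := fun x hx hq => (mA x).2 ⟨hq, cent_le_cent1 pA hx, cent_le_cent1 rA hx⟩
  obtain ⟨x, xX, xN, xQ⟩ : ∃ x ∈ C_(A), x ∈ N_(Q) ∧ x ∉ Q := by
    have hn : Q ≤ N_(C_(A)) := le_norm_iff.2 fun q hq x hx => cjT.2 fun a ha => by
      rw [show q * x * q⁻¹ * a * (q * x * q⁻¹)⁻¹ = q * (x * (q⁻¹ * a * q⁻¹⁻¹) * x⁻¹) * q⁻¹ by group,
        cjT.1 hx _ (nA _ (Q.inv_mem hq) a ha)]; group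
    have := Fact.mk Nat.prime_two
    have := h.pg.isNilpotent
    have lt : Q.subgroupOf (C_(A) ⊔ Q) < ⊤ := lt_top_iff_ne_top.2 fun e =>
      hX fun x hx => QX x hx ((subgroupOf_eq_top.1 e) (mem_sup_left hx))
    obtain ⟨⟨g, hg⟩, g1, g2⟩ := SetLike.exists_of_lt (Group.normalizerCondition_of_isNilpotent _ lt)
    obtain ⟨x, hx, q, hq, rfl⟩ := (BG.mem_sup_norm hn).1 hg
    rw [← subgroupOf_normalizer_eq le_sup_right, mem_subgroupOf] at g1
    exact ⟨x, hx, (mul_mem_cancel_right (le_normalizer hq)).1 g1, fun e => g2 (Q.mul_mem e hq)⟩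
  have xz := cjT.1 xX z zA
  have ca : ∀ q ∈ Q, x * q * x⁻¹ * q⁻¹ ∈ A := fun q hq => by
    have k : ∀ a ∈ A, x * q * x⁻¹ * q⁻¹ ∈ C_[a] := fun a ha => cj1.2 (by
      rw [show x * q * x⁻¹ * q⁻¹ * a * (x * q * x⁻¹ * q⁻¹)⁻¹ = x * q * (x⁻¹ * (q⁻¹ * a * q⁻¹⁻¹) * x⁻¹⁻¹) * q⁻¹ * x⁻¹ by group,
        cjT.1 (inv_mem xX) _ (nA _ (Q.inv_mem hq) a ha)]
      conv_rhs => rw [← cjT.1 xX a ha]
      group)
    exact (mA _).2 ⟨Q.mul_mem (conj_mem_of_norm xN hq) (Q.inv_mem hq), k p pA, k r rA⟩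
  have cb : ∀ q ∈ Q, q * q = z → x * q * x⁻¹ * q⁻¹ ∈ A ⊓ C_[q] := fun q hq e => ⟨ca q hq, cj1.2 (by
    have := inv_eq_of_mul_eq_one_right (sq2 _ (ca q hq))
    rw [this, show x * q * x⁻¹ * q⁻¹ * q * (x * q * x⁻¹ * q⁻¹) = x * (q * q) * x⁻¹ * q⁻¹ by group, e, xz, ← e]; group)⟩
  obtain ⟨a, ha, ea⟩ : ∃ a ∈ A ⊓ C_[i], x * i * x⁻¹ = a * i := ⟨_, cb i h.iQ h.ii, by group⟩
  obtain ⟨b, hb, eb⟩ : ∃ b ∈ A ⊓ C_[j], x * j * x⁻¹ = b * j := ⟨_, cb j h.jQ h.jj, by group⟩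
  have rel : a * (i * b * i⁻¹ * (z * j)) * a⁻¹ = z * (b * j) := by
    have : x * (i * j * i⁻¹) * x⁻¹ = z * (b * j) := by rw [h.ij, ← conj_mul, xz, eb]
    rw [← this, ← h.ij, show x * (i * j * i⁻¹) * x⁻¹ = x * i * x⁻¹ * (x * j * x⁻¹) * (x * i * x⁻¹)⁻¹ by group, ea, eb]; group
  have ab : a * b * a⁻¹ = b := cjT.1 (el_comm sq2 ha.1) b hb.1
  have az := h.zc' ((mA a).1 ha.1).1
  have bz := h.zc ((mA b).1 hb.1).1
  have t1 : ∀ {d s t : G}, Rz z d s → s * t * s⁻¹ = z * t → t ∈ Q → d * t * d⁻¹ = z * t := by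
    rintro d s t (rfl | rfl) e ht
    · exact e
    · rw [show z * s * t * (z * s)⁻¹ = z * (s * t * s⁻¹) * z⁻¹ by group, e, ← h.zc ht]
      conv_rhs => rw [h.zc ht]
      group
  rcases Bi a ha with k1 | k1 <;> rcases Bj b hb with k2 | k2
  · exfalso
    obtain ⟨c, hc, c1, c2⟩ : ∃ c ∈ A, c * i * c⁻¹ = a * i ∧ c * j * c⁻¹ = b * j := by
      rcases k1 with rfl | rfl <;> rcases k2 with rfl | rfl
      · exact ⟨1, A.one_mem, by group, by group⟩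
      · exact ⟨p, pA, by rw [pi, one_mul], by rw [pj, mul_one]⟩
      · exact ⟨r, rA, by rw [ri, mul_one], by rw [rj, one_mul]⟩
      · exact ⟨p * r, A.mul_mem pA rA, by
          rw [show p * r * i * (p * r)⁻¹ = p * (r * i * r⁻¹) * p⁻¹ by group, ri, ← conj_mul, h.zc' pQ, pi, mul_one], by
          rw [show p * r * j * (p * r)⁻¹ = p * (r * j * r⁻¹) * p⁻¹ by group, rj, pj, mul_one]⟩
    have cX := mul_mem (inv_mem (el_comm sq2 hc)) xX
    have := h.cent (le_cent1_iff.1 (kp C_[c⁻¹ * x] (cj2.2 (by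
      rw [show c⁻¹ * x * i * (c⁻¹ * x)⁻¹ = c⁻¹ * (x * i * x⁻¹) * c by group, ea, ← c1]; group)) (cj2.2 (by
      rw [show c⁻¹ * x * j * (c⁻¹ * x)⁻¹ = c⁻¹ * (x * j * x⁻¹) * c by group, eb, ← c2]; group))
      (le_cent1_iff.2 cX pA) (le_cent1_iff.2 cX rA)))
    exact xQ ((Q.mul_mem_cancel_left (Q.inv_mem ((mA c).1 hc).1)).1 this)
  · exfalso
    have e1 : i * b * i⁻¹ = z * b := by
      have := t1 k2 ri h.iQ
      rw [show i * b * i⁻¹ = (b * i * b⁻¹ * i⁻¹)⁻¹ * b by group, this, mul_inv_cancel_right, inv_eq_of_mul_eq_one_right zz]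
    rw [e1, ← conj_mul, ← conj_mul, ← conj_mul, az, ab, cj1.1 (cz k1 zj (one_mem _)), mul_assoc, ← mul_assoc b, bz] at rel
    exact z1 (by simpa [mul_assoc] using rel)
  · exfalso
    rw [cj2.1 (cz k2 zi (one_mem _)), ← conj_mul, ← conj_mul, az, ab, t1 k1 pj h.jQ, ← mul_assoc z z, zz, one_mul] at rel
    exact z1 (by simpa using rel.symm)
  · have r1 : Rz z (x * i * x⁻¹) k := by
      rw [ea]; exact (k1.mul zz (h.zc pQ) (Or.inl rfl)).trans zz (Or.inr ek)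
    have r2 : Rz z (x * j * x⁻¹) l := by
      rw [eb]; exact (k2.mul zz (h.zc rQ) (Or.inl rfl)).trans zz (Or.inr el)
    refine ⟨x, xz, r1, r2, ?_, ?_⟩
    · rw [fk x (cjT.1 xX p pA), ← gk]
      exact (gk ▸ r1.inv zz (h.zc h.kQ)).mul zz (h.zc (Q.inv_mem h.kQ)) (Or.inl rfl)
    · rw [fl x (cjT.1 xX r rA), ← gl]
      exact (gl ▸ r2.inv zz (h.zc h.lQ)).mul zz (h.zc (Q.inv_mem h.lQ)) (Or.inl rfl)

theorem main : SectionalPRankLE 2 4 G := by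
  rcases h.step with k | ⟨x, xz, x1, x2, -, -⟩
  · exact k
  rcases h.swap.step with k | ⟨y, yz, -, -, y1, y2⟩
  · exact k
  exfalso
  have zz := h.zz
  have gz : y * x * z * (y * x)⁻¹ = z := by rw [show y * x * z * (y * x)⁻¹ = y * (x * z * x⁻¹) * y⁻¹ by group, xz, yz]
  have g1 : Rz z (y * x * i * (y * x)⁻¹) (j * i⁻¹) := by
    rw [show y * x * i * (y * x)⁻¹ = y * (x * i * x⁻¹) * y⁻¹ by group]
    refine (x1.conj yz).trans zz ?_
    rw [show y * k * y⁻¹ = y * (k * l) * y⁻¹ * (y * l * y⁻¹)⁻¹ by group]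
    exact y2.mul zz (h.zc h.jQ) (y1.inv zz (h.zc h.iQ))
  have g2 : Rz z (y * x * j * (y * x)⁻¹) i := by
    rw [show y * x * j * (y * x)⁻¹ = y * (x * j * x⁻¹) * y⁻¹ by group]
    exact (x2.conj yz).trans zz y1
  generalize y * x = g at gz g1 g2
  have g3 : Rz z (g * (j * i⁻¹) * g⁻¹) j := by
    rw [show g * (j * i⁻¹) * g⁻¹ = g * j * g⁻¹ * (g * i * g⁻¹)⁻¹ by group]
    refine (g2.mul zz (h.zc h.iQ) (g1.inv zz (h.zc (Q.mul_mem h.jQ (Q.inv_mem h.iQ))))).trans zz (Or.inl ?_)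
    rw [mul_inv_rev, inv_inv, ← mul_assoc, h.ii, ← h.jj]; group
  let P : Subgroup G :=
    { carrier := {g | g * z * g⁻¹ = z ∧ Rz z (g * i * g⁻¹) i}
      one_mem' := ⟨by group, Or.inl (by group)⟩
      mul_mem' := fun {a b} ha hb => ⟨by rw [show a * b * z * (a * b)⁻¹ = a * (b * z * b⁻¹) * a⁻¹ by group, hb.1, ha.1], by
        rw [show a * b * i * (a * b)⁻¹ = a * (b * i * b⁻¹) * a⁻¹ by group]; exact (hb.2.conj ha.1).trans zz ha.2⟩
      inv_mem' := fun {a} ha => by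
        have e : a⁻¹ * z * a⁻¹⁻¹ = z := by conv_lhs => rw [← ha.1]
                                           group
        refine ⟨e, ?_⟩
        have := ha.2.conj e
        rw [show a⁻¹ * (a * i * a⁻¹) * a⁻¹⁻¹ = i by group] at this
        rcases this with k | k
        · exact Or.inl k.symm
        · exact Or.inr (by conv_rhs => rw [k, ← mul_assoc, zz, one_mul]) }
  have p3 : g ^ 3 ∈ P := ⟨by rw [pow_three, show g * (g * g) * z * (g * (g * g))⁻¹ = g * (g * (g * z * g⁻¹) * g⁻¹) * g⁻¹ by group, gz, gz, gz], by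
    rw [pow_three, show g * (g * g) * i * (g * (g * g))⁻¹ = g * (g * (g * i * g⁻¹) * g⁻¹) * g⁻¹ by group]
    exact (((g1.conj gz).trans zz g3).conj gz).trans zz g2⟩
  have p1 : g ∈ P := zpowers_le.2 p3 (mem_zpowers_pow_iff.2 (by
    have := Fact.mk Nat.prime_two
    obtain ⟨n, hn⟩ := IsPGroup.iff_orderOf.1 h.pg g
    rw [hn]; exact Nat.Coprime.pow_right n (by norm_num)))
  have k : Commute i (g * i * g⁻¹) := by
    rcases p1.2 with e | e
    exacts [e.symm ▸ Commute.refl i, e.symm ▸ Commute.mul_right (h.zc h.iQ) (Commute.refl i)]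
  have k2 : Commute i (j * i⁻¹) := by
    rcases g1 with e | e <;> rw [e] at k
    · exact k
    · simpa using (Commute.inv_right (h.zc h.iQ)).mul_right k
  have := h.ij
  rw [mul_assoc, k2.eq] at this
  exact h.z1 (by simpa using this.symm)

end QQ
end H04.HE
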