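import Mathlib
import Cfsg.Agent.L.PSL2Max
import Cfsg.Agent.BG.Api2

/-! Hall `{2,3}`-subgroups of `PSL₂(q)`. -/

set_option autoImplicit false
open Cfsg Matrix MulAction L.Dk
open scoped MatrixGroups

namespace H04.Hall23

theorem split23 {N : ℕ} (hN : N ≠ 0) :
    ∃ k, N = 2 ^ N.factorization 2 * 3 ^ N.factorization 3 * k ∧ ¬ 2 ∣ k ∧ ¬ 3 ∣ k := by
  have h2 := Nat.ordProj_dvd N 2
  have h3 := Nat.ordProj_dvd N 3
  have hc : (2 ^ N.factorization 2).Coprime (3 ^ N.factorization 3) := Nat.Coprime.pow _ _ (by norm_num)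
  obtain ⟨k, hk⟩ := hc.mul_dvd_of_dvd_of_dvd h2 h3
  refine ⟨k, hk, ?_, ?_⟩
  · rintro ⟨c, rfl⟩
    apply Nat.pow_succ_factorization_not_dvd hN Nat.prime_two
    exact ⟨3 ^ N.factorization 3 * c, hk.trans (by ring)⟩
  · rintro ⟨c, rfl⟩
    apply Nat.pow_succ_factorization_not_dvd hN Nat.prime_three
    exact ⟨2 ^ N.factorization 2 * c, hk.trans (by ring)⟩

theorem hall_iff {G : Type*} [Group G] [Finite G] {m k : ℕ} (hG : Nat.card G = m * k)
    (hm : ∀ r : ℕ, r.Prime → r ∣ m → r = 2 ∨ r = 3) (h2 : ¬ 2 ∣ k) (h3 : ¬ 3 ∣ k) (H : Subgroup G) :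
    IsPiHall ({2, 3} : Set ℕ) H ↔ Nat.card H = m := by
  have e := H.card_mul_index
  rw [hG] at e
  constructor
  · rintro ⟨ha, hb⟩
    have c1 : (Nat.card H).Coprime k := Nat.coprime_of_dvd fun r hr h1 h => by
      rcases ha r hr h1 with rfl | rfl
      · exact h2 h
      · exact h3 h
    have c2 : m.Coprime H.index := Nat.coprime_of_dvd fun r hr h1 h => hb r hr (hm r hr h1) h
    exact Nat.dvd_antisymm (c1.dvd_of_dvd_mul_right (e ▸ dvd_mul_right _ _))
      (c2.dvd_of_dvd_mul_right (e ▸ dvd_mul_right _ _))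
  · intro h
    have hi : H.index = k := by
      rw [h] at e
      exact Nat.eq_of_mul_eq_mul_left (h ▸ Nat.card_pos) e
    refine ⟨fun r hr h1 => hm r hr (h ▸ h1), fun r hr h1 => ?_⟩
    rw [hi]
    rcases h1 with rfl | rfl
    · exact h2
    · exact h3

theorem main {F : Type*} [Field F] [Fintype F] {p : ℕ} [Fact p.Prime] [CharP F p]
    (hp : 5 ≤ p) (q : ℕ) (hq : Fintype.card F = q) :
    (∃ H : Subgroup PSL(2, F), IsPiHall ({2, 3} : Set ℕ) H) ↔
      (3 ∣ q - 1 ∧ q % 4 = 1) ∨ (3 ∣ q + 1 ∧ q % 4 = 3) ∨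
        2 ^ (q ^ 2 - 1).factorization 2 * 3 ^ (q ^ 2 - 1).factorization 3 = 24 ∨
        2 ^ (q ^ 2 - 1).factorization 2 * 3 ^ (q ^ 2 - 1).factorization 3 = 48 := by
  have pp : p.Prime := Fact.out
  obtain ⟨n, -, hn⟩ := FiniteField.card F p
  rw [hq] at hn
  have hq5 : 5 ≤ q := hn ▸ hp.trans (Nat.le_self_pow n.ne_zero p)
  have q2 : ¬ 2 ∣ q := fun h => by
    have := (Nat.prime_dvd_prime_iff_eq Nat.prime_two pp).1 (Nat.prime_two.dvd_of_dvd_pow (hn ▸ h)); omega
  have q3 : ¬ 3 ∣ q := fun h => by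
    have := (Nat.prime_dvd_prime_iff_eq Nat.prime_three pp).1 (Nat.prime_three.dvd_of_dvd_pow (hn ▸ h)); omega
  have hd : dd F = 2 := by rcases dd_cases (F := F) with h | h <;> omega
  have hc := card_psl (F := F)
  rw [hd, hq] at hc
  have hN : q ^ 2 - 1 ≠ 0 := by rw [sq_sub_one]; exact Nat.mul_ne_zero (by omega) (by omega)
  obtain ⟨k, hk, k2, k3⟩ := split23 hN
  have h8 : 8 ∣ q ^ 2 - 1 := by
    obtain ⟨t, rfl⟩ : ∃ t, q = 2 * t + 1 := ⟨q / 2, by omega⟩
    obtain ⟨u, hu⟩ := Nat.even_mul_succ_self t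
    exact ⟨u, by rw [sq_sub_one, Nat.add_sub_cancel]; nlinarith⟩
  have h3 : 3 ∣ q ^ 2 - 1 := by
    rw [sq_sub_one]
    have aux : ∀ q : ℕ, ¬ 3 ∣ q → 3 ∣ q + 1 ∨ 3 ∣ q - 1 := fun q h => by omega
    rcases aux q q3 with h | h
    · exact h.mul_right _
    · exact h.mul_left _
  have ha : 3 ≤ (q ^ 2 - 1).factorization 2 := (Nat.prime_two.pow_dvd_iff_le_factorization hN).1 h8
  have hb : 1 ≤ (q ^ 2 - 1).factorization 3 := (Nat.prime_three.pow_dvd_iff_le_factorization hN).1 (by simpa using h3)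
  generalize (q ^ 2 - 1).factorization 2 = a at *
  generalize (q ^ 2 - 1).factorization 3 = b at *
  obtain ⟨a, rfl⟩ : ∃ c, a = c + 3 := ⟨a - 3, by omega⟩
  obtain ⟨b, rfl⟩ : ∃ c, b = c + 1 := ⟨b - 1, by omega⟩
  have hG : Nat.card PSL(2, F) = (12 * (2 ^ a * 3 ^ b)) * (q * k) := by
    apply Nat.eq_of_mul_eq_mul_left (by norm_num : 0 < 2)
    rw [hc, hk]; ring
  have hm : ∀ r : ℕ, r.Prime → r ∣ 12 * (2 ^ a * 3 ^ b) → r = 2 ∨ r = 3 := fun r hr h => by
    rw [show 12 * (2 ^ a * 3 ^ b) = 2 ^ (a + 2) * 3 ^ (b + 1) by ring] at h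
    exact (hr.dvd_mul.1 h).imp (fun h => (Nat.prime_dvd_prime_iff_eq hr Nat.prime_two).1 (hr.dvd_of_dvd_pow h))
      (fun h => (Nat.prime_dvd_prime_iff_eq hr Nat.prime_three).1 (hr.dvd_of_dvd_pow h))
  have hI := hall_iff hG hm (fun h => ((Nat.prime_two.dvd_mul).1 h).elim q2 k2)
    (fun h => ((Nat.prime_three.dvd_mul).1 h).elim q3 k3)
  have e24 : 2 ^ (a + 3) * 3 ^ (b + 1) = 24 * (2 ^ a * 3 ^ b) := by ring
  rw [e24] at hk ⊢
  set m := 2 ^ a * 3 ^ b with hmm
  have h2F : (2 : F) ≠ 0 := L.two_ne_zero_of_charP p (by omega)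
  constructor
  · rintro ⟨H, hH⟩
    have hc' := (hI H).1 hH
    have hpH : ¬ p ∣ Nat.card H := fun h => by
      have : p = 2 ∨ p = 3 := hH.1 p pp h
      omega
    have hpK : ∀ (K : Type) [Field K] [Fintype K] (j : ℕ), 1 ≤ j → Fintype.card K ^ j = Fintype.card F →
        p ∣ Fintype.card K := fun K _ _ j hj h => pp.dvd_of_dvd_pow (h ▸ char_dvd_card p)
    have hodd : ∀ c, q ^ 2 - 1 = 24 * m * k → 12 * m * c = q - 1 ∨ 12 * m * c = q + 1 → ¬ 2 ∣ c := by
      rintro _ h1 h ⟨c, rfl⟩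
      rw [sq_sub_one] at h1
      apply k2
      have hm0 : 0 < 24 * m := by positivity
      rcases h with h | h
      · obtain ⟨t, ht⟩ : 2 ∣ q + 1 := by omega
        rw [← h, ht] at h1
        exact ⟨t * c, Nat.eq_of_mul_eq_mul_left hm0 (by rw [← h1]; ring)⟩
      · obtain ⟨t, ht⟩ : 2 ∣ q - 1 := by omega
        rw [← h, ht] at h1
        exact ⟨t * c, Nat.eq_of_mul_eq_mul_left hm0 (by rw [← h1]; ring)⟩
    rcases clsPSL p H with ⟨x, h⟩ | ⟨h, -⟩ | ⟨C, h, hpC, hi, -⟩ | ⟨⟨e⟩⟩ | ⟨⟨e⟩⟩ | ⟨⟨e⟩⟩ |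
      ⟨K, _, _, j, hj, hK, ⟨e⟩⟩ | ⟨K, _, _, j, hj, hK, ⟨e⟩⟩
    · exfalso
      have hle : H ≤ stabilizer PSL(2, F) x := fun g hg => h ⟨g, hg⟩
      have := Subgroup.index_dvd_of_le hle
      rw [index_stab, hq] at this
      exact hH.2 2 Nat.prime_two (by simp) (Dvd.dvd.trans (by omega) this)
    · exfalso
      have := card_cyc_dvd p H.subtype Subtype.val_injective hpH
      rw [hd, hc', hq] at this
      rcases this with ⟨c, h⟩ | ⟨c, h⟩
      · exact hodd (2 * c) hk (Or.inl (by rw [h]; ring)) (dvd_mul_right _ _)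
      · exact hodd (2 * c) hk (Or.inr (by rw [h]; ring)) (dvd_mul_right _ _)
    · have := card_cyc_dvd p (H.subtype.comp C.subtype) (Subtype.val_injective.comp Subtype.val_injective) hpC
      have e := C.card_mul_index
      rw [hi, hc', mul_comm] at e
      rw [hd, e, hq] at this
      rcases this with ⟨c, h⟩ | ⟨c, h⟩
      · left; rw [mul_assoc] at h; omega
      · right; left; rw [mul_assoc] at h; omega
    · rw [Nat.card_congr e.toEquiv, card_A4] at hc'; omega
    · rw [Nat.card_congr e.toEquiv, card_S4] at hc'; omega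
    · rw [Nat.card_congr e.toEquiv] at hc'
      rcases hH.1 5 (by norm_num) (by rw [Nat.card_congr e.toEquiv, card_A5]; norm_num) with h | h <;> simp at h
    · exact absurd (by rw [Nat.card_congr e.toEquiv, card_PGL2]; exact (hpK K j hj hK).mul_right _) hpH
    · refine absurd ?_ hpH
      have := card_psl (F := K)
      rw [Nat.card_congr e.toEquiv]
      have h1 : p ∣ dd K * Nat.card PSL(2, K) := this ▸ (hpK K j hj hK).mul_right _
      refine (pp.dvd_mul.1 h1).resolve_left fun h => ?_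
      rcases dd_cases (F := K) with h' | h' <;> rw [h'.2] at h <;> have := Nat.le_of_dvd (by norm_num) h <;> omega
  · have key : ∀ s : SL(2, F), (s : L.M2 F).trace ^ 2 ≠ 4 → ∀ u v, 2 * Nat.card (torusBar s) = u → q ^ 2 - 1 = u * v →
        ¬ 4 ∣ q * v → ¬ 3 ∣ v → ∃ H : Subgroup PSL(2, F), IsPiHall ({2, 3} : Set ℕ) H := by
      intro s hs u v h1 h2 h4 h3
      have hD := card_torusNBar hs
      have hpos : 0 < Nat.card (torusBar s) := Nat.card_pos
      haveI := isCyclic_torusBar hs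
      haveI : IsCyclic ((torusBar s).subgroupOf (torusNBar s)) :=
        isCyclic_of_surjective _ (Subgroup.subgroupOfEquivOfLe (torusBar_le s)).symm.surjective
      have hsol : Group.IsSolvable (torusNBar s) := isSolvable_of_index_two ((torusBar s).subgroupOf (torusNBar s)) (by
        have := ((torusBar s).subgroupOf (torusNBar s)).card_mul_index
        rw [Nat.card_congr (Subgroup.subgroupOfEquivOfLe (torusBar_le s)).toEquiv, hD, mul_comm 2] at this
        exact Nat.eq_of_mul_eq_mul_left hpos this)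
      obtain ⟨H, hH⟩ := BG.hall_exists ({2, 3} : Set ℕ) hsol
      have hi : 2 * (torusNBar s).index = q * v := by
        have := (torusNBar s).card_mul_index
        rw [hD, h1] at this
        apply Nat.eq_of_mul_eq_mul_left (show 0 < u by omega)
        rw [mul_left_comm, this, hc, h2]; ring
      refine ⟨H, hH.2.1, fun r hr hπ h => ?_⟩
      rw [← Subgroup.relIndex_mul_index hH.1] at h
      rcases hr.dvd_mul.1 h with h | h
      · exact hH.2.2 r hr hπ h
      · rcases hπ with rfl | rfl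
        · exact h4 (by omega)
        · exact ((Nat.prime_three.dvd_mul).1 (show 3 ∣ q * v by omega)).elim q3 h3
    rintro (⟨h1, h2⟩ | ⟨h1, h2⟩ | h | h)
    · obtain ⟨s, hs, e⟩ := exists_torus_sub (F := F) (by omega)
      rw [hd, hq] at e
      refine key s hs _ (q + 1) e (by rw [sq_sub_one, mul_comm]) ?_ (by omega)
      rw [Nat.dvd_iff_mod_eq_zero, Nat.mul_mod, Nat.add_mod, h2]; norm_num
    · obtain ⟨s, hs, e⟩ := exists_torus_add (F := F)
      rw [hd, hq] at e
      refine key s hs _ (q - 1) e (by rw [sq_sub_one]) ?_ (by omega)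
      rw [Nat.dvd_iff_mod_eq_zero, Nat.mul_mod, show (q - 1) % 4 = 2 by omega, h2]; norm_num
    · obtain ⟨H, ⟨e⟩⟩ := exists_subgroup_of_injective (exists_A4_psl h2F)
      exact ⟨H, (hI H).2 (by rw [Nat.card_congr e.toEquiv, card_A4]; omega)⟩
    · have h16 : (q ^ 2 - 1) % 16 = 0 := by rw [hk, h]; omega
      obtain ⟨H, ⟨e⟩⟩ := exists_subgroup_of_injective (exists_S4_psl h2F (FiniteField.isSquare_two_iff.2 (by
        rw [hq]
        have h1 : q ^ 2 % 16 = 1 := by have : 1 ≤ q ^ 2 := Nat.one_le_pow _ _ (by omega); omega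
        rw [Nat.pow_mod] at h1
        have : q % 16 < 16 := Nat.mod_lt _ (by norm_num)
        constructor <;> intro h <;>
          rcases (by omega : q % 16 = q % 8 ∨ q % 16 = q % 8 + 8) with h2 | h2 <;> rw [h2, h] at h1 <;> norm_num at h1)))
      exact ⟨H, (hI H).2 (by rw [Nat.card_congr e.toEquiv, card_S4]; omega)⟩

end H04.Hall23
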