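import Cfsg.Agent.H06.J0

/-! Part U3 of S5566, first half: involutions fixing `B`, and involutions centralizing `Y`. -/

set_option autoImplicit false
open Cfsg.Agent.H06.J

namespace H04.JF
universe u

variable {V : Type u} [AddCommGroup V] [Module (ZMod 2) V] [Finite V] {Γ : Type u} [Group Γ] [Finite Γ]
  {T : Γ → V →+ V} {d : Γ} {M K Y : Subgroup Γ} {β : V →+ V →+ ZMod 2} {q : V → ZMod 2} {B : AddSubgroup V}

theorem aa (v : V) : v + v = 0 := by
  rw [← two_smul (ZMod 2) v, show (2 : ZMod 2) = 0 from rfl, zero_smul]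

theorem cm2 {E : Subgroup Γ} (h : ∀ g ∈ E, g * g = 1) {a b : Γ} (ha : a ∈ E) (hb : b ∈ E) : a * b = b * a := by
  have h1 := h _ (mul_mem ha hb)
  have h2 : a⁻¹ = a := inv_eq_of_mul_eq_one_right (h a ha)
  have h3 : b⁻¹ = b := inv_eq_of_mul_eq_one_right (h b hb)
  rw [← inv_eq_of_mul_eq_one_right h1, mul_inv_rev, h2, h3]

theorem cY (g : Gj T d M β q) (hx : Hx d K Y) (hK : K ≤ M) :
    ∀ g ∈ K, g * g = 1 → (∀ y ∈ Y, g * y = y * g) → g ∈ Y := by
  intro e he e2 ec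
  have hN : ∀ k, k ∈ K ⊓ Subgroup.centralizer (Y : Set Γ) ↔ k ∈ K ∧ ∀ y ∈ Y, y * k = k * y := fun k => Iff.rfl
  rcases hx.s2 (K ⊓ Subgroup.centralizer (Y : Set Γ)) inf_le_left
    (fun y hy => (hN y).2 ⟨hx.YK hy, fun y' hy' => cm2 hx.Y2 hy' hy⟩)
    ((hN d).2 ⟨hx.dK, fun y hy => g.Md y (hK (hx.YK hy))⟩)
    (fun k hk n hn => (hN _).2 ⟨mul_mem (mul_mem hk ((hN n).1 hn).1) (inv_mem hk), fun y hy => by
      have h := ((hN n).1 hn).2 _ (hx.nY k⁻¹ (inv_mem hk) y hy)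
      calc y * (k * n * k⁻¹) = k * (k⁻¹ * y * k⁻¹⁻¹ * n) * k⁻¹ := by group
        _ = k * n * k⁻¹ * y := by rw [h]; group⟩) with h | h
  · exfalso
    have al : ∀ y y' : Y, y ≠ 1 → y' ≠ 1 → y = y' := fun y y' h1 h2 => by
      obtain ⟨k, hk, h3⟩ := hx.tr y y.2 y' y'.2 (fun e => h1 (Subtype.ext e)) (fun e => h2 (Subtype.ext e))
      refine Subtype.ext ?_
      rw [← h3, ← ((hN k).1 (h hk)).2 y y.2]; group
    haveI := Fintype.ofFinite Y
    obtain ⟨a, b, c, ab, ac, bc⟩ := Fintype.two_lt_card_iff.1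
      (show 2 < Fintype.card Y by rw [← Nat.card_eq_fintype_card, hx.cY]; norm_num)
    by_cases ha : a = 1
    · exact bc (al b c (fun e => ab (ha.trans e.symm)) (fun e => ac (ha.trans e.symm)))
    by_cases hb : b = 1
    · exact ac (al a c ha (fun e => bc (hb.trans e.symm)))
    exact ab (al a b ha hb)
  · exact h e ((hN e).2 ⟨he, fun y hy => (ec y hy).symm⟩) e2

theorem fx (g : Gj T d M β q) (hx : Hx d K Y) (hK : K ≤ M) (hd : d ∈ ⁅K, K⁆) (p : Pj T d K Y q B) :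
    ∀ g, g * g = 1 → (g ∈ M → g ∈ K) → (∀ v ∈ B, T g v = v) → g ∈ Y := by
  intro e e2 eK eB
  obtain ⟨v0, hv, v1⟩ : ∃ v ∈ B, v ≠ 0 := by
    by_contra h
    push Not at h
    have : B = ⊥ := (AddSubgroup.eq_bot_iff_forall B).2 h
    have h2 := p.cB
    rw [this, AddSubgroup.card_bot] at h2
    omega
  by_cases hM : e ∈ M
  swap
  · exfalso
    have h1 : T d v0 = T d (T d v0) := by
      conv_lhs => rw [← eB _ (p.Bω v0 hv), ← g.mul, g.nM e hM, g.mul, g.mul, eB v0 hv]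
    have h2 := g.hf v0
    rw [← h1, add_assoc, aa, add_zero] at h2
    exact v1 h2
  have hB : ∀ i : ℕ, ∀ v ∈ B, T (d ^ i) v ∈ B := fun i => p.KB _ (pow_mem hx.dK i)
  let N : Subgroup Γ :=
    { carrier := {k | k ∈ K ∧ ∃ i : ℕ, ∀ v ∈ B, T k v = T (d ^ i) v}
      one_mem' := ⟨one_mem K, 0, fun v _ => by rw [pow_zero]⟩
      mul_mem' := by
        rintro a b ⟨ha, i, hi⟩ ⟨hb, j, hj⟩
        exact ⟨mul_mem ha hb, i + j, fun v hv => by rw [g.mul, hj v hv, hi _ (hB j v hv), ← g.mul, pow_add]⟩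
      inv_mem' := by
        rintro a ⟨ha, i, hi⟩
        refine ⟨inv_mem ha, 2 * i, fun v hv => ?_⟩
        have h3 : d ^ i * d ^ (2 * i) = 1 := by
          rw [← pow_add, show i + 2 * i = 3 * i by ring, pow_mul, pow_three, g.d3, one_pow]
        have h : T a (T (d ^ (2 * i)) v) = v := by rw [hi _ (hB _ v hv), ← g.mul, h3, g.one]
        conv_lhs => rw [← h, ← g.mul, inv_mul_cancel, g.one] }
  have hN : ∀ k, k ∈ N ↔ k ∈ K ∧ ∃ i : ℕ, ∀ v ∈ B, T k v = T (d ^ i) v := fun k => Iff.rfl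
  rcases hx.s2 N (fun k hk => hk.1)
    (fun y hy => (hN y).2 ⟨hx.YK hy, 0, fun v hv => by rw [pow_zero, g.one, (p.mB v).1 hv y hy]⟩)
    ((hN d).2 ⟨hx.dK, 1, fun v _ => by rw [pow_one]⟩)
    (fun k hk n hn => by
      obtain ⟨hn, i, hi⟩ := (hN n).1 hn
      refine (hN _).2 ⟨mul_mem (mul_mem hk hn) (inv_mem hk), i, fun v hv => ?_⟩
      have c : Commute k d := g.Md k (hK hk)
      rw [g.mul, g.mul, hi _ (p.KB _ (inv_mem hk) v hv), ← g.mul, ← g.mul, (c.pow_right i).eq, mul_inv_cancel_right]) with h | h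
  · exfalso
    let F : Subgroup Γ :=
      { carrier := {k | ∀ v ∈ B, T k v = v}
        one_mem' := fun v _ => g.one v
        mul_mem' := fun {a b} ha hb v hv => by rw [g.mul, hb v hv, ha v hv]
        inv_mem' := fun {a} ha v hv => by conv_lhs => rw [← ha v hv, ← g.mul, inv_mul_cancel, g.one] }
    have hF : ⁅K, K⁆ ≤ F := Subgroup.commutator_le.2 fun a ha b hb v hv => by
      obtain ⟨-, i, hi⟩ := (hN a).1 (h ha)
      obtain ⟨-, j, hj⟩ := (hN b).1 (h hb)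
      have hu := p.KB _ (mul_mem (inv_mem ha) (inv_mem hb)) v hv
      have c : T a (T b (T (a⁻¹ * b⁻¹) v)) = T b (T a (T (a⁻¹ * b⁻¹) v)) := by
        rw [hj _ hu, hi _ (hB j _ hu), hi _ hu, hj _ (hB i _ hu), ← g.mul, ← g.mul (d ^ j), pow_mul_comm]
      rw [commutatorElement_def, mul_assoc, mul_assoc, g.mul, g.mul, c, ← g.mul, ← g.mul]
      simp [mul_assoc, g.one]
    have h1 : T d v0 = v0 := hF hd v0 hv
    have h2 := g.hf v0
    rw [h1, h1, aa, zero_add] at h2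
    exact v1 h2
  · exact h e ((hN e).2 ⟨eK hM, 0, fun v hv => by rw [pow_zero, g.one, eB v hv]⟩) e2

end H04.JF
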