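import Mathlib

/-! Part N89 of S5567 (Mathlib only): a Sylow 89-argument. -/

set_option autoImplicit false

namespace H04.KN89
universe u

theorem fp {H : Type u} [Group H] [Finite H] (r : ℕ) [Fact r.Prime] {g : H} (hg : g ^ r = 1) (W : Subgroup H)
    (hW : ∀ w ∈ W, g * w * g⁻¹ ∈ W) : Nat.card W ≡ Nat.card ↥(W ⊓ Subgroup.centralizer {g}) [MOD r] := by
  have h1 : Subgroup.zpowers g ≤ Subgroup.normalizer (W : Set H) :=
    (Subgroup.zpowers_le).2 (Subgroup.mem_normalizer_fintype hW)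
  letI : MulAction (Subgroup.zpowers g) W :=
    { smul := fun p w => ⟨p * w * (p : H)⁻¹, (Subgroup.mem_set_normalizer_iff.1 (h1 p.2) w).1 w.2⟩
      one_smul := fun w => Subtype.ext (by change (1 : H) * w * 1⁻¹ = w; simp)
      mul_smul := fun p p' w => Subtype.ext (by
        change ((p : H) * p') * w * ((p : H) * p')⁻¹ = p * (p' * w * (p' : H)⁻¹) * (p : H)⁻¹; group) }
  have h2 : IsPGroup r (Subgroup.zpowers g) := by
    rintro ⟨_, k, rfl⟩
    exact ⟨1, Subtype.ext (by change (g ^ k) ^ (r ^ 1) = 1; rw [pow_one, ← zpow_natCast, ← zpow_mul, mul_comm, zpow_mul, zpow_natCast, hg, one_zpow])⟩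
  refine (h2.card_modEq_card_fixedPoints W).trans ?_
  rw [Nat.card_congr (α := MulAction.fixedPoints (Subgroup.zpowers g) W) (β := ↥(W ⊓ Subgroup.centralizer {g}))
    { toFun := fun w => ⟨w.1.1, w.1.2, Subgroup.mem_centralizer_singleton_iff.2 (by
        have : g * w.1.1 * g⁻¹ = w.1.1 := congrArg Subtype.val (w.2 ⟨g, Subgroup.mem_zpowers g⟩)
        exact (mul_inv_eq_iff_eq_mul.1 this).symm)⟩
      invFun := fun w => ⟨⟨w.1, w.2.1⟩, by
        rintro ⟨_, k, rfl⟩
        have c : Commute w.1 g := Subgroup.mem_centralizer_singleton_iff.1 w.2.2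
        exact Subtype.ext (by change g ^ k * w.1 * (g ^ k)⁻¹ = w.1; rw [← (c.zpow_right k).eq, mul_inv_cancel_right])⟩
      left_inv := fun _ => rfl
      right_inv := fun _ => rfl }]

theorem core {H : Type u} [Group H] [Finite H] (A : Subgroup H) [hA : A.Normal] (a2 : ∀ x ∈ A, x * x = 1) (cA : Nat.card A = 2048)
    (cen : ∀ m, (∀ x ∈ A, m * x = x * m) → m ∈ A) : Nat.card H ≠ 2047 * (2 ^ 21 * 135) := by
  intro cH
  haveI : Fact (Nat.Prime 89) := ⟨by norm_num⟩
  obtain ⟨P⟩ : Nonempty (Sylow 89 H) := inferInstance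
  have cP : Nat.card P = 89 := by
    obtain ⟨k, hk⟩ := IsPGroup.iff_card.1 P.2
    have h1 := (P : Subgroup H).card_mul_index
    have h2 := P.not_dvd_index
    rw [cH, hk] at h1
    rcases k with _ | _ | k
    · exfalso; apply h2; rw [pow_zero, one_mul] at h1; rw [h1]; norm_num
    · simpa using hk
    · exfalso
      have : 89 * 89 ∣ 2047 * (2 ^ 21 * 135) := h1 ▸ Dvd.dvd.mul_right ⟨89 ^ k, by ring⟩ _
      norm_num at this
  haveI : IsCyclic P := isCyclic_of_prime_card cP
  obtain ⟨g, hg⟩ : ∃ g : P, g ≠ 1 := by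
    haveI : Nontrivial P := Finite.one_lt_card_iff_nontrivial.1 (by omega)
    exact exists_ne 1
  have g89 : (g : H) ^ 89 = 1 := by
    have := pow_card_eq_one' (G := (P : Subgroup H)) (x := ⟨g, g.2⟩)
    rw [cP] at this; exact congrArg Subtype.val this
  have two : ∀ W ≤ A, Nat.card W ≡ 1 [MOD 89] → W = ⊥ ∨ W = A := fun W hW h => by
    have h1 := Subgroup.card_dvd_of_le hW
    rw [cA, show 2048 = 2 ^ 11 by norm_num] at h1
    obtain ⟨k, hk, e⟩ := (Nat.dvd_prime_pow Nat.prime_two).1 h1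
    have : k = 0 ∨ k = 11 := by
      rw [e] at h; interval_cases k <;> first | exact absurd h (by decide) | simp
    rcases this with rfl | rfl
    · exact Or.inl (Subgroup.card_eq_one.1 e)
    · exact Or.inr (Subgroup.eq_of_le_of_card_ge hW (by rw [e, cA]; norm_num))
  have inA : ∀ x : H, A ⊓ Subgroup.centralizer {x} = A → x ∈ A := fun x h => cen x fun y hy =>
    (Subgroup.mem_centralizer_singleton_iff.1 (inf_eq_left.1 h hy)).symm
  have fg : A ⊓ Subgroup.centralizer {(g : H)} = ⊥ := by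
    have h := fp 89 g89 A fun w hw => hA.conj_mem w hw g
    rw [cA] at h
    refine (two _ inf_le_left (h.symm.trans (by decide))).resolve_right fun e => hg (Subtype.ext ?_)
    have h2 := a2 _ (inA _ e)
    calc (g : H) = g * ((g : H) * g) ^ 44 := by rw [h2]; simp
      _ = 1 := by rw [← g89, ← sq, ← pow_mul, ← pow_succ']
  have cop : ∀ r : ℕ, r.Prime → ¬ 2048 ≡ 1 [MOD r] → ¬ r ∣ Nat.card (Subgroup.centralizer (P : Set H)) := fun r hr n h => by
    haveI := Fact.mk hr
    obtain ⟨x, hx⟩ := exists_prime_orderOf_dvd_card' r h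
    have c : (g : H) * x = x * g := x.2 g g.2
    have xr : (x : H) ^ r = 1 := by rw [← hx]; exact_mod_cast pow_orderOf_eq_one x
    have gc : (g : H) ∈ Subgroup.centralizer {(x : H)} := Subgroup.mem_centralizer_singleton_iff.2 c
    have h1 := fp 89 g89 (A ⊓ Subgroup.centralizer {(x : H)}) fun w hw => Subgroup.mem_inf.2 ⟨hA.conj_mem w hw.1 g,
      Subgroup.mul_mem _ (Subgroup.mul_mem _ gc (Subgroup.mem_inf.1 hw).2) (Subgroup.inv_mem _ gc)⟩
    rw [inf_right_comm, fg, bot_inf_eq, Subgroup.card_bot] at h1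
    rcases two _ inf_le_left h1 with e | e
    · have h2 := fp r xr A fun w hw => hA.conj_mem w hw x
      rw [e, cA, Subgroup.card_bot] at h2
      exact n h2
    · have : (x : H) ∈ A ⊓ Subgroup.centralizer {(g : H)} := ⟨inA _ e, Subgroup.mem_centralizer_singleton_iff.2 c.symm⟩
      rw [fg, Subgroup.mem_bot] at this
      rw [show x = 1 from Subtype.ext this, orderOf_one] at hx
      exact hr.one_lt.ne hx
  have c1 : Nat.card (Subgroup.centralizer (P : Set H)) ∣ 2047 := by
    have h := Subgroup.card_subgroup_dvd_card (Subgroup.centralizer (P : Set H))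
    rw [cH, show 2 ^ 21 * 135 = 2 ^ 21 * 3 ^ 3 * 5 by norm_num] at h
    refine Nat.Coprime.dvd_of_dvd_mul_right ?_ h
    refine Nat.Coprime.mul_right (Nat.Coprime.mul_right (Nat.Coprime.pow_right _ ?_) (Nat.Coprime.pow_right _ ?_)) ?_
    · exact ((Nat.Prime.coprime_iff_not_dvd Nat.prime_two).2 (cop 2 Nat.prime_two (by decide))).symm
    · exact ((Nat.Prime.coprime_iff_not_dvd Nat.prime_three).2 (cop 3 Nat.prime_three (by decide))).symm
    · exact ((Nat.Prime.coprime_iff_not_dvd Nat.prime_five).2 (cop 5 Nat.prime_five (by decide))).symm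
  have c2 : 89 ∣ Nat.card (Subgroup.centralizer (P : Set H)) := by
    refine cP.symm.dvd.trans (Subgroup.card_dvd_of_le fun x hx y hy => ?_)
    letI := IsCyclic.commGroup (α := P)
    exact congrArg Subtype.val (mul_comm (⟨y, hy⟩ : P) ⟨x, hx⟩)
  have b1 : ((P : Subgroup H).normalizerMonoidHom).ker.index ∣ 88 := by
    rw [Subgroup.index_ker]
    have := Subgroup.card_subgroup_dvd_card ((P : Subgroup H).normalizerMonoidHom).range
    rwa [IsCyclic.card_mulAut, cP, Nat.totient_prime (by norm_num)] at this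
  have b2 := ((P : Subgroup H).normalizerMonoidHom).ker.card_mul_index
  rw [Subgroup.normalizerMonoidHom_ker,
    Nat.card_congr (Subgroup.subgroupOfEquivOfLe (Subgroup.centralizer_le_normalizer _)).toEquiv,
    ← Subgroup.normalizerMonoidHom_ker] at b2
  have n1 := card_sylow_modEq_one 89 H
  rw [P.card_eq_index_normalizer] at n1
  have n2 := (Subgroup.normalizer ((P : Subgroup H) : Set H)).card_mul_index
  rw [cH, ← b2] at n2
  obtain ⟨a, ha⟩ := c2
  rw [ha] at c1
  have a1 : a ∣ 23 := Nat.dvd_of_mul_dvd_mul_left (by norm_num : 0 < 89) c1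
  change Nat.card (Subgroup.centralizer (P : Set H)) * _ * _ = _ at n2
  rw [ha] at n2
  change (Subgroup.normalizer ((P : Subgroup H) : Set H)).index % 89 = 1 % 89 at n1
  generalize (Subgroup.normalizer ((P : Subgroup H) : Set H)).index = n at n1 n2
  generalize ((P : Subgroup H).normalizerMonoidHom).ker.index = b at b1 n2
  have hb := Nat.le_of_dvd (by norm_num) b1
  rcases (Nat.dvd_prime (by norm_num : Nat.Prime 23)).1 a1 with rfl | rfl <;> interval_cases b <;> omega

theorem n89' {G : Type u} [Group G] [Finite G] {A N : Subgroup G} (a2 : ∀ x ∈ A, x * x = 1) (cA : Nat.card A = 2048) (AN : A ≤ N)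
    (nM : ∀ m ∈ N, ∀ x ∈ A, m * x * m⁻¹ ∈ A) (cen : ∀ m ∈ N, (∀ x ∈ A, m * x = x * m) → m ∈ A) :
    Nat.card N ≠ 2047 * (2 ^ 21 * 135) :=
  core (hA := ⟨fun x hx m => nM m m.2 x hx⟩) (A.subgroupOf N) (fun x hx => Subtype.ext (a2 x hx))
    (by rw [Nat.card_congr (Subgroup.subgroupOfEquivOfLe AN).toEquiv, cA])
    fun m h => cen m m.2 fun x hx => congrArg Subtype.val (h ⟨x, AN hx⟩ hx)

end H04.KN89
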