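import Cfsg.Agent.H04.A5b
import Cfsg.Agent.H04.ElemAb

/-! Extensions of a 2-group by `L₃(2)`: coordinates on a natural chief factor and sections of rank five. -/

set_option autoImplicit false
set_option synthInstance.maxSize 4000
open Cfsg BG Subgroup H02.Hig Matrix
open scoped commutatorElement

local notation "#" => Nat.card

namespace H04.L3

abbrev V := Fin 3 → ZMod 2
abbrev Mt := Matrix (Fin 3) (Fin 3) (ZMod 2)
def e1 : V := ![1, 0, 0]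
def t : Mt := !![1, 1, 0; 0, 1, 0; 0, 0, 1]
def ρ : Mt := !![1, 0, 0; 0, 0, 1; 0, 1, 1]

variable {G : Type*} [Group G] [Finite G]

structure Co (Q A B : Subgroup G) (φ : G → V) (M : G →* Mt) : Prop where
  nm : A.Normal
  add : ∀ {a b}, a ∈ A → b ∈ A → φ (a * b) = φ a + φ b
  ker : ∀ {a}, a ∈ A → (φ a = 0 ↔ a ∈ B)
  sur : ∀ v, ∃ a ∈ A, φ a = v
  eqv : ∀ g {a}, a ∈ A → φ (g * a * g⁻¹) = M g *ᵥ φ a
  mk1 : ∀ {g}, M g = 1 ↔ g ∈ Q
  ms : ∀ m, IsUnit m → ∃ g, M g = m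

theorem coord {Q A B : Subgroup G} [Q.Normal] [hA : A.Normal] [B.Normal] (sm : ∀ K : Subgroup G, K.Normal → Q ≤ K → K = Q ∨ K = ⊤)
    (ix : Q.index = 168) (le : B ≤ A) (sq : ∀ a ∈ A, a * a ∈ B) (c8 : # A = # B * 8) (hQ : ∀ q ∈ Q, ∀ a ∈ A, ⁅q, a⁆ ∈ B)
    {σ a : G} (ha : a ∈ A) (hσ : ⁅σ, a⁆ ∉ B) : ∃ φ M, Co Q A B φ M := by
  classical
  obtain ⟨π, hπ⟩ : ∃ π, π = QuotientGroup.mk' B := ⟨_, rfl⟩
  have k : ∀ x, π x = 1 ↔ x ∈ B := fun x => hπ ▸ QuotientGroup.eq_one_iff x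
  have := hA.map π (hπ ▸ QuotientGroup.mk'_surjective B)
  obtain ⟨e, Φ, he⟩ := exists_mulAut_equiv_GL (G := A.map π) (p := 2) (n := 3) (isMulCommutative_iff'.2 (by
    rintro _ ⟨x, hx, rfl⟩ _ ⟨y, hy, rfl⟩
    rw [← commutatorElement_eq_one_iff_mul_comm, ← map_commutatorElement, k]; exact comm_mem_of_sq sq hx hy)) (by
    rintro ⟨_, x, hx, rfl⟩; exact Subtype.ext (by simpa [pow_two] using (k _).2 (sq x hx))) (by
    have := H01.card_mul_relIndex le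
    rw [← relIndex_ker, hπ, QuotientGroup.ker_mk']
    exact Nat.eq_of_mul_eq_mul_left Nat.card_pos (this.trans c8))
  obtain ⟨θ, hθ⟩ : ∃ θ : G →* GL (Fin 3) (ZMod 2), θ = Φ.toMonoidHom.comp (MulAut.conjNormal.comp π) := ⟨_, rfl⟩
  have kθ : ∀ g, θ g = 1 ↔ ∀ a ∈ A, ⁅g, a⁆ ∈ B := fun g => by
    rw [hθ, MonoidHom.comp_apply, MulEquiv.coe_toMonoidHom, MulEquiv.map_eq_one_iff]
    refine ⟨fun h a ha => ?_, fun h => MulEquiv.ext ?_⟩
    · have := congrArg Subtype.val (DFunLike.congr_fun h ⟨π a, mem_map_of_mem π ha⟩)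
      rw [← k, commutatorElement_def, map_mul, map_mul, map_mul, map_inv, map_inv]
      exact mul_inv_eq_one.2 this
    · rintro ⟨_, a, ha, rfl⟩
      have := (k _).2 (h a ha)
      rw [commutatorElement_def, map_mul, map_mul, map_mul, map_inv, map_inv] at this
      exact Subtype.ext (mul_inv_eq_one.1 this)
  have kq : θ.ker = Q := (sm _ inferInstance fun q hq => (kθ q).2 (hQ q hq)).resolve_right fun h =>
    hσ ((kθ σ).1 (h.ge (mem_top σ)) a ha)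
  have sθ : θ.range = ⊤ := eq_top_of_card_eq _ (by rw [← index_ker, kq, ix, Matrix.card_GL_field]; simp [Fin.prod_univ_three])
  refine ⟨fun g => if h : g ∈ A then (e ⟨π g, mem_map_of_mem π h⟩).toAdd else 0, (Units.coeHom _).comp θ, hA, fun h1 h2 => ?_,
    fun h => ?_, fun v => ?_, fun g a h => ?_, fun {g} => ?_, fun m ⟨u, hu⟩ => ?_⟩
  · rw [dif_pos h1, dif_pos h2, dif_pos (mul_mem h1 h2), ← toAdd_mul, ← map_mul]
    exact congrArg (fun x => (e x).toAdd) (Subtype.ext (map_mul π _ _))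
  · rw [dif_pos h, toAdd_eq_zero, MulEquiv.map_eq_one_iff, Subtype.ext_iff]; exact k _
  · obtain ⟨⟨_, a, ha, rfl⟩, h⟩ := e.surjective (.ofAdd v)
    exact ⟨a, ha, by rw [dif_pos (show a ∈ A from ha), h]; rfl⟩
  · rw [dif_pos h, dif_pos (hA.conj_mem a h g), hθ]
    refine Eq.trans (congrArg (fun x => (e x).toAdd) (Subtype.ext ?_)) (he (MulAut.conjNormal (π g)) _)
    simp
  · rw [← kq, MonoidHom.mem_ker, MonoidHom.comp_apply, Units.coeHom_apply, Units.val_eq_one]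
  · obtain ⟨g, hg⟩ := sθ.ge (mem_top u)
    exact ⟨g, by rw [MonoidHom.comp_apply, hg, ← hu]; rfl⟩

theorem vv (v : V) : v + v = 0 := by revert v; decide

namespace Co
variable {Q A B : Subgroup G} {φ : G → V} {M : G →* Mt} (h : Co Q A B φ M)
include h

theorem one : φ 1 = 0 := by simpa using h.add (one_mem _) (one_mem _)

theorem inv {a : G} (ha : a ∈ A) : φ a⁻¹ = φ a := by
  have := h.add (inv_mem ha) ha
  rw [inv_mul_cancel, h.one] at this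
  rw [← add_zero (φ a⁻¹), ← vv (φ a), ← add_assoc, ← this, zero_add]

theorem eq {a b : G} (ha : a ∈ A) (hb : b ∈ A) (e : φ a = φ b) : a⁻¹ * b ∈ B :=
  (h.ker (mul_mem (inv_mem ha) hb)).1 (by rw [h.add (inv_mem ha) hb, h.inv ha, e, vv])

theorem tv (p f : V) (e : f ⬝ᵥ p = 0) : ∃ g, ∀ v, M g *ᵥ v = v + (f ⬝ᵥ v) • p := by
  obtain ⟨g, hg⟩ := h.ms (1 + vecMulVec p f) (IsUnit.of_mul_eq_one _ (by revert e p f; decide +kernel :
    (1 + vecMulVec p f) * (1 + vecMulVec p f) = 1))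
  exact ⟨g, fun v => by rw [hg]; clear hg e; revert p f v; decide +kernel⟩

theorem lift (pg : IsPGroup 2 Q) {m : Mt} (hm : m ^ 3 = 1) : ∃ r, r ^ 3 = 1 ∧ M r = m := by
  obtain ⟨g, rfl⟩ := h.ms m (IsUnit.of_pow_eq_one hm three_ne_zero)
  obtain ⟨k, hk⟩ := pg ⟨g ^ 3, h.mk1.1 (by rw [map_pow, hm])⟩
  have hk : (g ^ 3) ^ 2 ^ k = 1 := congrArg Subtype.val hk
  refine ⟨g ^ 4 ^ k, by rw [← pow_mul, mul_comm, pow_mul, show 4 = 2 * 2 from rfl, mul_pow, pow_mul, hk, one_pow], ?_⟩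
  rw [map_pow, pow_eq_pow_mod _ hm, Nat.pow_mod]; simp

theorem mx {r s : G} (h3 : r ^ 3 = 1) (hr : M r = ρ) (hs : M s = t * ρ) : M (s * r⁻¹) = t ∧ M r⁻¹ = ρ * ρ := by
  have : M r⁻¹ = ρ * ρ := by rw [inv_eq_of_mul_eq_one_right ((pow_three r).symm.trans h3), map_mul, hr]
  exact ⟨by rw [map_mul, hs, this]; decide +kernel, this⟩

omit h [Finite G] in
theorem ids {r s x y γ : G} (r3 : r ^ 3 = 1) (s3 : s ^ 3 = 1) (hx : x = s * r⁻¹) (hy : y = r * x * r⁻¹) (hγ : γ = x⁻¹ * y * x * y⁻¹) :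
    x * x * γ * (r * (x * x) * r⁻¹) = (r * (r * (x * x) * r⁻¹) * r⁻¹)⁻¹ ∧ y * (x * x) * y⁻¹ = x * x * (x⁻¹ * γ * x) * γ := by
  have e0 : x * y = (r * y * r⁻¹)⁻¹ := eq_inv_of_mul_eq_one_left (by
    calc _ = s ^ 3 * (r ^ 3)⁻¹ := by rw [hy, hx, pow_three, pow_three]; group
      _ = 1 := by rw [r3, s3]; group)
  refine ⟨?_, by rw [hγ]; group⟩
  calc _ = x * y * x * y⁻¹ * (r * x * r⁻¹ * (r * x * r⁻¹)) := by rw [hγ]; group
    _ = x * y * (x * y) := by rw [← hy]; group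
    _ = _ := by rw [e0, hy]; group

theorem mats {r s x y : G} (r3 : r ^ 3 = 1) (hr : M r = ρ) (hs : M s = t * ρ) (hx : x = s * r⁻¹) (hy : y = r * x * r⁻¹) :
    M x = t ∧ M y = ρ * t * (ρ * ρ) ∧ x ∉ Q ∧ y ∉ Q ∧ y * x ∉ Q ∧ x * x ∈ Q ∧ x⁻¹ * y * x * y⁻¹ ∈ Q ∧
      ∀ a ∈ A, (φ ⁅x, a⁆ = 0 ∨ φ ⁅x, a⁆ = e1) ∧ (φ ⁅y, a⁆ = 0 ∨ φ ⁅y, a⁆ = e1) := by
  obtain ⟨m1, m2⟩ := h.mx r3 hr hs
  rw [← hx] at m1
  have my : M y = ρ * t * (ρ * ρ) := by rw [hy, map_mul, map_mul, hr, m1, m2]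
  have i : ∀ g, M g * M g = 1 → M g⁻¹ = M g := fun g e => by
    rw [← mul_one (M g⁻¹), ← e, ← mul_assoc, ← map_mul, inv_mul_cancel, map_one, one_mul]
  refine ⟨m1, my, ?_, ?_, ?_, ?_, ?_, fun a ha => ?_⟩
  iterate 4 simp only [← h.mk1, map_mul, m1, my]; decide +kernel
  · simp only [← h.mk1, map_mul]
    rw [i x (by rw [m1]; decide +kernel), i y (by rw [my]; decide +kernel), m1, my]; decide +kernel
  simp only [commutatorElement_def, h.add (h.nm.conj_mem a ha _) (inv_mem ha), h.eqv _ ha, h.inv ha, m1, my]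
  generalize φ a = v
  revert v; decide +kernel

theorem core {r s x y γ : G} (r3 : r ^ 3 = 1) (s3 : s ^ 3 = 1) (hr : M r = ρ) (hs : M s = t * ρ) (hx : x = s * r⁻¹) (hy : y = r * x * r⁻¹)
    (hγ : γ = x⁻¹ * y * x * y⁻¹) (x2 : x * x ∈ A) : (φ (x * x) = 0 ∨ φ (x * x) = e1) ∧ γ ∈ A ∧ (φ γ = 0 ∨ φ γ = e1) := by
  have n := h.nm
  obtain ⟨m1, my, -⟩ := h.mats r3 hr hs hx hy
  obtain ⟨e, e'⟩ := ids r3 s3 hx hy hγ
  have a1 := n.conj_mem _ x2 r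
  have a2 := n.conj_mem _ a1 r
  have g : γ ∈ A := (mul_mem_cancel_left x2).1 ((mul_mem_cancel_right a1).1 (e ▸ inv_mem a2))
  have g' := n.conj_mem' _ g x
  have b1 := congrArg φ e
  have b2 := h.eqv x g'
  have b3 := h.eqv y x2
  have b4 := h.eqv x x2
  rw [h.add (mul_mem x2 g) a1, h.add x2 g, h.inv a2, h.eqv r a1, h.eqv r x2, hr] at b1
  rw [show x * (x⁻¹ * γ * x) * x⁻¹ = γ by group, m1] at b2
  rw [e', h.add (mul_mem x2 g') g, h.add x2 g', my] at b3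
  rw [show x * (x * x) * x⁻¹ = x * x by group, m1] at b4
  have := (by decide +kernel : ∀ a g g' : V, a + g + ρ *ᵥ a = ρ *ᵥ ρ *ᵥ a → g = t *ᵥ g' → a + g' + g = (ρ * t * (ρ * ρ)) *ᵥ a → a = t *ᵥ a →
    (a = 0 ∨ a = e1) ∧ (g = 0 ∨ g = e1)) _ _ _ b1 b2 b3 b4
  exact ⟨this.1, g, this.2⟩

end Co

omit [Finite G] in
def cz (D : Subgroup G) (x : G) : Subgroup G where
  carrier := {g | g ∈ N_(D) ∧ ⁅x, g⁆ ∈ D}
  one_mem' := ⟨one_mem _, by simp⟩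
  mul_mem' {a b} ha hb := ⟨mul_mem ha.1 hb.1, by
    rw [show ⁅x, a * b⁆ = ⁅x, a⁆ * (a * ⁅x, b⁆ * a⁻¹) by simp only [commutatorElement_def]; group]
    exact mul_mem ha.2 ((mem_normalizer_iff.1 ha.1 _).1 hb.2)⟩
  inv_mem' {a} ha := ⟨inv_mem ha.1, by
    rw [show ⁅x, a⁻¹⁆ = a⁻¹ * ⁅x, a⁆⁻¹ * a⁻¹⁻¹ by simp only [commutatorElement_def]; group]
    exact (mem_normalizer_iff.1 (inv_mem ha.1) _).1 (inv_mem ha.2)⟩

theorem nrm {D K : Subgroup G} (le : D ≤ K) (sq : ∀ k ∈ K, k * k ∈ D) : K ≤ N_(D) :=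
  le_norm_of_der_le (commutator_le.2 fun _ a _ b => comm_mem_of_sq sq a b) le

theorem step {D K : Subgroup G} (le : D ≤ K) (sq : ∀ k ∈ K, k * k ∈ D) {x : G} (x2 : x * x ∈ D) (hc : ∀ k ∈ K, ⁅x, k⁆ ∈ D) (hx : x ∉ K) :
    (∀ k ∈ K ⊔ zpowers x, k * k ∈ D) ∧ # (K ⊔ zpowers x : Subgroup G) = 2 * # K := by
  have n : x ∈ N_(K) := mem_normalizer_fintype fun k hk => (mul_mem_cancel_right (inv_mem hk)).1 (le (hc k hk))
  refine ⟨fun y hy => (N8.cas n (le x2) (inv_mem hy)).elim (fun a => sq y (inv_mem_iff.1 a)) fun a => ?_,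
    card_sup_zpowers (p := 2) K n hx (pow_two x ▸ le x2)⟩
  have b := inv_mem a
  obtain ⟨k, rfl⟩ : ∃ k, y = x * k := ⟨_, (mul_inv_cancel_left x y).symm⟩
  have c : k ∈ K := by simpa using b
  rw [show x * k * (x * k) = ⁅x, k⁆ * (k * (x * x) * k⁻¹) * (k * k) by rw [commutatorElement_def]; group]
  exact mul_mem (mul_mem (hc k c) ((mem_normalizer_iff.1 (nrm le sq c) _).1 x2)) (sq k c)

theorem fin (hr : SectionalPRankLE 2 4 G) {D K Q : Subgroup G} (le : D ≤ K) (sq : ∀ k ∈ K, k * k ∈ D) (lq : K ≤ Q) (c8 : 8 * # D ≤ # K)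
    {x y : G} (x2 : x * x ∈ D) (y2 : y * y ∈ D) (cx : ∀ k ∈ K, ⁅x, k⁆ ∈ D) (cy : ∀ k ∈ K, ⁅y, k⁆ ∈ D) (xy : ⁅y, x⁆ ∈ D)
    (n1 : x ∉ Q) (n2 : y ∉ Q) (n3 : y * x ∉ Q) : False := by
  obtain ⟨a1, a2⟩ := step le sq x2 cx fun a => n1 (lq a)
  have le' : D ≤ K ⊔ zpowers x := le.trans le_sup_left
  obtain ⟨b1, b2⟩ := step le' a1 y2 (fun k hk => ((sup_le (fun k hk => ⟨nrm le sq hk, cy k hk⟩) (zpowers_le.2
    ⟨nrm le' a1 (mem_sup_right (mem_zpowers x)), xy⟩) : _ ≤ cz D y) hk).2) fun a => (N8.cas (mem_normalizer_fintype fun k hk =>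
      (mul_mem_cancel_right (inv_mem hk)).1 (le (cx k hk))) (le x2) a).elim (fun a => n2 (lq a)) fun a => n3 (lq a)
  have c1 := sectional_iff.1 hr _ _ (le'.trans le_sup_left) (commutator_le.2 fun _ a _ b => comm_mem_of_sq b1 a b) fun x hx => pow_two x ▸ b1 x hx
  have c2 := H01.card_mul_relIndex (le'.trans (le_sup_left (b := zpowers y)))
  have : 0 < # D := Nat.card_pos
  nlinarith

end H04.L3
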