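import Cfsg.Agent.H04.L3a

/-! Extensions of `E₈ × C` (`C` cyclic) by `L₃(2)` of sectional rank at most four have `#C ≤ 4`. -/

set_option autoImplicit false
set_option synthInstance.maxSize 4000
open Cfsg BG Subgroup H02.Hig
open scoped commutatorElement Matrix

local notation "#" => Nat.card

namespace H04.L3

variable {G : Type*} [Group G] [Finite G]

structure St (Q : Subgroup G) (σ : G) (S : Subgroup G) : Prop where
  le : S ≤ Q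
  cq : S ≤ C_(Q)
  sq : ∀ s ∈ S, s * s = 1
  c8 : # S = 8
  fp : S ⊓ C_[σ] = ⊥
  nm : ∀ s ∈ S, σ * s * σ⁻¹ ∈ S
  dec : ∀ y ∈ Q, ∃ s ∈ S, ∃ c ∈ Q ⊓ C_[σ], y = s * c

omit [Finite G] in
theorem od {Q : Subgroup G} (pg : IsPGroup 2 Q) {y : G} (hy : y ∈ Q) {n : ℤ} (hn : Odd n) (h : y ^ n = 1) : y = 1 := by
  obtain ⟨k, hk⟩ := pg ⟨y, hy⟩
  have hk : y ^ 2 ^ k = 1 := congrArg Subtype.val hk
  obtain ⟨m, rfl⟩ := hn
  obtain ⟨i, j, e⟩ : IsCoprime ((2 : ℤ) ^ k) (2 * m + 1) := IsCoprime.pow_left ⟨-m, 1, by ring⟩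
  rw [← zpow_one y, ← e, zpow_add, mul_comm i, mul_comm j, zpow_mul, zpow_mul, h, show (2 : ℤ) ^ k = (2 ^ k : ℕ) by simp, zpow_natCast, hk]
  simp

omit [Finite G] in
theorem tri {g : G} (g3 : g ^ 3 = 1) (w : G) : g * (g * (g * w * g⁻¹) * g⁻¹) * g⁻¹ = w := by
  calc _ = g ^ 3 * w * (g ^ 3)⁻¹ := by rw [pow_three]; group
    _ = w := by rw [g3]; group

omit [Finite G] in
theorem zp3 (g : G) : g ^ (3 : ℤ) = g * (g * g) := (zpow_natCast g 3).trans (pow_three g)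

theorem one (hr : SectionalPRankLE 2 4 G) {Q S : Subgroup G} [hQ : Q.Normal] (pg : IsPGroup 2 Q)
    (sm : ∀ K : Subgroup G, K.Normal → Q ≤ K → K = Q ∨ K = ⊤) (ix : Q.index = 168) {σ c : G} (hσ : σ ∉ Q) (h : St Q σ S)
    (hc : zpowers c = Q ⊓ C_[σ]) : c ^ 4 = 1 := by
  by_contra c4
  have cQ : c ∈ Q := (hc.le (mem_zpowers c)).1
  have dec : ∀ y ∈ Q, ∃ s ∈ S, ∃ i : ℤ, y = s * c ^ i := fun y hy => by
    obtain ⟨s, hs, _, a, rfl⟩ := h.dec y hy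
    obtain ⟨i, rfl⟩ := hc.ge a
    exact ⟨s, hs, i, rfl⟩
  have ab : ∀ a ∈ Q, ∀ b ∈ Q, Commute a b := fun a ha b hb => by
    obtain ⟨s, hs, i, rfl⟩ := dec a ha
    obtain ⟨u, hu, j, e⟩ := dec b hb
    refine Commute.mul_left (h.cq hs b hb).symm (e ▸ Commute.mul_right (h.cq hu _ (zpow_mem cQ i)) (Commute.zpow_zpow_self _ _ _))
  obtain ⟨d, hd⟩ : ∃ d, d = c * c := ⟨_, rfl⟩
  have dQ : d ∈ Q := hd ▸ mul_mem cQ cQ
  have d2 : d * d ≠ 1 := by rwa [hd, ← pow_two, ← pow_two, ← pow_mul]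
  have f1 : ∀ a ∈ Q, ∀ b ∈ Q, a * b * (a * b) = a * a * (b * b) := fun a ha b hb => (ab b hb a ha).mul_mul_mul_comm _ _
  have f0 : ∀ s ∈ S, ∀ i : ℤ, s * c ^ i * (s * c ^ i) = d ^ i := fun s hs i => by
    rw [f1 s (h.le hs) _ (zpow_mem cQ i), h.sq s hs, one_mul, hd, (Commute.refl c).mul_zpow]
  have sz : ∀ y ∈ Q, y * y ∈ zpowers d := fun y hy => by
    obtain ⟨s, hs, i, rfl⟩ := dec y hy
    exact ⟨i, (f0 s hs i).symm⟩
  have nZ : (zpowers d).Normal := ⟨by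
    rintro _ ⟨i, rfl⟩ g
    rw [← conj_zpow, hd, ← conj_mul]; exact zpow_mem (hd ▸ sz _ (hQ.conj_mem c cQ g)) i⟩
  have lZ : zpowers d ≤ Q := zpowers_le.2 dQ
  have cn : ∀ g, ∀ b ∈ zpowers d, b * g = g * b := fun g => ((sm C_(zpowers d) inferInstance fun q hq b hb => ab b (lZ hb) q hq).resolve_left
    fun e => hσ (e.le fun b hb => mem_centralizer_singleton_iff.1 (hc.le ((zpowers_le.2 (hd ▸ mul_mem (mem_zpowers c) (mem_zpowers c))) hb)).2)).ge (mem_top g)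
  have f2 : ∀ g, ∀ a ∈ Q, g * a * g⁻¹ * (g * a * g⁻¹) = a * a := fun g a ha => by rw [conj_mul, ← cn g _ (sz a ha), mul_inv_cancel_right]
  have nd : ∀ i j : ℤ, d ^ (2 * i + 1) ≠ (d * d) ^ j := fun i j e => d2 (by
    rw [od pg dQ (n := 2 * (i - j) + 1) (odd_two_mul_add_one _) (by
      rw [show 2 * (i - j) + 1 = 2 * i + 1 - 2 * j by ring, zpow_sub, e, zpow_mul, zpow_two, mul_inv_cancel]), one_mul])
  have ev : ∀ u ∈ zpowers d, u * u = 1 → u ∈ zpowers (d * d) := by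
    rintro _ ⟨i, rfl⟩ e
    obtain ⟨k, rfl | rfl⟩ := Int.even_or_odd' i
    · exact ⟨k, by simp only [zpow_mul, zpow_two]⟩
    · exact absurd (od pg (mul_mem dQ dQ) (odd_two_mul_add_one k) (((Commute.refl d).mul_zpow _).trans e)) d2
  obtain ⟨A, hA⟩ : ∃ A, A = S ⊔ zpowers d := ⟨_, rfl⟩
  have dA : ∀ y ∈ A, ∃ s ∈ S, ∃ b ∈ zpowers d, s * b = y := fun y hy => mem_sup_of_normal_right.1 (hA ▸ hy)
  have lA : A ≤ Q := hA ▸ sup_le h.le lZ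
  have lS : S ≤ A := hA ▸ le_sup_left
  have lZ' : zpowers d ≤ A := hA ▸ le_sup_right
  have mA : ∀ y, y ∈ A ↔ y ∈ Q ∧ y * y ∈ zpowers (d * d) := fun y => ⟨fun hy => ⟨lA hy, by
    obtain ⟨s, hs, _, ⟨i, rfl⟩, rfl⟩ := dA y hy
    exact ⟨i, by simp only [f1 s (h.le hs) _ (zpow_mem dQ i), h.sq s hs, one_mul, (Commute.refl d).mul_zpow]⟩⟩, fun ⟨h1, j, h2⟩ => by
    obtain ⟨s, hs, i, rfl⟩ := dec y h1
    obtain ⟨k, rfl | rfl⟩ := Int.even_or_odd' i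
    · exact mul_mem (lS hs) (lZ' ⟨k, by simp only [zpow_mul, zpow_two, hd]⟩)
    · exact absurd (h2.trans (f0 s hs _)).symm (nd k j)⟩
  have nA : A.Normal := ⟨fun y hy g => (mA _).2 ⟨hQ.conj_mem y (lA hy) g, f2 g y (lA hy) ▸ ((mA y).1 hy).2⟩⟩
  have dj : S ⊓ zpowers d = ⊥ := eq_bot_iff.2 fun y hy => h.fp.le ⟨hy.1, mem_centralizer_singleton_iff.2 (cn σ y hy.2)⟩
  have cA : # A = # (zpowers d) * 8 := by rw [hA, H02.card_sup_of_disjoint (H01.le_normalizer_of_normal _ _) dj, h.c8, mul_comm]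
  obtain ⟨⟨a, ha⟩, a1⟩ := ne_bot_iff_exists_ne_one.1 (mt Subgroup.card_eq_one.2 (h.c8 ▸ by decide : # S ≠ 1))
  replace ha : a ∈ S := ha
  obtain ⟨φ, M, k⟩ := coord sm ix lZ' (fun a ha => sz a (lA ha)) cA (fun q hq a ha => by
    rw [commutatorElement_eq_one_iff_commute.2 (ab q hq a (lA ha))]; exact one_mem _) (lS ha) (σ := σ) fun e => a1 (Subtype.ext (h.fp.le ⟨ha,
      mem_centralizer_singleton_iff.2 (commutatorElement_eq_one_iff_mul_comm.1 (dj.le ⟨S.mul_mem (h.nm a ha) (S.inv_mem ha), e⟩)).symm⟩))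
  obtain ⟨r, r3, mr⟩ := k.lift pg (m := ρ) (by decide +kernel)
  obtain ⟨s, s3, ms⟩ := k.lift pg (m := t * ρ) (by decide +kernel)
  obtain ⟨x, hx⟩ : ∃ x, x = s * r⁻¹ := ⟨_, rfl⟩
  obtain ⟨y, hy⟩ : ∃ y, y = r * x * r⁻¹ := ⟨_, rfl⟩
  obtain ⟨γ, hγ⟩ : ∃ γ, γ = x⁻¹ * y * x * y⁻¹ := ⟨_, rfl⟩
  obtain ⟨-, -, n1, n2, n3, xQ, gQ, cm⟩ := k.mats r3 mr ms hx hy
  obtain ⟨e, e'⟩ := Co.ids r3 s3 hx hy hγ
  rw [← hγ] at gQ
  obtain ⟨u, hu⟩ : ∃ u, u = x * x := ⟨_, rfl⟩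
  rw [← hu] at xQ e e'
  have six : ∀ U Γ : G, U ∈ Q → U * Γ * U = U⁻¹ → U = U * Γ * Γ → U * U = 1 := fun U Γ hU a b =>
    od pg (mul_mem hU hU) (n := 3) (by decide) (by
      have : Γ = (U * U * U)⁻¹ := by rw [← inv_mul_cancel_left U Γ, eq_mul_inv_of_mul_eq a]; group
      rw [mul_assoc, left_eq_mul, this] at b
      rw [← inv_eq_one, ← b, zp3]; group)
  have uA : u ∈ A := (mA u).2 ⟨xQ, ev _ (sz u xQ) (six _ (γ * γ) (mul_mem xQ xQ) (by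
    have := congrArg (fun z => z * z) e
    simp only [f1 _ (mul_mem xQ gQ) _ (hQ.conj_mem u xQ r), f1 u xQ γ gQ, f2 r u xQ, ← _root_.mul_inv_rev, f2 r _ (hQ.conj_mem u xQ r)] at this
    exact this) (by
    have := congrArg (fun z => z * z) e'
    have g := f2 x⁻¹ γ gQ
    rw [inv_inv] at g
    simp only [f1 _ (mul_mem xQ (hQ.conj_mem' γ gQ x)) _ gQ, f1 u xQ _ (hQ.conj_mem' γ gQ x), f2 y u xQ, g] at this
    exact this))⟩
  obtain ⟨p1, gA, p2⟩ := k.core r3 s3 mr ms hx hy hγ (hu ▸ uA)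
  rw [← hu] at p1
  obtain ⟨w, w1, w2⟩ : ∃ w ∈ S, φ w = e1 := by
    obtain ⟨a, ha, e⟩ := k.sur e1
    obtain ⟨s, hs, b, hb, rfl⟩ := dA a ha
    exact ⟨s, hs, by rw [← e, k.add (lS hs) (lZ' hb), (k.ker (lZ' hb)).2 hb, add_zero]⟩
  have fx : ∀ g, g ^ 3 = 1 → M g *ᵥ e1 = e1 → g ∈ C_[w] := fun g g3 e => by
    have b := k.eq (lS w1) (nA.conj_mem w (lS w1) g) (by rw [k.eqv g (lS w1), w2, e])
    obtain ⟨β, hb⟩ : ∃ b, b = w⁻¹ * (g * w * g⁻¹) := ⟨_, rfl⟩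
    rw [← hb] at b
    have a1 : g * w * g⁻¹ = w * β := by rw [hb, mul_inv_cancel_left]
    have a2 : g * β * g⁻¹ = β := by rw [← cn g _ b, mul_inv_cancel_right]
    have := tri g3 w
    rw [a1, ← conj_mul (a := w), a1, a2, ← conj_mul (a := w * β), ← conj_mul (a := w), a1, a2, mul_assoc, mul_assoc, mul_eq_left] at this
    rw [od pg (lZ b) (n := 3) (by decide) ((zp3 β).trans this), mul_one] at a1
    exact mem_centralizer_singleton_iff.2 (mul_inv_eq_iff_eq_mul.1 a1)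
  have rw' := fx r r3 (by rw [mr]; decide +kernel)
  have xw : x ∈ C_[w] := hx ▸ mul_mem (fx s s3 (by rw [ms]; decide +kernel)) (inv_mem rw')
  have yw : y ∈ C_[w] := hy ▸ mul_mem (mul_mem rw' xw) (inv_mem rw')
  have z0 : ∀ a ∈ A, φ a = 0 ∨ φ a = e1 → a ∈ zpowers d ∨ w⁻¹ * a ∈ zpowers d := fun a ha e =>
    e.imp (k.ker ha).1 fun e => k.eq (lS w1) ha (w2.trans e.symm)
  have z1 : ∀ a ∈ A, φ a = 0 ∨ φ a = e1 → ∀ g ∈ C_[w], g * a * g⁻¹ = a := fun a ha e g hg => by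
    rw [mul_inv_eq_iff_eq_mul]
    refine (z0 a ha e).elim (fun b => (cn g a b).symm) fun b => ?_
    rw [← mul_inv_cancel_left w a, mul_assoc w, cn g _ b, ← mul_assoc, mem_centralizer_singleton_iff.1 hg, mul_assoc]
  have z2 : ∀ a ∈ A, φ a = 0 ∨ φ a = e1 → a * a = 1 → a ∈ zpowers (d * d) ⊔ zpowers w := fun a ha e a2 =>
    (z0 a ha e).elim (fun b => mem_sup_left (ev a b a2)) fun b => (mul_mem_cancel_left (inv_mem (mem_sup_right (mem_zpowers w)))).1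
      (mem_sup_left (ev _ b (by rw [f1 _ (inv_mem (h.le w1)) a (lA ha), a2, h.sq _ (inv_mem w1), one_mul])))
  have g := z1 γ gA p2 x⁻¹ (inv_mem xw)
  rw [inv_inv] at g
  rw [z1 u uA p1 r rw', z1 u uA p1 r rw'] at e
  rw [z1 u uA p1 y yw, g] at e'
  have uD := z2 u uA p1 (six u γ xQ e e')
  have cD : ∀ g, ∀ a ∈ A, φ ⁅g, a⁆ = 0 ∨ φ ⁅g, a⁆ = e1 → ⁅g, a⁆ ∈ zpowers (d * d) ⊔ zpowers w := fun g a ha e =>
    z2 _ (mul_mem (nA.conj_mem a ha g) (inv_mem ha)) e (by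
      rw [commutatorElement_def, f1 _ (hQ.conj_mem a (lA ha) g) _ (inv_mem (lA ha)), f2 g a (lA ha)]; group)
  have l2 : zpowers (d * d) ≤ zpowers d := zpowers_le.2 (mul_mem (mem_zpowers d) (mem_zpowers d))
  have nn : ∀ g, g ∈ N_(zpowers (d * d)) := fun g => mem_normalizer_fintype fun a ha => by rwa [← cn g a (l2 ha), mul_inv_cancel_right]
  refine fin hr (sup_le (l2.trans lZ') (zpowers_le.2 (lS w1))) (fun a ha => mem_sup_left ((mA a).1 ha).2) lA ?_ (hu ▸ uD) ?_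
    (fun a ha => cD x a ha (cm a ha).1) (fun a ha => cD y a ha (cm a ha).2) ?_ n1 n2 n3
  · have a1 := card_sup_zpowers_le (p := 2) _ (nn w) (by rw [pow_two, h.sq w w1]; exact one_mem _)
    have a2 := card_sup_zpowers (p := 2) _ (nn d) (fun ⟨j, e⟩ => nd 0 j (by simpa using e.symm)) (pow_two d ▸ mem_zpowers _)
    rw [sup_eq_right.2 l2] at a2
    omega
  · rwa [hy, conj_mul, ← hu, z1 u uA p1 r rw']
  · rw [show ⁅y, x⁆ = x * γ * x⁻¹ by rw [hγ, commutatorElement_def]; group, z1 γ gA p2 x xw]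
    exact z2 γ gA p2 (by rwa [mul_assoc, left_eq_mul] at e')

end H04.L3
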