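import Cfsg.Agent.H04.L3b

/-! Extensions of a 2-group with two natural chief factors by `L₃(2)` have a section of rank five. -/

set_option autoImplicit false
set_option synthInstance.maxSize 4000
open Cfsg BG Subgroup H02.Hig
open scoped commutatorElement Matrix

local notation "#" => Nat.card

namespace H04.L3

variable {G : Type*} [Group G] [Finite G] {Q W A B : Subgroup G} {ψ : G → V} {M : G →* Mt}

theorem addv (k : Co Q W ⊥ ψ M) [n : A.Normal] (lB : B ≤ A) (hA : ∀ y ∈ A, y * y ∈ W) (hB : ∀ y ∈ A, y * y = 1 ↔ y ∈ B)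
    (hAB : ∀ y ∈ A, ∀ b ∈ B, b * y = y * b) (c8 : # A = # B * 8) : Co Q A B (fun y => ψ (y * y)) M := by
  have eqv : ∀ g, ∀ a ∈ A, ψ (g * a * g⁻¹ * (g * a * g⁻¹)) = M g *ᵥ ψ (a * a) := fun g a ha => by rw [conj_mul, k.eqv g (hA a ha)]
  have ker : ∀ a ∈ A, ψ (a * a) = 0 ↔ a ∈ B := fun a ha => (k.ker (hA a ha)).trans (mem_bot.trans (hB a ha))
  have cs : ∀ a ∈ A, ∀ b ∈ B, a * b * (a * b) = a * a := fun a ha b hb => by
    rw [mul_assoc, ← mul_assoc b, hAB a ha b hb, mul_assoc a b, (hB b (lB hb)).2 hb, mul_one]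
  have sur : ∀ v, ∃ a ∈ A, ψ (a * a) = v := fun v => by
    obtain ⟨a, ha, a1⟩ := SetLike.not_le_iff_exists.1 fun e : A ≤ B => by
      have := card_le_of_le e
      have : 0 < # B := Nat.card_pos
      omega
    by_cases e : v = 0
    · exact ⟨1, one_mem _, e ▸ (ker 1 (one_mem _)).2 (one_mem _)⟩
    obtain ⟨p, f, h1, h2⟩ := (by decide +kernel : ∀ a v : V, a ≠ 0 → v ≠ 0 → ∃ p f : V, f ⬝ᵥ p = 0 ∧ a + (f ⬝ᵥ a) • p = v) _ v
      (mt (ker a ha).1 a1) e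
    obtain ⟨g, hg⟩ := k.tv p f h1
    exact ⟨_, n.conj_mem a ha g, by rw [eqv g a ha, hg, h2]⟩
  have inj : ∀ a ∈ A, ∀ b ∈ A, ψ (a * a) = ψ (b * b) → a⁻¹ * b ∈ B := fun a ha b hb e => by
    let F : A ⧸ B.subgroupOf A → V := Quotient.lift (fun a : A => ψ (a * a)) fun a b h => by
      rw [← cs a a.2 _ (show _ ∈ B.subgroupOf A from QuotientGroup.leftRel_apply.1 h)]; simp
    have := (Nat.bijective_iff_surjective_and_card F).2 ⟨fun v => by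
      obtain ⟨a, ha, e⟩ := sur v
      exact ⟨QuotientGroup.mk ⟨a, ha⟩, e⟩, (Nat.eq_of_mul_eq_mul_left Nat.card_pos ((H01.card_mul_relIndex lB).trans c8)).trans (by simp)⟩
    exact (QuotientGroup.eq (s := B.subgroupOf A)).1 (this.1 (a₁ := QuotientGroup.mk ⟨a, ha⟩) (a₂ := QuotientGroup.mk ⟨b, hb⟩) e)
  refine ⟨n, fun {a b} ha hb => ?_, fun ha => ker _ ha, sur, fun g a ha => eqv g a ha, k.mk1, k.ms⟩
  rcases (by decide +kernel : ∀ a b c : V, (c = 0 ∨ c = a ∨ c = b ∨ c = a + b) ∨ ∃ p f : V, f ⬝ᵥ p = 0 ∧ a + (f ⬝ᵥ a) • p = a ∧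
    b + (f ⬝ᵥ b) • p = b ∧ c + (f ⬝ᵥ c) • p ≠ c) (ψ (a * a)) (ψ (b * b)) (ψ (a * b * (a * b))) with (e | e | e | e) | ⟨p, f, h1, h2, h3, h4⟩
  · have := cs _ (inv_mem ha) _ ((ker _ (mul_mem ha hb)).1 e)
    rw [inv_mul_cancel_left] at this
    simp only [e, this, ← mul_inv_rev, k.inv (hA a ha), vv]
  · have := inj a ha _ (mul_mem ha hb) e.symm
    rw [inv_mul_cancel_left] at this
    simp only [e, (ker b hb).2 this, add_zero]
  · have := (hB _ (mul_mem (inv_mem hb) (mul_mem ha hb))).2 (inj b hb _ (mul_mem ha hb) e.symm)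
    have : a * a = 1 := by
      calc _ = b * (b⁻¹ * (a * b) * (b⁻¹ * (a * b))) * b⁻¹ := by group
        _ = 1 := by rw [this]; group
    simp only [e, this, k.one, zero_add]
  · exact e
  obtain ⟨g, hg⟩ := k.tv p f h1
  have a1 := inj a ha _ (n.conj_mem a ha g) (by rw [eqv g a ha, hg, h2])
  have a2 := inj b hb _ (n.conj_mem b hb g) (by rw [eqv g b hb, hg, h3])
  refine absurd ?_ h4
  rw [← hg, ← eqv g _ (mul_mem ha hb), ← cs _ (mul_mem ha hb) _ (mul_mem a1 a2), mul_assoc a b, ← mul_assoc b, ← hAB b hb _ a1]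
  congr 1; group

theorem two (hr : SectionalPRankLE 2 4 G) (pg : IsPGroup 2 Q) (k : Co Q W ⊥ ψ M) (k' : Co Q A B (fun y => ψ (y * y)) M)
    (cW : W ≤ C_(Q)) (lW : W ≤ B) (lB : B ≤ A) (lA : A ≤ Q) (hA : ∀ y ∈ A, y * y ∈ W) (hG : ∀ g, ∀ b ∈ B, b⁻¹ * (g * b * g⁻¹) ∈ W) (c8 : # W = 8)
    (hx : ∀ x, M x = t → x * x ∈ A ∧ ∀ b ∈ B, x * b = b * x → b ∈ W) : False := by
  have n := k'.nm
  have nW := k.nm
  have hB : ∀ b ∈ B, b * b = 1 := fun b hb => (k.ker (hA b (lB hb))).1 ((k'.ker (lB hb)).2 hb)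
  obtain ⟨r, r3, mr⟩ := k.lift pg (m := ρ) (by decide +kernel)
  obtain ⟨s, s3, ms, x2⟩ : ∃ s, s ^ 3 = 1 ∧ M s = t * ρ ∧ s * r⁻¹ * (s * r⁻¹) ∈ W := by
    obtain ⟨s, s3, ms⟩ := k.lift pg (m := t * ρ) (by decide +kernel)
    have mx := (k.mx r3 mr ms).1
    have x2 := (hx _ mx).1
    obtain ⟨w, hw⟩ := (by decide +kernel : ∀ a : V, a = 0 ∨ a = e1 → ∃ w : V, ∀ u, u = w + ((t * ρ) *ᵥ w + (t * ρ) *ᵥ (t * ρ) *ᵥ w) + w →
      u + t *ᵥ u + a = 0) _ (k'.core r3 s3 mr ms rfl rfl rfl x2).1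
    obtain ⟨v, hv, rfl⟩ := k'.sur w
    have a1 := n.conj_mem v hv s
    have a2 := n.conj_mem _ a1 s
    obtain ⟨y, hy⟩ : ∃ y, y = v * (s * v * s⁻¹ * (s * (s * v * s⁻¹) * s⁻¹)) := ⟨_, rfl⟩
    have e : (v * s) ^ 3 = y := by rw [hy, ← mul_one (_ * (_ * _)), ← s3, pow_three, pow_three]; group
    have yA : y ∈ A := hy ▸ mul_mem hv (mul_mem a1 a2)
    have uA := mul_mem yA hv
    have mq : M (y * v * s) = t * ρ := by rw [map_mul, k.mk1.2 (lA uA), one_mul, ms]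
    have mx' := (k.mx r3 mr mq).1
    refine ⟨y * v * s, ?_, mq, (hx _ mx').2 _ ?_ (mul_assoc _ _ _).symm⟩
    · rw [mul_assoc, ← e, ← pow_succ, ← pow_mul, show (3 + 1) * 3 = 3 * 2 * 2 from rfl, pow_mul, pow_mul, e, pow_two, pow_two, hB _ (lW (hA y yA))]
    have a3 := n.conj_mem _ uA (s * r⁻¹)
    rw [show y * v * s * r⁻¹ * (y * v * s * r⁻¹) = y * v * (s * r⁻¹ * (y * v) * (s * r⁻¹)⁻¹) * (s * r⁻¹ * (s * r⁻¹)) by group,
      ← k'.ker (mul_mem (mul_mem uA a3) x2), k'.add (mul_mem uA a3) x2, k'.add uA a3, k'.eqv _ uA, mx]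
    refine hw _ ?_
    rw [k'.add yA hv, hy, k'.add hv (mul_mem a1 a2), k'.add a1 a2, k'.eqv s a1, k'.eqv s hv, ms]
  obtain ⟨x, ex⟩ : ∃ x, x = s * r⁻¹ := ⟨_, rfl⟩
  obtain ⟨y, hy⟩ : ∃ y, y = r * x * r⁻¹ := ⟨_, rfl⟩
  obtain ⟨γ, hγ⟩ : ∃ γ, γ = x⁻¹ * y * x * y⁻¹ := ⟨_, rfl⟩
  rw [← ex] at x2
  obtain ⟨mx, -, n1, n2, n3, -, -, cm⟩ := k.mats r3 mr ms ex hy
  obtain ⟨p1, gW, p2⟩ := k.core r3 s3 mr ms ex hy hγ x2
  obtain ⟨z, z1, z2⟩ := k.sur e1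
  have mD : ∀ w ∈ W, ψ w = 0 ∨ ψ w = e1 → w ∈ zpowers z := fun w hw e => e.elim (fun e => mem_bot.1 ((k.ker hw).1 e) ▸ one_mem _) fun e =>
    inv_mul_eq_one.1 (k.eq z1 hw (z2.trans e.symm)) ▸ mem_zpowers z
  have nz : ∀ g, M g *ᵥ e1 = e1 → g ∈ N_(zpowers z) := fun g e => mem_normalizer_fintype (by
    rintro _ ⟨i, rfl⟩
    rw [← conj_zpow]; exact zpow_mem (mD _ (nW.conj_mem z z1 g) (.inr (by rw [k.eqv g z1, z2, e]))) i)
  have nr := mem_normalizer_iff.1 (nz r (by rw [mr]; decide +kernel))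
  have nq : ∀ q ∈ Q, q ∈ N_(zpowers z) := fun q hq => nz q (by rw [k.mk1.2 hq, Matrix.one_mulVec])
  obtain ⟨v, hv, ev⟩ := k'.sur ![0, 1, 0]
  obtain ⟨u, hu⟩ : ∃ u, u = v⁻¹ * (x * v * x⁻¹) := ⟨_, rfl⟩
  have a1 := n.conj_mem v hv x
  have uA : u ∈ A := hu ▸ mul_mem (inv_mem hv) a1
  have u1 : ψ (u * u) = e1 := by
    have := k'.add (inv_mem hv) a1
    rw [k'.inv hv, k'.eqv x hv, ev, mx, ← hu] at this
    exact this.trans (by decide +kernel)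
  have u2 := mD _ (hA u uA) (.inr u1)
  have u3 : ⁅x, u⁆ ∈ zpowers z := by
    have : ⁅x, u⁆ = (u * u)⁻¹ := by
      calc _ = (x * v * x⁻¹)⁻¹ * (x * x * v * (x * x)⁻¹) * u⁻¹ := by rw [commutatorElement_def, hu]; group
        _ = _ := by rw [← cW x2 v (lA hv), hu]; group
    exact this ▸ inv_mem u2
  have a2 := n.conj_mem u uA r
  have b1 := k'.eq uA a2 (by rw [k'.eqv r uA, mr]; simp only [u1]; decide +kernel)
  obtain ⟨b, hb⟩ : ∃ b, b = u⁻¹ * (r * u * r⁻¹) := ⟨_, rfl⟩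
  rw [← hb] at b1
  have b2 : r * u * r⁻¹ = u * b := by rw [hb, mul_inv_cancel_left]
  have bW : b ∈ W := by
    have := tri r3 u
    obtain ⟨w, hw⟩ : ∃ w, w = b⁻¹ * (r * b * r⁻¹) := ⟨_, rfl⟩
    have c1 : w ∈ W := hw ▸ hG r b b1
    have c2 : r * b * r⁻¹ = b * w := by rw [hw, mul_inv_cancel_left]
    rw [b2, ← conj_mul (a := u), b2, c2, ← conj_mul (a := u * b), ← conj_mul (a := u), ← conj_mul (a := b), b2, c2] at this
    have c3 : b = w⁻¹ * (w * (r * w * r⁻¹))⁻¹ := by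
      calc _ = w⁻¹ * (b * b)⁻¹ * u⁻¹ * (u * b * (b * w) * (b * w * (r * w * r⁻¹))) * (w * (r * w * r⁻¹))⁻¹ := by group
        _ = _ := by rw [this, hB b b1]; group
    exact c3 ▸ mul_mem (inv_mem c1) (inv_mem (mul_mem c1 (nW.conj_mem w c1 r)))
  have lz : zpowers z ≤ W := zpowers_le.2 z1
  have uW : u ∉ W := fun e => absurd (u1.symm.trans (by rw [hB u (lW e), k.one])) (by decide +kernel)
  obtain ⟨s1, s2⟩ := step lz (fun w hw => hB w (lW hw) ▸ one_mem _) u2 (fun w hw => by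
    rw [commutatorElement_eq_one_iff_mul_comm.2 (cW hw u (lA uA))]; exact one_mem _) uW
  have lQ : W ≤ Q := lW.trans (lB.trans lA)
  have cw : ∀ g, (∀ w ∈ W, ψ ⁅g, w⁆ = 0 ∨ ψ ⁅g, w⁆ = e1) → W ≤ cz (zpowers z) g := fun g e w hw =>
    ⟨nq w (lQ hw), mD _ (mul_mem (nW.conj_mem w hw g) (inv_mem hw)) (e w hw)⟩
  refine fin hr (lz.trans le_sup_left) s1 (sup_le lQ (zpowers_le.2 (lA uA))) ?_ (mD _ x2 p1) (by rw [hy, conj_mul]; exact (nr _).1 (mD _ x2 p1))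
    (fun a ha => ((sup_le (cw x fun w hw => (cm w hw).1) (zpowers_le.2 ⟨nq u (lA uA), u3⟩) : _ ≤ cz _ x) ha).2)
    (fun a ha => ((sup_le (cw y fun w hw => (cm w hw).2) (zpowers_le.2 ((mul_mem_cancel_right (cw y (fun w hw => (cm w hw).2) bW)).1
      (b2 ▸ ⟨nq _ (lA a2), by rw [hy, ← conjugate_commutatorElement]; exact (nr _).1 u3⟩))) : _ ≤ cz _ y) ha).2) ?_ n1 n2 n3
  · rw [s2, c8, Nat.card_zpowers]
    have := orderOf_le_of_pow_eq_one two_pos ((pow_two z).trans (hB z (lW z1)))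
    omega
  · rw [show ⁅y, x⁆ = x * γ * x⁻¹ by rw [hγ, commutatorElement_def]; group]
    exact (mem_normalizer_iff.1 (nz x (by rw [mx]; decide +kernel)) _).1 (mD _ gW p2)

end H04.L3
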