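import Cfsg.Agent.H04.L3c

/-! Extensions of a 2-group by `L₃(2)` of sectional rank at most four have only one natural chief factor. -/

set_option autoImplicit false
set_option synthInstance.maxSize 4000
open Cfsg BG Subgroup H02.Hig
open scoped commutatorElement Matrix

local notation "#" => Nat.card

namespace H04.L3

variable {G : Type*} [Group G] [Finite G]

theorem cls (z : G) : {y | IsConj z y}.ncard = (C_[z]).index := by
  rw [centralizer_eq_comap_stabilizer]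
  exact ((index_comap_of_surjective _ ConjAct.toConjAct.surjective).trans ((MulAction.index_stabilizer _ _).trans
    (congrArg Set.ncard (Set.ext fun y => ConjAct.mem_orbit_conjAct.trans isConj_comm)))).symm

theorem inv7 {S : Subgroup G} {σ : G} (s7 : σ ^ 7 = 1) (c8 : # S = 8) (fp : S ⊓ C_[σ] = ⊥) {T : Set G} (h1 : T ⊆ (S : Set G) \ {1})
    (h2 : ∀ y ∈ T, σ * y * σ⁻¹ ∈ T) (h3 : T.Nonempty) : T = (S : Set G) \ {1} := by
  have a := H02.Suz.card_modEq_fix (by decide : Nat.Prime 7) s7 h2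
  rw [Set.eq_empty_of_forall_notMem (s := {y | y ∈ T ∧ _}) fun y hy => (h1 hy.1).2 (fp.le ⟨(h1 hy.1).1,
    mem_centralizer_singleton_iff.2 hy.2⟩), Nat.card_coe_set_eq, Nat.card_coe_set_eq, Set.ncard_empty] at a
  have b := Nat.le_of_dvd ((Set.ncard_pos (Set.toFinite _)).2 h3) (Nat.modEq_zero_iff_dvd.1 a)
  have c := Set.ncard_sdiff_singleton_add_one S.one_mem
  rw [ncard_coe_subgroup, c8] at c
  exact Set.eq_of_subset_of_ncard_le h1 (by omega)

theorem lf {N : Subgroup G} [hN : N.Normal] {σ y : G} (s7 : σ ^ 7 = 1) (h7 : ¬ 7 ∣ # N)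
    (h : QuotientGroup.mk' N y ∈ C_[QuotientGroup.mk' N σ]) : ∃ n ∈ N, y * n ∈ C_[σ] := by
  have a := H02.Suz.card_modEq_fix (by decide : Nat.Prime 7) s7 (T := {g | y⁻¹ * g ∈ N}) fun g hg => by
    have : y⁻¹ * σ * y * σ⁻¹ ∈ N := (QuotientGroup.eq_one_iff _).1 (by
      change QuotientGroup.mk' N _ = 1
      rw [map_mul, map_mul, map_mul, mul_assoc _ (QuotientGroup.mk' N σ), ← mem_centralizer_singleton_iff.1 h]; simp)
    have := mul_mem this (hN.conj_mem _ hg σ)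
    simpa [mul_assoc] using this
  rw [show # {g | y⁻¹ * g ∈ N} = # N from Nat.card_congr ((Equiv.mulLeft y⁻¹).subtypeEquiv fun _ => Iff.rfl)] at a
  by_contra! c
  rw [Set.eq_empty_of_forall_notMem (s := {g | g ∈ {g | y⁻¹ * g ∈ N} ∧ _}) fun g hg => c _ hg.1 (by
    rw [mul_inv_cancel_left]; exact mem_centralizer_singleton_iff.2 hg.2)] at a
  exact h7 (Nat.modEq_zero_iff_dvd.1 (by simpa using a))

namespace St
variable {Q S : Subgroup G} {σ : G} (h : St Q σ S)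
include h

theorem eq : Q = S ⊔ Q ⊓ C_[σ] := le_antisymm (fun y hy => by
  obtain ⟨s, hs, c, hc, rfl⟩ := h.dec y hy
  exact mul_mem (mem_sup_left hs) (mem_sup_right hc)) (sup_le h.le inf_le_left)

theorem dj : S ⊓ (Q ⊓ C_[σ]) = ⊥ := eq_bot_iff.2 fun _ hy => h.fp.le ⟨hy.1, hy.2.2⟩

theorem card : # Q = 8 * # (Q ⊓ C_[σ] : Subgroup G) := by
  rw [← h.c8, ← H02.card_sup_of_disjoint (le_norm_of_cent (h.cq.trans (centralizer_le inf_le_left))) h.dj, ← h.eq]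

theorem cyc (hr : SectionalPRankLE 2 4 G) (pg : IsPGroup 2 Q) : ∃ c, zpowers c = Q ⊓ C_[σ] := by
  have pc := pg.to_le (inf_le_left : Q ⊓ C_[σ] ≤ Q)
  have sq : ∀ y ∈ Q, y * y ∈ pw (Q ⊓ C_[σ]) 2 := fun y hy => by
    obtain ⟨s, hs, c, hc, rfl⟩ := h.dec y hy
    rw [mul_assoc, ← mul_assoc c, h.cq hs c hc.1, mul_assoc, ← mul_assoc s, h.sq s hs, one_mul]; exact sq_mem_pw hc
  have le := (pw_le (Q ⊓ C_[σ]) 2).trans inf_le_left
  have c1 := sectional_iff.1 hr _ _ le (commutator_le.2 fun _ a _ b => comm_mem_of_sq sq a b) fun x hx => pow_two x ▸ sq x hx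
  have c2 := H01.card_mul_relIndex le
  have c3 := (frattini ↥(Q ⊓ C_[σ])).card_mul_index
  rw [← card_map_of_injective (subtype_injective _), U14.fr_eq pc] at c3
  rw [h.card] at c2
  have : 0 < # (pw (Q ⊓ C_[σ]) 2) := Nat.card_pos
  exact (Subgroup.isCyclic_iff_exists_zpowers_eq_top _).1 (isCyclic_of_index_frattini_le pc (by nlinarith))

theorem ab (hr : SectionalPRankLE 2 4 G) (pg : IsPGroup 2 Q) {a b : G} (ha : a ∈ Q) (hb : b ∈ Q) : Commute a b := by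
  obtain ⟨c, hc⟩ := h.cyc hr pg
  obtain ⟨s, hs, u, hu, rfl⟩ := h.dec a ha
  obtain ⟨s', hs', v, hv, e⟩ := h.dec b hb
  refine Commute.mul_left (h.cq hs b hb).symm (e ▸ Commute.mul_right (h.cq hs' _ hu.1) ?_)
  obtain ⟨i, rfl⟩ := hc.ge hu
  obtain ⟨j, rfl⟩ := hc.ge hv
  exact Commute.zpow_zpow_self _ _ _

end St

section
variable {Q W : Subgroup G} [nW : W.Normal] {σ : G} {π : G →* G ⧸ W} (hπ : π = QuotientGroup.mk' W) (lW : W ≤ Q) {S : Subgroup (G ⧸ W)}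
  (h : St (Q.map π) (π σ) S)
include hπ lW h

theorem St.lq : S.comap π ≤ Q := fun x hx => by
  have : π x ∈ Q.map π := h.le hx
  rwa [← mem_comap, comap_map_eq_self (by rwa [hπ, QuotientGroup.ker_mk'])] at this

theorem St.dec' (s7 : σ ^ 7 = 1) (h7 : ¬ 7 ∣ # W) : ∀ y ∈ Q, ∃ s ∈ S.comap π, ∃ c ∈ Q ⊓ C_[σ], y = s * c := fun y hy => by
  obtain ⟨s, hs, _, ⟨⟨c, hc, rfl⟩, h2⟩, e⟩ := h.dec _ (mem_map_of_mem π hy)
  subst hπ
  obtain ⟨n, hn, h3⟩ := lf s7 h7 h2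
  have : QuotientGroup.mk' W n = 1 := (QuotientGroup.eq_one_iff n).2 hn
  exact ⟨y * (c * n)⁻¹, by rw [mem_comap, map_mul, map_inv, map_mul, this, e]; simpa using hs, _, ⟨Q.mul_mem hc (lW hn), h3⟩, by group⟩

theorem St.i7 (s7 : σ ^ 7 = 1) (P : G → Prop) (h1 : ∀ s, P s → P (σ * s * σ⁻¹)) (h2 : ∀ s ∈ Q, ∀ w ∈ W, P s → P (s * w)) (h3 : P 1) :
    ∀ s ∈ S.comap π, P s → s ∈ W ∨ ∀ s ∈ S.comap π, P s := fun s hs h4 => or_iff_not_imp_left.2 fun c u hu => by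
  have k : ∀ x, π x = 1 ↔ x ∈ W := fun x => hπ ▸ QuotientGroup.eq_one_iff x
  by_cases e : u ∈ W
  · simpa using h2 1 (one_mem _) u e h3
  obtain ⟨-, v, rfl', hv⟩ := (inv7 (T := {y | y ∈ (S \ {1} : Set _) ∧ ∃ v, π v = y ∧ P v}) (by rw [← map_pow, s7, map_one]) h.c8 h.fp
    (fun _ hy => hy.1) (by
      rintro _ ⟨a, v, rfl, b⟩
      exact ⟨⟨h.nm _ a.1, by simpa using a.2⟩, _, by simp, h1 v b⟩) ⟨π s, ⟨hs, mt (k s).1 c⟩, s, rfl, h4⟩).ge
    (⟨hu, mt (k u).1 e⟩ : π u ∈ (S \ {1} : Set _))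
  have m : v⁻¹ * u ∈ W := (k _).1 (by simp [rfl'])
  simpa using h2 v ((mul_mem_cancel_right (lW m)).1 (by simpa using h.lq hπ lW hu)) _ m hv

end

theorem two' (hr : SectionalPRankLE 2 4 G) {Q W : Subgroup G} [hQ : Q.Normal] [nW : W.Normal] (pg : IsPGroup 2 Q)
    (sm : ∀ K : Subgroup G, K.Normal → Q ≤ K → K = Q ∨ K = ⊤) (ix : Q.index = 168) {σ : G} (s7 : σ ^ 7 = 1)
    (nc : ∀ z ∈ Q, z * z = 1 → (∀ g, g * z * g⁻¹ = z) → z = 1) (lW : W ≤ Q) (cW : W ≤ C_(Q)) (w2 : ∀ w ∈ W, w * w = 1) (c8 : # W = 8)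
    (fp : W ⊓ C_[σ] = ⊥) {S : Subgroup (G ⧸ W)} (h : St (Q.map (QuotientGroup.mk' W)) (QuotientGroup.mk' W σ) S) : False := by
  have cS := A5.card_comap W S
  obtain ⟨π, hπ⟩ : ∃ π, π = QuotientGroup.mk' W := ⟨_, rfl⟩
  rw [← hπ] at h cS
  have lq := h.lq hπ lW
  have dec := h.dec' hπ lW s7 (by rw [c8]; decide)
  have i7 := h.i7 hπ lW s7
  rw [c8, h.c8] at cS
  have sf : Function.Surjective π := hπ ▸ QuotientGroup.mk'_surjective W
  have k : ∀ x, π x = 1 ↔ x ∈ W := fun x => hπ ▸ QuotientGroup.eq_one_iff x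
  obtain ⟨S1, hS⟩ : ∃ S1, S1 = S.comap π := ⟨_, rfl⟩
  rw [← hS] at cS lq dec i7
  have mS : ∀ x, x ∈ S1 ↔ π x ∈ S := fun x => hS ▸ Iff.rfl
  have lS : W ≤ S1 := fun x hx => (mS x).2 ((k x).2 hx ▸ one_mem _)
  have cw : ∀ c ∈ Q ⊓ C_[σ], c ∈ W → c = 1 := fun c hc hw => fp.le ⟨hw, hc.2⟩
  have cm : ∀ a ∈ Q, ∀ b ∈ Q, ⁅a, b⁆ ∈ W := fun a ha b hb => (k _).1 (by
    rw [map_commutatorElement, commutatorElement_eq_one_iff_commute]
    exact h.ab (sectional_of_surjective hr π sf) (pg.map π) (mem_map_of_mem π ha) (mem_map_of_mem π hb))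
  have cc : ∀ a ∈ Q ⊓ C_[σ], ∀ b ∈ Q ⊓ C_[σ], a * b = b * a := fun a ha b hb => commutatorElement_eq_one_iff_mul_comm.1
    (cw _ (mul_mem (mul_mem (mul_mem ha hb) (inv_mem ha)) (inv_mem hb)) (cm a ha.1 b hb.1))
  have sq : ∀ s ∈ S1, s * s ∈ W := fun s hs => (k _).1 (by rw [map_mul, h.sq _ ((mS s).1 hs)])
  have ws : ∀ a ∈ Q, ∀ w ∈ W, a * w * (a * w) = a * a := fun a ha w hw => by
    rw [mul_assoc, ← mul_assoc w, ← cW hw a ha, mul_assoc a w, w2 w hw, mul_one]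
  have nz : ∀ s ∈ S1, s * s = 1 → s ∈ W := fun s hs e => (i7 (fun s => s * s = 1) (fun s e => by rw [conj_mul, e]; simp)
    (fun s hs w hw e => (ws s hs w hw).trans e) (one_mul 1) s hs e).resolve_right fun a => by
      have := pRankLE_iff'.1 (pRankLE_of_sectional hr) S1 ⟨isMulCommutative_iff'.2 fun x hx y hy => commutatorElement_eq_one_iff_mul_comm.1
        (comm_mem_of_sq (B := ⊥) a hx hy), fun x hx => pow_two x ▸ a x hx⟩
      omega
  obtain ⟨⟨a, ha⟩, a1⟩ := ne_bot_iff_exists_ne_one.1 (mt Subgroup.card_eq_one.2 (c8 ▸ by decide : # W ≠ 1))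
  obtain ⟨ψ, M, K⟩ := coord (B := ⊥) sm ix bot_le w2 (by simp [c8]) (fun q hq a ha => commutatorElement_eq_one_iff_mul_comm.2 (cW ha q hq))
    (σ := σ) ha fun e => a1 (Subtype.ext (fp.le ⟨ha, mem_centralizer_singleton_iff.2 (commutatorElement_eq_one_iff_mul_comm.1 e).symm⟩))
  have sc : ∀ s ∈ S1, ∀ c ∈ Q ⊓ C_[σ], s * c * (s * c) ∈ W ↔ c * c = 1 := fun s hs c hc => by
    rw [show s * c * (s * c) = s * s * ⁅s⁻¹, c⁆ * (c * c) by rw [commutatorElement_def]; group,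
      mul_mem_cancel_left (mul_mem (sq s hs) (cm _ (inv_mem (lq hs)) c hc.1))]
    exact ⟨cw _ (mul_mem hc hc), fun e => e ▸ one_mem _⟩
  by_cases h2 : ∀ c ∈ Q ⊓ C_[σ], c * c = 1 → c ≠ 1 → ∀ s ∈ S1, s * c * (s * c) = 1
  · have mS' : ∀ y, y ∈ S1 ↔ y ∈ Q ∧ y * y ∈ W ∧ (y * y = 1 → y ∈ W) := fun y => ⟨fun hy => ⟨lq hy, sq y hy, nz y hy⟩, fun ⟨a, b, c⟩ => by
      obtain ⟨s, hs, u, hu, rfl⟩ := dec y a
      by_cases e : u = 1
      · rwa [e, mul_one]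
      exact lS (c (h2 u hu ((sc s hs u hu).1 b) e s hs))⟩
    have : S1.Normal := ⟨fun y hy g => (mS' _).2 ⟨hQ.conj_mem y (lq hy) g, by rw [conj_mul]; exact nW.conj_mem _ (sq y hy) g, fun e =>
      nW.conj_mem y (nz y hy (by simpa [conj_mul] using e)) g⟩⟩
    have K' := addv K lS sq (fun y hy => ⟨nz y hy, w2 y⟩) (fun y hy b hb => (cW hb y (lq hy)).symm) (by rw [c8, cS])
    refine two hr pg K K' cW le_rfl lS lq sq (fun g b hb => mul_mem (inv_mem hb) (nW.conj_mem b hb g)) c8 fun x hx => ⟨?_, fun b hb _ => hb⟩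
    obtain ⟨s, hs, c, hc, e⟩ := dec (x * x) (K.mk1.1 (by rw [map_mul, hx]; decide +kernel))
    by_contra d
    obtain ⟨n, n1, n2⟩ := exists_pow_notMem_pow_mem pg ⊥ (x := ⟨c, hc.1⟩) fun a => d (by
      rwa [e, show c = 1 from congrArg Subtype.val (mem_bot.1 a), mul_one])
    have n3 := h2 _ (pow_mem hc (2 ^ n)) (pow_two (M := G) _ ▸ congrArg Subtype.val (mem_bot.1 n2)) fun a => n1 (Subtype.ext a)
    have n4 : c ^ 2 ^ n * c ^ 2 ^ n = 1 := by simpa using n3 1 (one_mem _)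
    obtain ⟨u, hu, u1⟩ := K'.sur ![0, 0, 1]
    rcases n with - | n
    · rw [pow_zero, pow_one] at n3
      obtain ⟨w, hw⟩ : ∃ w, w = u⁻¹ * (x * u * x⁻¹) := ⟨_, rfl⟩
      have w1 : w ∈ W := hw ▸ K'.eq hu (this.conj_mem u hu x) (by rw [K'.eqv x hu, hx]; simp only [u1]; decide +kernel)
      have w3 : x * u * x⁻¹ = u * w := by rw [hw, mul_inv_cancel_left]
      have w4 : u * u * (w * (x * w * x⁻¹)) = 1 := by
        calc _ = u * (x * (x * u * x⁻¹) * x⁻¹) := by rw [w3, ← conj_mul (a := u), w3]; group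
          _ = u * (x * x) * (u * (x * x)) * (x * x * (x * x))⁻¹ := by group
          _ = 1 := by rw [e, n3 s hs, ← mul_assoc u, n3 _ (mul_mem hu hs)]; simp
      have := congrArg ψ w4
      rw [K.add (sq u hu) (mul_mem w1 (nW.conj_mem w w1 x)), K.add w1 (nW.conj_mem w w1 x), K.eqv x w1, hx, K.one, u1] at this
      revert this; generalize ψ w = v; revert v; decide +kernel
    · have := n3 u hu
      have m := pow_mem hc.1 (2 ^ n)
      rw [pow_succ, pow_mul, pow_two] at this n4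
      generalize c ^ 2 ^ n = d at *
      have m1 := cm d m u (lq hu)
      have : u * u = 1 := by
        calc _ = u * (d * (⁅d, u⁆ * u) * d⁻¹) * (d * d * (d * d)) := by
              rw [n4, ← conj_mul, cW m1 d m, mul_inv_cancel_right, ← mul_inv_cancel_right (d * u * d⁻¹) u⁻¹, ← commutatorElement_def,
                ← mul_assoc ⁅d, u⁆, w2 _ m1]; simp
          _ = u * (d * d) * (u * (d * d)) * (d * d)⁻¹ * (d * d)⁻¹ * (d * d * (d * d)) := by rw [commutatorElement_def]; group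
          _ = 1 := by rw [this]; group
      rw [this, K.one] at u1
      exact absurd u1 (by decide +kernel)
  push Not at h2
  obtain ⟨z, hz, z2, z1, s0, hs0, z3⟩ := h2
  have zσ : σ * z * σ⁻¹ = z := by rw [← mem_centralizer_singleton_iff.1 hz.2, mul_inv_cancel_right]
  have nz2 : ∀ s ∈ S1, s * z * (s * z) = 1 → s ∈ W := fun s hs e => (i7 (fun s => s * z * (s * z) = 1) (fun s e => by
    rw [← zσ, conj_mul, conj_mul, e]; simp) (fun s hs w hw e => by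
      rw [mul_assoc s w, ← cW hw z hz.1, ← mul_assoc s z, ws _ (mul_mem hs hz.1) w hw, e]) (by simpa using z2) s hs e).resolve_right
      fun a => z3 (a s0 hs0)
  have zW := mt (cw z hz) z1
  have nzW : z ∈ N_(W) := H01.le_normalizer_of_normal ⊤ _ trivial
  have nzS : z ∈ N_(S1) := mem_normalizer_fintype fun s hs => (mul_mem_cancel_right (inv_mem hs)).1 (lS (cm z hz.1 s (lq hs)))
  have zi : z⁻¹ = z := inv_eq_of_mul_eq_one_left z2
  obtain ⟨B, hB⟩ : ∃ B, B = W ⊔ zpowers z := ⟨_, rfl⟩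
  obtain ⟨A, hA⟩ : ∃ A, A = S1 ⊔ zpowers z := ⟨_, rfl⟩
  have cB : # B = 16 := by rw [hB, card_sup_zpowers (p := 2) W nzW zW (by rw [pow_two, z2]; exact one_mem _), c8]
  have cA : # A = # B * 8 := by
    rw [hA, card_sup_zpowers (p := 2) S1 nzS (fun a => zW ((k z).1 (h.fp.le ⟨(mS z).1 a, mem_centralizer_singleton_iff.2 (by
      rw [← map_mul, ← map_mul, mem_centralizer_singleton_iff.1 hz.2])⟩))) (by rw [pow_two, z2]; exact one_mem _), cS, cB]
  have eB : IsElementaryAbelian 2 B := hB ▸ IsElementaryAbelian.sup_zpowers ⟨isMulCommutative_iff'.2 fun x hx y hy => cW hy x (lW hx),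
    fun x hx => pow_two x ▸ w2 x hx⟩ (pow_two z ▸ z2) fun w hw => (cW hw z hz.1).symm
  have dB : ∀ b ∈ B, b ∈ W ∨ b * z ∈ W := fun b hb => N8.cas nzW (z2 ▸ one_mem _) (hB ▸ hb)
  have dA : ∀ b ∈ A, b ∈ S1 ∨ b * z ∈ S1 := fun b hb => N8.cas nzS (z2 ▸ one_mem _) (hA ▸ hb)
  have zB : z ∈ B := hB ▸ mem_sup_right (mem_zpowers z)
  have WB : W ≤ B := hB ▸ le_sup_left
  have SA : S1 ≤ A := hA ▸ le_sup_left
  have BA : B ≤ A := by rw [hA, hB]; exact sup_le_sup_right lS _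
  have AQ : A ≤ Q := hA ▸ sup_le lq (zpowers_le.2 hz.1)
  have uq : ∀ c ∈ Q ⊓ C_[σ], c * c = 1 → c = 1 ∨ c = z := fun c hc c2 => by
    have cb : c ∈ C_(B) := cent_symm (A := B) (B := zpowers c) (hB ▸ sup_le (cW.trans (centralizer_le (zpowers_le.2 hc.1)))
      (zpowers_le.2 (cent_symm (zpowers_le.2 fun g hg => by obtain ⟨i, rfl⟩ := hg; exact (Commute.zpow_left (cc z hz c hc) i).eq) (mem_zpowers z)))) (mem_zpowers c)
    by_cases e : c ∈ B
    · exact (dB c e).imp (cw c hc) fun a => zi ▸ eq_inv_of_mul_eq_one_left (cw _ (mul_mem hc hz) a)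
    have := pRankLE_iff'.1 (pRankLE_of_sectional hr) _ (IsElementaryAbelian.sup_zpowers eB (pow_two c ▸ c2) cb)
    rw [card_sup_zpowers (p := 2) B (centralizer_le_normalizer _ cb) e (by rw [pow_two, c2]; exact one_mem _)] at this
    omega
  have mA : ∀ y, y ∈ A ↔ y ∈ Q ∧ y * y ∈ W := fun y => ⟨fun hy => ⟨AQ hy, (dA y hy).elim (sq y) fun a => by
    simpa [mul_assoc, z2] using (sc _ a z hz).2 z2⟩, fun ⟨a, b⟩ => by
      obtain ⟨s, hs, c, hc, rfl⟩ := dec y a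
      rcases uq c hc ((sc s hs c hc).1 b) with rfl | rfl
      exacts [mul_mem (SA hs) (one_mem _), mul_mem (SA hs) (BA zB)]⟩
  have mB : ∀ y, y ∈ B ↔ y ∈ Q ∧ y * y = 1 := fun y => ⟨fun hy => ⟨AQ (BA hy), pow_two y ▸ eB.2 y hy⟩, fun ⟨a, b⟩ => by
    obtain ⟨s, hs, c, hc, rfl⟩ := dec y a
    rcases uq c hc ((sc s hs c hc).1 (b ▸ one_mem _)) with rfl | rfl
    exacts [by rw [mul_one] at b ⊢; exact WB (nz s hs b), mul_mem (WB (nz2 s hs b)) zB]⟩
  have nA : A.Normal := ⟨fun y hy g => (mA _).2 ⟨hQ.conj_mem y (AQ hy) g, by rw [conj_mul]; exact nW.conj_mem _ ((mA y).1 hy).2 g⟩⟩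
  have nB : B.Normal := ⟨fun y hy g => (mB _).2 ⟨hQ.conj_mem y ((mB y).1 hy).1 g, by rw [conj_mul, ((mB y).1 hy).2]; simp⟩⟩
  have hG : ∀ g, ∀ b ∈ B, b⁻¹ * (g * b * g⁻¹) ∈ W := fun g b hb => by
    by_cases e : b ∈ W
    · exact mul_mem (inv_mem e) (nW.conj_mem b e g)
    have := nW.conj_mem _ (mul_mem (inv_mem ((dB b hb).resolve_left e)) ((dB _ (nB.conj_mem b hb g)).resolve_left fun a =>
      e (by simpa [mul_assoc] using nW.conj_mem' _ a g))) z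
    simpa [mul_assoc] using this
  have dl : ∀ s ∈ S1, s * z = z * s := by
    by_contra! c
    obtain ⟨s, hs, c⟩ := c
    have kr : ∀ u ∈ S1, u * z = z * u → u ∈ W := fun u hu e => (i7 (fun s => s * z = z * s) (fun s e => by
      rw [← zσ, conj_mul, conj_mul, e]) (fun s hs w hw e => by rw [mul_assoc, ← cW hw z hz.1, ← mul_assoc, e, mul_assoc]) (by simp) u hu e).resolve_right
        fun a => c (a s hs)
    have sW : s ∉ W := fun a => c (cW a z hz.1).symm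
    have m := cm s (lq hs) z hz.1
    have e : s * z * (s * z) = ⁅s, z⁆ * (s * s) := by
      calc _ = ⁅s, z⁆ * (z * (s * s)) * z := by rw [commutatorElement_def]; group
        _ = _ := by rw [cW (sq s hs) z hz.1, mul_assoc, mul_assoc (s * s), z2, mul_one]
    obtain ⟨p, f, h1, h3, h4, h5⟩ := (by decide +kernel : ∀ a d : V, a ≠ 0 → d ≠ 0 → d + a ≠ 0 → ∃ p f : V, f ⬝ᵥ p = 0 ∧ d + (f ⬝ᵥ d) • p = d ∧
      a + (f ⬝ᵥ a) • p ≠ a ∧ a + (f ⬝ᵥ a) • p ≠ d + a) _ _ (fun a => sW (nz s hs ((K.ker (sq s hs)).1 a)))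
      (fun a => c (commutatorElement_eq_one_iff_mul_comm.1 ((K.ker m).1 a))) fun a => sW (nz2 s hs (by
        rw [← K.add m (sq s hs), K.ker (mul_mem m (sq s hs))] at a; exact e.trans a))
    obtain ⟨g, hg⟩ := K.tv p f h1
    have b1 := hG g⁻¹ z zB
    have b2 : g * ⁅s, z⁆ * g⁻¹ = ⁅s, z⁆ := (inv_mul_eq_one.1 (K.eq m (nW.conj_mem _ m g) (by rw [K.eqv g m, hg, h3]))).symm
    have b3 : s⁻¹ * (g * s * g⁻¹) * z = z * (s⁻¹ * (g * s * g⁻¹)) := by
      obtain ⟨w, hw⟩ : ∃ w, w = z⁻¹ * (g⁻¹ * z * g⁻¹⁻¹) := ⟨_, rfl⟩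
      rw [← hw] at b1
      calc _ = s⁻¹ * g * (s * (z * w)) * g⁻¹ := by rw [hw]; group
        _ = s⁻¹ * (g * ⁅s, z⁆ * g⁻¹) * g * (z * (s * w)) * g⁻¹ := by rw [commutatorElement_def]; group
        _ = _ := by rw [b2, cW b1 s (lq hs), hw, commutatorElement_def]; group
    have b4 := mul_mem (inv_mem (SA hs)) (nA.conj_mem s (SA hs) g)
    have b5 : ψ (g * s * g⁻¹ * (g * s * g⁻¹)) = ψ (s * s) + (f ⬝ᵥ ψ (s * s)) • p := by rw [conj_mul, K.eqv g (sq s hs), hg]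
    obtain ⟨b, hb⟩ : ∃ b, b = s⁻¹ * (g * s * g⁻¹) := ⟨_, rfl⟩
    rw [show g * s * g⁻¹ = s * b by rw [hb, mul_inv_cancel_left]] at b5
    rw [← hb] at b3 b4
    rcases dA b b4 with a | a
    · exact h4 (by rw [← b5, ws s (lq hs) b (kr b a b3)])
    · have := ws _ (mul_mem (lq hs) hz.1) _ (kr _ a (by rw [← mul_assoc z, ← b3]))
      rw [mul_assoc s z, ← mul_assoc z, ← b3, mul_assoc b, z2, mul_one] at this
      exact h5 (by rw [← b5, this, e, K.add m (sq s hs)])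
  have zQ : z ∈ C_(Q) := fun y hy => by
    obtain ⟨s, hs, c, hc, rfl⟩ := dec y hy
    rw [mul_assoc, cc c hc z hz, ← mul_assoc, dl s hs, mul_assoc]
  have BQ : B ≤ C_(Q) := hB ▸ sup_le cW (zpowers_le.2 zQ)
  have K' := addv K BA (fun y hy => ((mA y).1 hy).2) (fun y hy => ⟨fun e => (mB y).2 ⟨AQ hy, e⟩, fun e => ((mB y).1 e).2⟩)
    (fun y hy b hb => (BQ hb y (AQ hy)).symm) cA
  have cl : {y | IsConj z y} = (B : Set G) \ W := by
    have s1 : {y | IsConj z y} ⊆ (B : Set G) \ W := fun y hy => by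
      obtain ⟨g, rfl⟩ := isConj_iff.1 hy
      exact ⟨nB.conj_mem z zB g, fun a => zW (by simpa [mul_assoc] using nW.conj_mem' _ a g)⟩
    have s2 := H02.Suz.card_modEq_fix (by decide : Nat.Prime 7) s7 (T := {y | IsConj z y}) fun y hy => hy.trans (isConj_iff.2 ⟨σ, rfl⟩)
    rw [show {y | y ∈ {y | IsConj z y} ∧ y * σ = σ * y} = {z} from Set.ext fun y => ⟨fun hy => (uq y ⟨AQ (BA (s1 hy.1).1),
      mem_centralizer_singleton_iff.2 hy.2⟩ ((mB y).1 (s1 hy.1).1).2).resolve_left fun a => (s1 hy.1).2 (a ▸ W.one_mem),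
      fun hy => by rw [show y = z from hy]; exact ⟨IsConj.refl z, mem_centralizer_singleton_iff.1 hz.2⟩⟩, Nat.card_coe_set_eq, Nat.card_coe_set_eq, Set.ncard_singleton] at s2
    have s3 : (B \ W : Set G).ncard = 8 := by rw [Set.ncard_sdiff WB, ncard_coe_subgroup, ncard_coe_subgroup, cB, c8]
    have s4 := Set.ncard_le_ncard s1
    have s5 : {y | IsConj z y}.ncard ≠ 1 := fun a => z1 (nc z hz.1 z2 fun g => by
      obtain ⟨y, hy⟩ := Set.ncard_eq_one.1 a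
      exact (hy.le (isConj_iff.2 ⟨g, rfl⟩)).trans (hy.le (IsConj.refl z)).symm)
    refine Set.eq_of_subset_of_ncard_le s1 ?_
    rw [Nat.ModEq] at s2
    omega
  have hx2 : ∀ x, M x = t → ∀ b ∈ B, x * b = b * x → b ∈ W := fun x hx b hb e => by_contra fun c => by
    obtain ⟨g, rfl⟩ := isConj_iff.1 (show IsConj z b from cl.ge ⟨hb, c⟩)
    have x1 : g⁻¹ * x * g ∉ Q := fun a => absurd (hx.symm.trans (K.mk1.2 (by simpa [mul_assoc] using hQ.conj_mem _ a g))) (by decide +kernel)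
    have x2 : (g⁻¹ * x * g) ^ 2 ∈ Q := by
      simpa [mul_assoc, pow_two] using hQ.conj_mem' _ ((K.mk1 (g := x * x)).1 (by rw [map_mul, hx]; decide +kernel)) g
    have a1 := card_dvd_of_le (sup_le (fun q hq => mem_centralizer_singleton_iff.2 (zQ q hq)) (zpowers_le.2 (mem_centralizer_singleton_iff.2 (by
      calc g⁻¹ * x * g * z = g⁻¹ * (x * (g * z * g⁻¹)) * g := by group
        _ = _ := by rw [e]; group))) : Q ⊔ zpowers (g⁻¹ * x * g) ≤ C_[z])
    have a2 := (C_[z]).card_mul_index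
    rw [← cls, cl, Set.ncard_sdiff WB, ncard_coe_subgroup, ncard_coe_subgroup, cB, c8, ← Q.card_mul_index, ix] at a2
    rw [card_sup_zpowers (p := 2) Q (H01.le_normalizer_of_normal ⊤ _ trivial) x1 x2, show # C_[z] = 21 * # Q by omega,
      Nat.mul_dvd_mul_iff_right Nat.card_pos] at a1
    omega
  refine two hr pg K K' cW WB BA AQ (fun y hy => ((mA y).1 hy).2) hG c8 fun x hx => ⟨?_, hx2 x hx⟩
  have xq : x * x ∈ Q := K.mk1.1 (by rw [map_mul, hx]; decide +kernel)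
  by_contra d
  obtain ⟨n, n1, n2⟩ := exists_pow_notMem_pow_mem pg (W.subgroupOf Q) (x := ⟨_, mul_mem xq xq⟩) fun a => d ((mA _).2 ⟨xq, a⟩)
  have : (x * x * (x * x)) ^ 2 ^ n ∈ W ⊔ Q ⊓ C_[σ] := pow_mem (by
    obtain ⟨s, hs, c, hc, e⟩ := dec _ xq
    rw [e, show s * c * (s * c) = s * s * ⁅s⁻¹, c⁆ * (c * c) by rw [commutatorElement_def]; group]
    exact mul_mem (mem_sup_left (mul_mem (sq s hs) (cm _ (inv_mem (lq hs)) c hc.1))) (mem_sup_right (mul_mem hc hc))) _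
  obtain ⟨w, hw, c, hc, e⟩ := mem_sup_of_normal_left.1 this
  have n3 : w * c * (w * c) ∈ W := by rw [e, ← pow_two]; exact n2
  refine n1 (hx2 x hx _ ((mB _).2 ⟨pow_mem (mul_mem xq xq) _, ?_⟩) (Commute.pow_right (by simp only [Commute.mul_right, Commute.refl]) _))
  change (x * x * (x * x)) ^ 2 ^ n * (x * x * (x * x)) ^ 2 ^ n = 1
  rw [← e, ← cW hw c hc.1, ws c hc.1 w hw, (sc w (lS hw) c hc).1 n3]

end H04.L3
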