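import Cfsg.Agent.H04.A5a

/-! An extension of `E₁₆` by a faithfully acting group containing a suitable `2 × A₄` has a section of rank five. -/

set_option autoImplicit false
open Cfsg BG Subgroup

local notation "#" => Nat.card

namespace H04.S6

structure Rel {K : Type*} [Group K] (σ ζ θ ρ : K) (T : Subgroup K) : Prop where
  s3 : σ ^ 3 = 1
  z2 : ζ * ζ = 1
  t2 : θ * θ = 1
  z1 : ζ ≠ 1
  t1 : θ ≠ 1
  zt1 : ζ * θ ≠ 1
  sz : σ * ζ * σ⁻¹ = ζ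
  zt : θ * ζ * θ⁻¹ = ζ
  zt' : σ * θ * σ⁻¹ * ζ * (σ * θ * σ⁻¹)⁻¹ = ζ
  tt : σ * θ * σ⁻¹ * θ * (σ * θ * σ⁻¹)⁻¹ = θ
  st : σ * (σ * θ * σ⁻¹) * σ⁻¹ = θ * (σ * θ * σ⁻¹)
  ts : (θ * σ) ^ 3 = 1
  cj : IsConj σ (θ * σ)
  r3 : ρ ^ 3 = 1
  r1 : ρ ≠ 1
  rc : ρ * (ζ * θ) * ρ⁻¹ = ζ * θ
  mem : ∀ κ ∈ T, κ = 1 ∨ κ = ζ ∨ ∃ n < 3, κ = σ ^ n * θ * (σ ^ n)⁻¹ ∨ κ = σ ^ n * (ζ * θ) * (σ ^ n)⁻¹
  c8 : # T = 8

theorem Rel.map {K K' : Type*} [Group K] [Group K'] {σ ζ θ ρ : K} {T : Subgroup K} (h : Rel σ ζ θ ρ T) (j : K →* K')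
    (hj : Function.Injective j) : Rel (j σ) (j ζ) (j θ) (j ρ) (T.map j) := by
  refine ⟨?_, ?_, ?_, ?_, ?_, ?_, ?_, ?_, ?_, ?_, ?_, ?_, by rw [← map_mul]; exact j.map_isConj h.cj, ?_, ?_, ?_, ?_,
    by rw [card_map_of_injective hj, h.c8]⟩
  rotate_right
  · rintro _ ⟨κ, hk, rfl⟩
    rcases h.mem κ hk with e | e | ⟨n, hn, e | e⟩
    · exact Or.inl (by rw [e, map_one])
    · exact Or.inr (Or.inl (by rw [e]))
    · exact Or.inr (Or.inr ⟨n, hn, Or.inl (by simp [e])⟩)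
    · exact Or.inr (Or.inr ⟨n, hn, Or.inr (by simp [e])⟩)
  all_goals simp only [← map_mul, ← map_inv, ← map_pow, Ne, map_eq_one_iff j hj, hj.eq_iff]
  exacts [h.s3, h.z2, h.t2, h.z1, h.t1, h.zt1, h.sz, h.zt, h.zt', h.tt, h.st, h.ts, h.r3, h.r1, h.rc]

variable {G : Type*} [Group G] [Finite G] {V : Subgroup G} [hn : V.Normal]

structure St (V : Subgroup G) : Prop where
  hE : IsElementaryAbelian 2 V
  c16 : # V = 16
  hC : ∀ g, V ≤ C_[g] → g ∈ V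

theorem mc {a b : G} : a ∈ C_[b] ↔ a * b = b * a := mem_centralizer_singleton_iff

theorem md' {g : G} (hg : g ^ 3 = 1) {A : Subgroup G} (h : ∀ a ∈ A, g * a * g⁻¹ ∈ A) :
    # A ≡ # (A ⊓ C_[g] : Subgroup G) [MOD 3] :=
  (H02.Suz.card_modEq_fix Nat.prime_three hg (T := A) h).trans (congrArg (· % 3)
    (Nat.card_congr (Equiv.subtypeEquivRight fun x => and_congr Iff.rfl mc.symm)))

theorem eq_two {A : Subgroup G} (h : # A ≤ 2) {a b : G} (ha : a ∈ A) (hb : b ∈ A) (a1 : a ≠ 1) (b1 : b ≠ 1) : a = b := by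
  by_contra ne
  have := Fintype.ofFinite A
  rw [Nat.card_eq_fintype_card] at h
  exact absurd (Fintype.two_lt_card_iff.2 ⟨⟨a, ha⟩, ⟨b, hb⟩, 1, mt Subtype.ext_iff.1 ne, mt Subtype.ext_iff.1 a1,
    mt Subtype.ext_iff.1 b1⟩) (not_lt.2 h)

namespace St

variable (h : St V)
include h

theorem cm {u v : G} (hu : u ∈ V) (hv : v ∈ V) : u * v = v * u :=
  congrArg Subtype.val (h.hE.1.1.1 ⟨u, hu⟩ ⟨v, hv⟩)

theorem sq {u : G} (hu : u ∈ V) : u * u = 1 := (pow_two u).symm.trans (h.hE.2 u hu)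

theorem act {g k v : G} (e : (g : G ⧸ V) = k) (hv : v ∈ V) : g * v * g⁻¹ = k * v * k⁻¹ := by
  have := h.cm (QuotientGroup.eq.1 e.symm) hv
  calc _ = k * (k⁻¹ * g * v) * g⁻¹ := by group
    _ = _ := by rw [this]; group

theorem Fc {s g k v : G} (e : (s : G ⧸ V) * g * (s : G ⧸ V)⁻¹ = k) (hv : v ∈ V ⊓ C_[g]) : s * v * s⁻¹ ∈ V ⊓ C_[k] := by
  have a := hn.conj_mem v hv.1 s
  refine ⟨a, mc.2 (mul_inv_eq_iff_eq_mul.1 ?_).symm⟩
  rw [← h.act (g := s * g * s⁻¹) e a]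
  calc _ = s * (g * v) * g⁻¹ * s⁻¹ := by group
    _ = _ := by rw [← mc.1 hv.2]; group

theorem Fe {g k v : G} (e : (g : G ⧸ V) = k) (hv : v ∈ V ⊓ C_[g]) : v ∈ V ⊓ C_[k] := by
  simpa using h.Fc (s := 1) (by simpa using e) hv

theorem lift (κ : G ⧸ V) (hk : κ ^ 3 = 1) : ∃ s : G, s ^ 3 = 1 ∧ (s : G ⧸ V) = κ := by
  obtain ⟨x, rfl⟩ := QuotientGroup.mk_surjective κ
  refine ⟨x ^ 4, ?_, by rw [QuotientGroup.mk_pow, pow_succ, hk, one_mul]⟩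
  have := h.hE.2 _ ((QuotientGroup.eq_one_iff (x ^ 3)).1 hk)
  rw [← pow_mul, show 4 * 3 = 3 * 2 * 2 from rfl, pow_mul, pow_mul, this, one_pow]

theorem inv4 {A : Subgroup G} (le : A ≤ V) (h1 : A ≠ V) (h2 : A ≠ ⊥) (h3 : # A ≡ 1 [MOD 3]) : # A = 4 := by
  have a := card_dvd_of_le le
  have b := H04.card_lt_of_lt (lt_of_le_of_ne le h1)
  have c := mt Subgroup.card_eq_one.1 h2
  rw [h.c16] at a b
  unfold Nat.ModEq at h3
  generalize # A = n at *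
  interval_cases n <;> omega

theorem ne {g : G} (hg : (g : G ⧸ V) ≠ 1) : V ⊓ C_[g] ≠ V := fun e =>
  hg ((QuotientGroup.eq_one_iff g).2 (h.hC g (inf_eq_left.1 e)))

theorem bm {g v : G} (hg : g * g ∈ V) (hv : v ∈ V) : v * (g * v * g⁻¹) ∈ C_[g] := by
  refine mc.2 (mul_inv_eq_iff_eq_mul.1 ?_).symm
  calc _ = (g * v * g⁻¹) * (g * g * v) * (g * g)⁻¹ := by group
    _ = _ := by rw [h.cm hg hv, h.cm hv (hn.conj_mem v hv g)]; group

theorem bne {g v : G} (hv : v ∈ V) (h1 : v ∉ C_[g]) : v * (g * v * g⁻¹) ≠ 1 := fun e =>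
  h1 (mc.2 (mul_inv_eq_iff_eq_mul.1 (mul_left_cancel (e.trans (h.sq hv).symm))).symm)

theorem fix {A : Subgroup G} (le : A ≤ V) (h1 : A ≠ ⊥) {g : G} (hg : g * g ∈ V) (h2 : ∀ a ∈ A, g * a * g⁻¹ ∈ A) :
    A ⊓ C_[g] ≠ ⊥ := fun e => by
  obtain ⟨⟨a, ha⟩, a1⟩ := ne_bot_iff_exists_ne_one.1 h1
  by_cases hc : a ∈ C_[g]
  · exact a1 (Subtype.ext (mem_bot.1 (e.le ⟨ha, hc⟩)))
  · exact h.bne (le ha) hc (mem_bot.1 (e.le ⟨A.mul_mem ha (h2 a ha), h.bm hg (le ha)⟩))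

theorem four {κ : G ⧸ V} (h3 : κ ^ 3 = 1) (h1 : κ ≠ 1) {g : G} (e : (g : G ⧸ V) = κ) (hb : V ⊓ C_[g] ≠ ⊥) :
    # (V ⊓ C_[g] : Subgroup G) = 4 := by
  obtain ⟨r, r3, hr⟩ := h.lift κ h3
  have a := md' r3 (A := V) fun a ha => hn.conj_mem a ha r
  rw [h.c16, show V ⊓ C_[r] = V ⊓ C_[g] from le_antisymm (fun _ => h.Fe (hr.trans e.symm)) fun _ => h.Fe (e.trans hr.symm)] at a
  exact h.inv4 inf_le_left (h.ne (e ▸ h1)) hb (a.symm.trans (by decide))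

theorem core {σ ζ θ ρ : G ⧸ V} {T : Subgroup (G ⧸ V)} (R : Rel σ ζ θ ρ T)
    (fp : ∀ g : G, IsConj σ g → V ⊓ C_[g] = ⊥) : ¬ SectionalPRankLE 2 4 G := fun hr => by
  obtain ⟨s, s3, rfl⟩ := h.lift σ R.s3
  obtain ⟨r, r3, rfl⟩ := h.lift ρ R.r3
  obtain ⟨z, rfl⟩ := QuotientGroup.mk_surjective ζ
  obtain ⟨t, rfl⟩ := QuotientGroup.mk_surjective θ
  have k : ∀ g : G, (g : G ⧸ V) = 1 → g ∈ V := fun g => (QuotientGroup.eq_one_iff g).1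
  have i4 : ∀ A ≤ V, A ≠ V → A ≠ ⊥ → (∀ a ∈ A, s * a * s⁻¹ ∈ A) → # A = 4 := fun A le h1 h2 h3 => by
    have a := md' s3 h3
    rw [eq_bot_iff.2 ((inf_le_inf_right _ le).trans (fp s (IsConj.refl _)).le), card_bot] at a
    exact h.inv4 le h1 h2 a
  obtain ⟨L, hL⟩ : ∃ L, L = V ⊓ C_[z] := ⟨_, rfl⟩
  obtain ⟨M, hM⟩ : ∃ M, M = (V ⊓ C_[t]) ⊓ (V ⊓ C_[s * t * s⁻¹]) := ⟨_, rfl⟩
  have LV : L ≤ V := hL ▸ inf_le_left
  have Ls : ∀ a ∈ L, s * a * s⁻¹ ∈ L := hL ▸ fun a => h.Fc R.sz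
  have Ms : ∀ a ∈ M, s * a * s⁻¹ ∈ M := hM ▸ fun a ha => by
    have b1 := h.Fc (s := s) (k := s * t * s⁻¹) rfl ha.1
    have b2 := h.Fc (s := s) (k := t * (s * t * s⁻¹)) R.st ha.2
    refine ⟨⟨b1.1, ?_⟩, b1⟩
    have := (show Commute _ _ from mc.1 b2.2).mul_right (show Commute _ _ from mc.1 b1.2).inv_right
    rw [mul_inv_cancel_right] at this
    exact mc.2 this
  have V1 : V ≠ ⊥ := fun e => by simpa [e] using h.c16
  have L1 : L ≠ ⊥ := hL ▸ h.fix le_rfl V1 (k _ R.z2) fun a ha => hn.conj_mem a ha z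
  have LM : L ⊓ M ≠ ⊥ := by
    have a1 := h.fix LV L1 (k _ R.t2) (hL ▸ fun a => h.Fc R.zt)
    have a2 := h.fix (inf_le_left.trans LV) a1 (g := s * t * s⁻¹) (by simpa [mul_assoc] using hn.conj_mem _ (k (t * t) R.t2) s)
      fun a ha => ⟨hL ▸ h.Fc R.zt' (hL ▸ ha.1), (h.Fc R.tt ⟨LV ha.1, ha.2⟩).2⟩
    exact fun e => a2 (eq_bot_iff.2 fun a ha => e.le ⟨ha.1.1, hM ▸ ⟨⟨LV ha.1.1, ha.1.2⟩, LV ha.1.1, ha.2⟩⟩)
  have LnV : L ≠ V := hL ▸ h.ne R.z1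
  have MV : M ≤ V ⊓ C_[t] := hM ▸ inf_le_left
  have c1 := i4 L LV LnV L1 Ls
  have c2 := i4 M (MV.trans inf_le_left) (fun e => h.ne R.t1 (le_antisymm inf_le_left (e.ge.trans MV)))
    (fun e => LM (by rw [e, inf_bot_eq])) Ms
  have c3 := i4 (L ⊓ M) (inf_le_left.trans LV) (fun e => LnV (le_antisymm LV (e.ge.trans inf_le_left))) LM
    fun a ha => ⟨Ls a ha.1, Ms a ha.2⟩
  have eLM : L = M := (eq_of_le_of_card_ge inf_le_left (c1.trans c3.symm).le).symm.trans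
    (eq_of_le_of_card_ge inf_le_right (c2.trans c3.symm).le)
  have q1 : ∀ g : G, (g : G ⧸ V) = z → g * g ∈ L := fun g e =>
    hL ▸ h.Fe e ⟨k _ (by rw [QuotientGroup.mk_mul, e, R.z2]), mc.2 (mul_assoc _ _ _)⟩
  have q2 : ∀ g : G, (g : G ⧸ V) = t → g * g ∈ L := fun g e => by
    have h3 : ∀ x : G, (x : G ⧸ V) = t → (x * s) ^ 3 = 1 := fun x e => mem_bot.1 ((fp (x * s)
      (by rw [QuotientGroup.mk_mul, e]; exact R.cj)).le ⟨k _ (by rw [QuotientGroup.mk_pow, QuotientGroup.mk_mul, e, R.ts]),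
        mc.2 (Commute.pow_self _ 3)⟩)
    have a1 := h3 g e
    have a2 := h3 g⁻¹ (by rw [QuotientGroup.mk_inv, e, inv_eq_of_mul_eq_one_right R.t2])
    have a3 : Commute g (s * g * s⁻¹) := by
      have b1 : g * (s * g * s⁻¹) = (s * (s * g * s⁻¹) * s⁻¹)⁻¹ := by
        refine eq_inv_of_mul_eq_one_left ?_
        calc _ = (g * s) ^ 3 * (s ^ 3)⁻¹ := by simp only [pow_succ, pow_zero]; group
          _ = _ := by rw [a1, s3]; group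
      have b2 : (s * g * s⁻¹) * g = (s * (s * g * s⁻¹) * s⁻¹)⁻¹ := by
        refine eq_inv_of_mul_eq_one_right (inv_eq_one.1 ?_)
        calc _ = (g⁻¹ * s) ^ 3 * (s ^ 3)⁻¹ := by simp only [pow_succ, pow_zero]; group
          _ = _ := by rw [a2, s3]; group
      exact b1.trans b2.symm
    have a4 : g * g ∈ V := k _ (by rw [QuotientGroup.mk_mul, e, R.t2])
    rw [eLM, hM]
    exact ⟨h.Fe e ⟨a4, mc.2 (mul_assoc _ _ _)⟩, h.Fe (g := s * g * s⁻¹) (by simp [e]) ⟨a4, mc.2 (a3.mul_left a3)⟩⟩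
  have bb : ∀ {y : G}, (∀ g : G, (g : G ⧸ V) = y → g * g ∈ L) → ∀ v ∈ V, v * (y * v * y⁻¹) ∈ L := fun {y} hy v hv => by
    have := L.mul_mem (hy (v * y) (by rw [QuotientGroup.mk_mul, (QuotientGroup.eq_one_iff v).2 hv, one_mul])) (L.inv_mem (hy y rfl))
    rwa [show v * y * (v * y) * (y * y)⁻¹ = v * (y * v * y⁻¹) by group] at this
  have Lz : ∀ a ∈ L, z * a * z⁻¹ = a := fun a ha => mul_inv_eq_iff_eq_mul.2 (mc.1 (hL ▸ ha).2).symm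
  have b3 : ∀ y : G, (y : G ⧸ V) = z * t → ∀ v ∈ V, v * (y * v * y⁻¹) ∈ L := fun y e v hv => by
    have := L.mul_mem (bb q1 v hv) (bb q2 v hv)
    rw [← Lz _ (bb q2 v hv)] at this
    rw [h.act (k := z * t) e hv]
    convert this using 1
    calc _ = v * z * (v * v) * t * v * t⁻¹ * z⁻¹ := by rw [h.sq hv]; group
      _ = _ := by group
  have q3 : ∀ y : G, (y : G ⧸ V) = z * t → y * y ∈ L := fun y e => by
    have y2 : ∀ y : G, (y : G ⧸ V) = z * t → y * y ∈ V := fun y e => k _ (by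
      rw [QuotientGroup.mk_mul, e]
      calc _ = z * ((t : G ⧸ V) * z * (t : G ⧸ V)⁻¹) * (t * t) := by group
        _ = _ := by rw [R.zt, R.z2, R.t2, one_mul])
    have LD : L ≤ V ⊓ C_[y] := fun a ha => h.Fe (g := z * t) e.symm ⟨LV ha, mc.2
      ((show Commute _ _ from mc.1 (hL ▸ ha).2).mul_right (show Commute _ _ from mc.1 (MV (eLM ▸ ha)).2))⟩
    have Dr : ∀ a ∈ V ⊓ C_[y], r * a * r⁻¹ ∈ V ⊓ C_[y] := fun a => h.Fc (by rw [e]; exact R.rc)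
    have key : V ⊓ C_[y] ⊓ C_[r] ≤ L := fun n hx => by
      by_cases n1 : n = 1
      · exact n1 ▸ L.one_mem
      have U4 := h.four R.r3 R.r1 rfl fun e => n1 (mem_bot.1 (e.le ⟨hx.1.1, hx.2⟩))
      by_cases hU : V ⊓ C_[r] ≤ C_[y]
      · have a := md' r3 Dr
        rw [inf_right_comm, inf_eq_left.2 hU, U4] at a
        have := h.inv4 inf_le_left (h.ne (e ▸ R.zt1)) (fun e => L1 (eq_bot_iff.2 (LD.trans e.le))) (a.trans (by decide))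
        exact eq_of_le_of_card_ge LD (this.trans c1.symm).le ▸ hx.1
      obtain ⟨u, hu, u1⟩ := SetLike.not_le_iff_exists.1 hU
      have a1 : u * (y * u * y⁻¹) ∈ V ⊓ C_[r] := mul_mem hu (h.Fc (by
        rw [e, mul_inv_eq_iff_eq_mul]; exact (mul_inv_eq_iff_eq_mul.1 R.rc).symm) hu)
      have a2 := H04.card_lt_of_lt (lt_of_le_of_ne (inf_le_left : V ⊓ C_[r] ⊓ C_[y] ≤ _) (mt inf_eq_left.1 hU))
      have a3 := card_dvd_of_le (inf_le_left : V ⊓ C_[r] ⊓ C_[y] ≤ _)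
      rw [U4] at a2 a3
      have a4 : # (V ⊓ C_[r] ⊓ C_[y] : Subgroup G) ≤ 2 := by
        generalize # (V ⊓ C_[r] ⊓ C_[y] : Subgroup G) = m at *
        interval_cases m <;> omega
      rw [eq_two a4 ⟨⟨hx.1.1, hx.2⟩, hx.1.2⟩ ⟨a1, h.bm (y2 y e) hu.1⟩ n1 (h.bne hu.1 u1)]
      exact b3 y e u hu.1
    have d : ∀ x : G, (x : G ⧸ V) = z * t → x * x * (y * y) ∈ L := fun x e' => by
      have hw : x * y⁻¹ ∈ V := k _ (by rw [QuotientGroup.mk_mul, QuotientGroup.mk_inv, e, e', mul_inv_cancel])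
      have := b3 y e _ hw
      rwa [show x * y⁻¹ * (y * (x * y⁻¹) * y⁻¹) = x * x * (y * y)⁻¹ by group, inv_eq_of_mul_eq_one_right (h.sq (y2 y e))] at this
    have e1 : ((r * y * r⁻¹ : G) : G ⧸ V) = z * t := by rw [← R.rc, ← e]; rfl
    have e2 : ((r * (r * y * r⁻¹) * r⁻¹ : G) : G ⧸ V) = z * t := by rw [← R.rc, ← e1]; rfl
    have d1 := d _ e1
    have d2 := d _ e2
    have u0 : y * y ∈ V ⊓ C_[y] := ⟨y2 y e, mc.2 (mul_assoc _ _ _)⟩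
    rw [show ∀ x : G, r * x * r⁻¹ * (r * x * r⁻¹) = r * (x * x) * r⁻¹ from fun x => by group] at d1 d2
    rw [show ∀ x : G, r * x * r⁻¹ * (r * x * r⁻¹) = r * (x * x) * r⁻¹ from fun x => by group] at d2
    generalize y * y = u at u0 d1 d2
    have u1 := Dr u u0
    have u2 := Dr _ u1
    have N := key (x := u * (r * u * r⁻¹) * (r * (r * u * r⁻¹) * r⁻¹)) ⟨mul_mem (mul_mem u0 u1) u2, mc.2 (mul_inv_eq_iff_eq_mul.1 (by
      calc _ = (r * u * r⁻¹) * (r * (r * u * r⁻¹) * r⁻¹) * (r ^ 3 * u * (r ^ 3)⁻¹) := by simp only [pow_succ, pow_zero]; group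
        _ = _ := by rw [r3, one_mul, inv_one, mul_one, h.cm (V.mul_mem u1.1 u2.1) u0.1, mul_assoc u])).symm⟩
    have := L.mul_mem (L.mul_mem (L.inv_mem d1) N) (L.inv_mem d2)
    rw [h.cm u1.1 u0.1, show ∀ a b c : G, a⁻¹ * (a * b) * (b * c)⁻¹ = b * c⁻¹ * b⁻¹ from fun a b c => by group,
      h.cm u2.1 (V.inv_mem u0.1), mul_inv_cancel_right] at this
    exact inv_mem_iff.1 this
  have cj : ∀ {κ : G ⧸ V}, (∀ g : G, (g : G ⧸ V) = κ → g * g ∈ L) → ∀ (n : ℕ) (g : G),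
      (g : G ⧸ V) = (s : G ⧸ V) ^ n * κ * ((s : G ⧸ V) ^ n)⁻¹ → g * g ∈ L := fun {κ} hκ n => by
    induction n with
    | zero => exact fun g e => hκ g (by simpa using e)
    | succ n ih =>
      intro g e
      have := Ls _ (ih (s⁻¹ * g * s) (by rw [QuotientGroup.mk_mul, QuotientGroup.mk_mul, QuotientGroup.mk_inv, e]; group))
      rwa [show s * (s⁻¹ * g * s * (s⁻¹ * g * s)) * s⁻¹ = g * g by group] at this
  have q : ∀ g ∈ T.comap (QuotientGroup.mk' V), g * g ∈ L := fun g hg => by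
    rcases R.mem _ hg with e | e | ⟨n, -, e | e⟩
    · exact h.sq (k g e) ▸ L.one_mem
    exacts [q1 g e, cj q2 n g e, cj q3 n g e]
  have LP : L ≤ T.comap (QuotientGroup.mk' V) := LV.trans ((QuotientGroup.ker_mk' V).ge.trans (ker_le_comap _ _))
  have f1 := sectional_iff.1 hr _ L LP (commutator_le.2 fun a ha b hb => by
    have := L.mul_mem (L.mul_mem (q a ha) (q _ (mul_mem (inv_mem ha) hb))) (q _ (inv_mem hb))
    rwa [show a * a * (a⁻¹ * b * (a⁻¹ * b)) * (b⁻¹ * b⁻¹) = a * b * a⁻¹ * b⁻¹ by group] at this) fun x hx => pow_two x ▸ q x hx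
  have f2 := BG.card_mul_relIndex LP
  rw [A5.card_comap, c1, h.c16, R.c8] at f2
  omega

end St

end H04.S6
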