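import Cfsg.Agent.H04.L3d
import Cfsg.Agent.H04.S6a

/-! 2-constrained groups of sectional rank at most four with `X/O₂(X) ≅ L₃(2)` (S3105). -/

set_option autoImplicit false
open Cfsg BG Subgroup H02.Hig
open scoped commutatorElement

local notation "#" => Nat.card

namespace H04.L3

universe u
variable {G : Type u} [Group G] [Finite G]

theorem rng {A : Subgroup G} {σ : G} (ab : ∀ a ∈ A, ∀ b ∈ A, a * b = b * a) (nm : ∀ a ∈ A, σ * a * σ⁻¹ ∈ A) :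
    ∃ S ≤ A, (∀ y, y ∈ S ↔ ∃ a ∈ A, a⁻¹ * (σ * a * σ⁻¹) = y) ∧ # (A ⊓ C_[σ] : Subgroup G) * # S = # A := by
  let f : A →* G := MonoidHom.mk' (fun a => (a : G)⁻¹ * (σ * a * σ⁻¹)) fun a b => by
    rw [coe_mul, ← conj_mul, mul_inv_rev, mul_assoc, ← mul_assoc (a : G)⁻¹, ← mul_assoc (b : G)⁻¹,
      ab _ (inv_mem b.2) _ (mul_mem (inv_mem a.2) (nm a a.2)), mul_assoc]
  refine ⟨f.range, ?_, fun y => ⟨fun ⟨a, e⟩ => ⟨a, a.2, e⟩, fun ⟨a, ha, e⟩ => ⟨⟨a, ha⟩, e⟩⟩, ?_⟩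
  · rintro _ ⟨a, rfl⟩; exact mul_mem (inv_mem a.2) (nm a a.2)
  rw [← index_ker, inf_comm, ← card_inf_mul_relIndex C_[σ] A, relIndex, show f.ker = C_[σ].subgroupOf A from Subgroup.ext fun a =>
    inv_mul_eq_one.trans (eq_mul_inv_iff_mul_eq.trans mem_centralizer_singleton_iff.symm)]

theorem ctr {Q : Subgroup G} [hQ : Q.Normal] {σ z : G} (s7 : σ ^ 7 = 1) (hz : z ∈ Q) (z2 : z * z = 1) (z1 : z ≠ 1) (zc : ∀ g, g * z * g⁻¹ = z)
    [(zpowers z).Normal] {S : Subgroup (G ⧸ zpowers z)} (h : St (Q.map (QuotientGroup.mk' _)) (QuotientGroup.mk' _ σ) S) : ∃ S, St Q σ S := by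
  have cN : # (zpowers z) = 2 := by rw [Nat.card_zpowers, orderOf_eq_prime (pow_two z ▸ z2) z1]
  have cS := A5.card_comap _ S
  have lW := zpowers_le.2 hz
  have nc : ∀ n ∈ zpowers z, ∀ g, g * n = n * g := by
    rintro _ ⟨i, rfl⟩ g
    exact (Commute.zpow_right (mul_inv_eq_iff_eq_mul.1 (zc g)) i).eq
  have n2 : ∀ n ∈ zpowers z, n ≠ 1 → n = z := fun n hn n1 => S6.eq_two cN.le hn (mem_zpowers z) n1 z1
  have n3 : ∀ n ∈ zpowers z, n * n = 1 := fun n hn => by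
    by_cases e : n = 1
    exacts [by rw [e, one_mul], by rw [n2 n hn e, z2]]
  have nN : ∀ g, g ∈ N_(zpowers z) := fun g => H01.le_normalizer_of_normal ⊤ _ trivial
  generalize zpowers z = N at *
  obtain ⟨π, hπ⟩ : ∃ π, π = QuotientGroup.mk' N := ⟨_, rfl⟩
  rw [← hπ] at h cS
  have lq := h.lq hπ lW
  have dec := h.dec' hπ lW s7 (by rw [cN]; decide)
  have i7 := h.i7 hπ lW s7
  have k : ∀ x, π x = 1 ↔ x ∈ N := fun x => hπ ▸ QuotientGroup.eq_one_iff x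
  have lS : N ≤ S.comap π := fun x hx => mem_comap.2 ((k x).2 hx ▸ one_mem _)
  have cm : ∀ q ∈ Q, ∀ s ∈ S.comap π, ⁅q, s⁆ ∈ N := fun q hq s hs => (k _).1 (by
    rw [map_commutatorElement, commutatorElement_eq_one_iff_mul_comm]; exact h.cq hs _ (mem_map_of_mem π hq))
  have sq : ∀ s ∈ S.comap π, s * s ∈ N := fun s hs => (k _).1 (by rw [map_mul, h.sq _ hs])
  have nm : ∀ s ∈ S.comap π, σ * s * σ⁻¹ ∈ S.comap π := fun s hs => by simpa using h.nm _ hs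
  have fp : ∀ s ∈ S.comap π, ⁅σ, s⁆ ∈ N → s ∈ N := fun s hs e => (k s).1 (h.fp.le ⟨hs, mem_centralizer_singleton_iff.2
    (commutatorElement_eq_one_iff_mul_comm.1 (by rw [← map_commutatorElement, k]; exact e)).symm⟩)
  rw [cN, h.c8] at cS
  generalize S.comap π = A at *
  have el : ∀ s ∈ A, s * s = 1 := by
    by_contra c
    have c1 : ∀ s ∈ A, s ∉ N → s * s = z := fun s hs e => n2 _ (sq s hs) fun a => (i7 (fun s => s * s = 1) (fun s e => by
      rw [conj_mul, e]; simp) (fun s hs w hw e => by rw [mul_assoc, ← mul_assoc w, ← nc w hw, mul_assoc s w, n3 w hw, mul_one, e]) (one_mul 1) s hs a).elim e c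
    obtain ⟨a, ha, a1⟩ := SetLike.not_le_iff_exists.1 fun e : A ≤ N => by have := card_le_of_le e; omega
    have a2 := relIndex_centralizer_le (x := a) (D := A) (cm a (lq ha))
    have a3 := card_inf_mul_relIndex C_[a] A
    have a4 := card_sup_zpowers (p := 2) N (nN a) a1 (pow_two a ▸ sq a ha)
    obtain ⟨b, hb, b1⟩ := SetLike.not_le_iff_exists.1 fun e : C_[a] ⊓ A ≤ N ⊔ zpowers a => by have := card_le_of_le e; nlinarith
    have := c1 _ (mul_mem ha hb.2) fun e => b1 ((mul_mem_cancel_left (mem_sup_right (mem_zpowers a))).1 (mem_sup_left e))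
    rw [mul_assoc, ← mul_assoc b, mem_centralizer_singleton_iff.1 hb.1, mul_assoc a b, ← mul_assoc a, c1 a ha a1,
      c1 b hb.2 fun e => b1 (mem_sup_left e), z2] at this
    exact z1 this.symm
  have ab : ∀ a ∈ A, ∀ b ∈ A, a * b = b * a := fun a ha b hb => commutatorElement_eq_one_iff_mul_comm.1 (comm_mem_of_sq (B := ⊥) el ha hb)
  obtain ⟨T, le, mT, cT⟩ := rng ab nm
  have nσ : N ≤ C_[σ] := fun n hn => mem_centralizer_singleton_iff.2 (nc n hn σ).symm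
  have e1 : A ⊓ C_[σ] = N := le_antisymm (fun s hs => fp s hs.1 (by
    rw [commutatorElement_eq_one_iff_mul_comm.2 (mem_centralizer_singleton_iff.1 hs.2).symm]; exact one_mem _)) (le_inf lS nσ)
  rw [e1, cN, cS] at cT
  have dj : T ⊓ N = ⊥ := eq_bot_iff.2 fun y hy => by
    obtain ⟨a, ha, rfl⟩ := (mT y).1 hy.1
    have := fp a ha (by rw [commutatorElement_def, ← ab _ (inv_mem ha) _ (nm a ha)]; exact hy.2)
    rw [mem_bot, nc a this σ]; group
  have e2 : T ⊔ N = A := eq_of_le_of_card_le (sup_le le lS) (by rw [H02.card_sup_of_disjoint (fun g _ => nN g) dj, cN]; omega)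
  refine ⟨T, le.trans lq, fun y hy q hq => ?_, fun s hs => el s (le hs), by omega, eq_bot_iff.2 fun y hy => dj.le ⟨hy.1, e1.le ⟨le hy.1, hy.2⟩⟩,
    fun y hy => ?_, fun y hy => ?_⟩
  · obtain ⟨s, hs, c, hc, rfl⟩ := dec q hq
    rw [mul_assoc, ← mul_assoc y, ← ab s hs y (le hy), mul_assoc, mul_left_cancel_iff]
    obtain ⟨a, ha, rfl⟩ := (mT y).1 hy
    have m := cm c hc.1 a ha
    have e := mem_centralizer_singleton_iff.1 hc.2
    calc _ = a⁻¹ * ⁅c, a⁆⁻¹ * (c * σ) * a * σ⁻¹ := by rw [commutatorElement_def]; group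
      _ = a⁻¹ * (⁅c, a⁆⁻¹ * σ) * ⁅c, a⁆ * a * (c * σ⁻¹) := by rw [e, commutatorElement_def]; group
      _ = _ := by rw [← nc _ (inv_mem m), ← (show Commute c σ from e).inv_right.eq.symm]; group
  · obtain ⟨a, ha, rfl⟩ := (mT y).1 hy
    exact (mT _).2 ⟨_, nm a ha, by group⟩
  · obtain ⟨s, hs, c, hc, rfl⟩ := dec y hy
    have : N.Normal := normalizer_eq_top_iff.1 (eq_top_iff.2 fun g _ => nN g)
    obtain ⟨a, ha, n, hn, rfl⟩ := mem_sup_of_normal_right.1 (e2.ge hs)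
    exact ⟨a, ha, n * c, mul_mem ⟨lW hn, nσ hn⟩ hc, mul_assoc _ _ _⟩

theorem no16 {Q N : Subgroup G} [hN : N.Normal] (ix : Q.index = 168) {σ : G} (s7 : σ ^ 7 = 1) (nc : ∀ z ∈ N, (∀ g, g * z * g⁻¹ = z) → z = 1)
    (mn : ∀ M : Subgroup G, M.Normal → M ≤ N → M = ⊥ ∨ M = N) (cq : N ≤ C_(Q)) (ab : ∀ a ∈ N, ∀ b ∈ N, a * b = b * a) (c1 : # N = 16)
    (c2 : # (N ⊓ C_[σ] : Subgroup G) = 2) : False := by
  obtain ⟨⟨z, hz⟩, z1⟩ := ne_bot_iff_exists_ne_one.1 (mt Subgroup.card_eq_one.2 (c2 ▸ by decide : # (N ⊓ C_[σ] : Subgroup G) ≠ 1))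
  have z1 : z ≠ 1 := fun e => z1 (Subtype.ext e)
  obtain ⟨T, le, mT, cT⟩ := rng ab fun a ha => hN.conj_mem a ha σ
  have s1 : {y | IsConj z y} ⊆ (N : Set G) \ {1} := fun y hy => by
    obtain ⟨g, rfl⟩ := isConj_iff.1 hy
    exact ⟨hN.conj_mem z hz.1 g, by simpa using z1⟩
  have s2 := H02.Suz.card_modEq_fix (by decide : Nat.Prime 7) s7 (T := {y | IsConj z y}) fun y hy => hy.trans (isConj_iff.2 ⟨σ, rfl⟩)
  rw [show {y | y ∈ {y | IsConj z y} ∧ y * σ = σ * y} = {z} from Set.ext fun y => ⟨fun hy => S6.eq_two c2.le ⟨(s1 hy.1).1,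
    mem_centralizer_singleton_iff.2 hy.2⟩ hz (s1 hy.1).2 z1, fun hy => by
      rw [show y = z from hy]; exact ⟨IsConj.refl z, mem_centralizer_singleton_iff.1 hz.2⟩⟩, Nat.card_coe_set_eq, Nat.card_coe_set_eq, Set.ncard_singleton] at s2
  have s3 := Set.ncard_sdiff_singleton_add_one N.one_mem
  have s4 := Set.ncard_le_ncard s1
  have s5 : {y | IsConj z y}.ncard ≠ 1 := fun a => z1 (nc z hz.1 fun g => by
    obtain ⟨y, hy⟩ := Set.ncard_eq_one.1 a
    exact (hy.le (isConj_iff.2 ⟨g, rfl⟩)).trans (hy.le (IsConj.refl z)).symm)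
  have s6 := index_dvd_of_le (fun q hq => mem_centralizer_singleton_iff.2 (cq hz.1 q hq) : Q ≤ C_[z])
  have s8 := Set.ncard_sdiff s1
  rw [ncard_coe_subgroup, c1] at s3
  rw [c2] at cT
  rw [← cls, ix] at s6
  rw [Nat.ModEq] at s2
  have s9 : {y | IsConj z y}.ncard ≠ 15 := fun e => by rw [e] at s6; omega
  obtain ⟨Y, hY⟩ : ∃ Y, Y = ((N : Set G) \ {1}) \ {y | IsConj z y} := ⟨_, rfl⟩
  rw [← hY] at s8
  have y1 : ∀ g, ∀ y ∈ Y, g * y * g⁻¹ ∈ Y := fun g y hy => by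
    rw [hY] at hy ⊢
    exact ⟨⟨hN.conj_mem y hy.1.1 g, by simpa using hy.1.2⟩, fun a => hy.2 (a.trans (isConj_iff.2 ⟨g, rfl⟩).symm)⟩
  have y2 : ∀ y ∈ Y, ∀ y' ∈ Y, y⁻¹ * y' ∈ T := fun y hy => by
    have a := H02.Suz.card_modEq_fix (by decide : Nat.Prime 7) s7 (T := {u | u ∈ Y ∧ y⁻¹ * u ∈ T}) fun u hu => ⟨y1 σ u hu.1, by
      simpa [mul_assoc] using mul_mem hu.2 ((mT _).2 ⟨u, (hY.le hu.1).1.1, rfl⟩)⟩
    rw [Set.eq_empty_of_forall_notMem (s := {u | u ∈ {u | u ∈ Y ∧ y⁻¹ * u ∈ T} ∧ _}) fun u hu => (hY.le hu.1.1).2 (S6.eq_two c2.le ⟨(hY.le hu.1.1).1.1,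
      mem_centralizer_singleton_iff.2 hu.2⟩ hz (hY.le hu.1.1).1.2 z1 ▸ IsConj.refl _), Nat.card_coe_set_eq, Nat.card_coe_set_eq, Set.ncard_empty] at a
    have b := Nat.le_of_dvd ((Set.ncard_pos (s := {u | u ∈ Y ∧ y⁻¹ * u ∈ T}) (Set.toFinite _)).2 ⟨y, hy, by simp⟩) (Nat.modEq_zero_iff_dvd.1 a)
    exact fun u hu => ((Set.eq_of_subset_of_ncard_le (fun _ h => h.1 : {u | u ∈ Y ∧ y⁻¹ * u ∈ T} ⊆ Y) (by omega)).ge hu).2
  obtain ⟨y, hy, y', hy', ne⟩ := (Set.one_lt_ncard (Set.toFinite Y)).1 (by omega)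
  have := card_le_of_le (((mn T.normalCore inferInstance ((normalCore_le T).trans le)).resolve_left fun e => ne (inv_mul_eq_one.1 (e.le fun g => by
    simpa [mul_assoc] using y2 _ (y1 g y hy) _ (y1 g y' hy')))).ge.trans (normalCore_le T))
  omega

theorem str (n : ℕ) : ∀ (G : Type u) [Group G] [Finite G], # G = n → SectionalPRankLE 2 4 G → ∀ (Q : Subgroup G) [Q.Normal], IsPGroup 2 Q →
    (∀ K : Subgroup G, K.Normal → Q ≤ K → K = Q ∨ K = ⊤) → Q.index = 168 → ∀ σ : G, σ ^ 7 = 1 → σ ∉ Q → Q ≤ C_[σ] ∨ ∃ S, St Q σ S := by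
  induction n using Nat.strong_induction_on with | _ n IH => ?_
  intro G _ _ hn hr Q hQ pg sm ix σ s7 hσ
  have ih : ∀ (N : Subgroup G) [N.Normal], N ≠ ⊥ → N ≤ Q → ¬ 7 ∣ # N → (∀ y ∈ Q, ∃ n ∈ N, y * n ∈ C_[σ]) ∨
      ∃ S, St (Q.map (QuotientGroup.mk' N)) (QuotientGroup.mk' N σ) S := fun N _ h1 h2 h3 => by
    have sf := QuotientGroup.mk'_surjective N
    have kr : (QuotientGroup.mk' N).ker ≤ Q := by rwa [QuotientGroup.ker_mk']
    have := hQ.map _ sf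
    refine (IH _ ?_ _ rfl (sectional_of_surjective hr _ sf) _ (pg.map _) (fun K _ hK => (sm (K.comap _) inferInstance
      (map_le_iff_le_comap.1 hK)).imp (fun e => by rw [← e, map_comap_eq_self_of_surjective sf]) fun e => by
        rw [← map_comap_eq_self_of_surjective sf K, e, map_top_of_surjective _ sf]) ((index_map_eq _ sf kr).trans ix) _
      (by rw [← map_pow, s7, map_one]) (by rwa [← mem_comap, comap_map_eq_self kr])).imp_left fun e y hy => lf s7 h3 (e (mem_map_of_mem _ hy))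
    have := card_eq_card_quotient_mul_card_subgroup N
    have := (one_lt_card_iff_ne_bot N).2 h1
    have : 0 < # (G ⧸ N) := Nat.card_pos
    nlinarith
  by_cases nc : ∀ z ∈ Q, z * z = 1 → (∀ g, g * z * g⁻¹ = z) → z = 1
  swap
  · push Not at nc
    obtain ⟨z, hz, z2, zc, z1⟩ := nc
    have : (zpowers z).Normal := ⟨by rintro _ ⟨i, rfl⟩ g; rw [← conj_zpow, zc]; exact ⟨i, rfl⟩⟩
    refine (ih (zpowers z) (mt zpowers_eq_bot.1 z1) (zpowers_le.2 hz) (by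
      rw [Nat.card_zpowers, orderOf_eq_prime (pow_two z ▸ z2) z1]; decide)).imp (fun e y hy => ?_) fun ⟨S, h⟩ => ctr s7 hz z2 z1 zc h
    obtain ⟨n, hn, e⟩ := e y hy
    exact (mul_mem_cancel_right ((zpowers_le.2 (mem_centralizer_singleton_iff.2 (mul_inv_eq_iff_eq_mul.1 (zc σ)).symm)) hn)).1 e
  by_cases q1 : Q = ⊥
  · exact .inl (q1 ▸ bot_le)
  obtain ⟨N, hN, n1, le, mn⟩ := H02.exists_minimal_normal_le Q q1
  obtain ⟨x, x1, x2, x3, x4⟩ := exists_central_step' pg le le_norm_bot (H01.le_normalizer_of_normal _ _) (mt le_bot_iff.1 n1)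
  have ab : IsMulCommutative ↥(N ⊓ C_(Q)) := isMulCommutative_iff'.2 fun x hx y hy => hy.2 x (le hx.1)
  have e : ∀ y ∈ N, y ∈ N ⊓ C_(Q) ∧ y ^ 2 = 1 := fun y hy => (mem_omegaOne_iff_of_comm ab).1 (((mn (omegaOne 2 (N ⊓ C_(Q))) ⟨fun x hx g =>
    mem_omegaOne (Normal.conj_mem inferInstance x (omegaOne_le _ hx) g) (by rw [conj_pow, ((mem_omegaOne_iff_of_comm ab).1 hx).2]; simp)⟩
    ((omegaOne_le _).trans inf_le_left)).resolve_left fun a => x2 (a.le (mem_omegaOne ⟨x1, fun g hg =>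
      (commutatorElement_eq_one_iff_mul_comm.1 (x4 g hg)).symm⟩ x3))).ge hy)
  have cq : N ≤ C_(Q) := fun y hy => (e y hy).1.2
  have ab' : ∀ a ∈ N, ∀ b ∈ N, a * b = b * a := fun a ha b hb => cq hb a (le ha)
  have a := A5.md (by decide : Nat.Prime 7) s7 N
  obtain ⟨i, hi⟩ := IsPGroup.iff_card.1 (pg.to_le le)
  obtain ⟨j, hj⟩ := IsPGroup.iff_card.1 (pg.to_le ((inf_le_left : N ⊓ C_[σ] ≤ N).trans le))
  have b := pRankLE_iff'.1 (pRankLE_of_sectional hr) N ⟨isMulCommutative_iff'.2 ab', fun y hy => (e y hy).2⟩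
  have c := card_lt_of_lt (lt_of_le_of_ne (inf_le_left : N ⊓ C_[σ] ≤ N) fun d => x2 (nc x (le x1) (pow_two x ▸ x3) fun g =>
    mul_inv_eq_iff_eq_mul.2 ((((sm C_(N) inferInstance (cent_symm cq)).resolve_left fun f => hσ (f.le fun y hy =>
      mem_centralizer_singleton_iff.1 (d.ge hy).2)).ge (mem_top g)) x x1).symm))
  have d : # N = 8 ∧ # (N ⊓ C_[σ] : Subgroup G) = 1 ∨ # N = 16 ∧ # (N ⊓ C_[σ] : Subgroup G) = 2 := by
    rw [hi, hj] at a c ⊢
    rw [hi, Nat.pow_le_pow_iff_right Nat.one_lt_two] at b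
    rw [Nat.pow_lt_pow_iff_right Nat.one_lt_two] at c
    interval_cases i <;> interval_cases j <;> simp_all [Nat.ModEq]
  obtain ⟨d1, d2⟩ := d.resolve_right fun d => no16 ix s7 (fun z hz => nc z (le hz) (pow_two z ▸ (e z hz).2)) mn cq ab' d.1 d.2
  have w2 : ∀ w ∈ N, w * w = 1 := fun w hw => pow_two w ▸ (e w hw).2
  rw [Subgroup.card_eq_one] at d2
  refine .inr ⟨N, le, cq, w2, d1, d2, fun s hs => hN.conj_mem s hs σ, fun y hy => ?_⟩
  obtain ⟨n, hn, f⟩ := (ih N n1 le (by rw [d1]; decide)).resolve_right (fun ⟨S, h⟩ => two' hr pg sm ix s7 nc le cq w2 d1 d2 h) y hy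
  exact ⟨n⁻¹, inv_mem hn, y * n, ⟨Q.mul_mem hy (le hn), f⟩, by rw [cq hn y hy, inv_mul_cancel_left]⟩

theorem main (hr : SectionalPRankLE 2 4 G) {Q : Subgroup G} [Q.Normal] (pg : IsPGroup 2 Q) (sm : ∀ K : Subgroup G, K.Normal → Q ≤ K → K = Q ∨ K = ⊤)
    (ix : Q.index = 168) (hC : C_(Q) ≤ Q) : (IsElementaryAbelian 2 Q ∧ (# Q = 8 ∨ # Q = 16)) ∨
      Nonempty (Q ≃* Multiplicative (ZMod 4) × (Fin 3 → Multiplicative (ZMod 2))) := by
  have : Fact (Nat.Prime 7) := ⟨by decide⟩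
  obtain ⟨σ, o⟩ := exists_prime_orderOf_dvd_card' (G := G) 7 (Dvd.dvd.trans (by rw [ix]; decide) Q.index_dvd_card)
  have s7 : σ ^ 7 = 1 := o ▸ pow_orderOf_eq_one σ
  have hσ : σ ∉ Q := fun a => absurd (o.symm.trans (orderOf_eq_one_iff.2 (od pg a (n := 7) (by decide) ((zpow_natCast σ 7).trans s7)))) (by decide)
  obtain ⟨S, h⟩ := (str _ G rfl hr Q pg sm ix σ s7 hσ).resolve_left fun a => hσ (hC fun y hy => mem_centralizer_singleton_iff.1 (a hy))
  obtain ⟨c, hc⟩ := h.cyc hr pg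
  have c4 := one hr pg sm ix hσ h hc
  have cQ := h.card
  rw [← hc, Nat.card_zpowers] at cQ
  by_cases c2 : c ^ 2 = 1
  · refine .inl ⟨⟨isMulCommutative_iff'.2 fun _ a _ b => h.ab hr pg a b, fun y hy => ?_⟩, ?_⟩
    · obtain ⟨s, hs, u, hu, rfl⟩ := h.dec y hy
      obtain ⟨i, rfl⟩ := hc.ge hu
      rw [(h.ab hr pg (h.le hs) hu.1).mul_pow, pow_two s, h.sq s hs, one_mul, ← zpow_natCast, ← zpow_mul, mul_comm, zpow_mul, zpow_natCast, c2, one_zpow]
    · have := orderOf_le_of_pow_eq_one two_pos c2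
      have := orderOf_pos c
      omega
  have o4 : orderOf c = 4 := orderOf_eq_prime_pow (p := 2) (n := 1) c2 c4
  obtain ⟨e2⟩ := nonempty_mulEquiv_of_elemAb (G := S) (H := Fin 3 → Multiplicative (ZMod 2)) (p := 2) (isMulCommutative_iff'.2 fun _ a _ b =>
    h.cq b _ (h.le a)) (fun x => Subtype.ext ((pow_two _).trans (h.sq x x.2))) inferInstance (by decide) (by simp [h.c8])
  have cm : ∀ (a : zpowers c) (b : S), Commute ((zpowers c).subtype a) (S.subtype b) := fun a b => h.cq b.2 _ (hc.le a.2).1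
  have inj := (MonoidHom.noncommCoprod_injective _ _ cm).2 ⟨subtype_injective _, subtype_injective _, by
    rw [range_subtype, range_subtype, hc, disjoint_iff, inf_comm, h.dj]⟩
  exact .inr ⟨(MulEquiv.subgroupCongr (by rw [MonoidHom.noncommCoprod_range, range_subtype, range_subtype, hc, sup_comm, ← h.eq])).trans
    ((MonoidHom.ofInjective inj).symm.trans ((mulEquivOfCyclicCardEq (by simp [o4])).prodCongr e2))⟩

end H04.L3
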