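import Cfsg.Agent.H09.QFacts

/-! Vanishing of `H¹(Ω, V)` for orthogonal groups over `F₂` built from minus planes. -/

set_option autoImplicit false
open Module H10 H10.Form Subgroup Cfsg

namespace H04.OH

variable {V : Type*} [AddCommGroup V] [Module (ZMod 2) V] {φ : Form (ZMod 2) V}

theorem aa (x : V) : x + x = 0 := by rw [← two_smul (ZMod 2), show (2 : ZMod 2) = 0 from rfl, zero_smul]

def Co (F : φ.Isom → V) : Prop := ∀ g ∈ commutator φ.Isom, ∀ h ∈ commutator φ.Isom, F (g * h) = F g + g.1 (F h)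

def Co.K {F : φ.Isom → V} (h : Co F) (v : V) : Subgroup φ.Isom where
  carrier := {g | g ∈ commutator φ.Isom ∧ F g = g.1 v - v}
  mul_mem' := fun {a b} ha hb => ⟨mul_mem ha.1 hb.1, by rw [h a ha.1 b hb.1, ha.2, hb.2, map_sub, Isom.mul_apply]; abel⟩
  one_mem' := ⟨one_mem _, by simpa using h 1 (one_mem _) 1 (one_mem _)⟩
  inv_mem' := fun {a} ha => ⟨inv_mem ha.1, by
    have h1 : F 1 = 0 := by simpa using h 1 (one_mem _) 1 (one_mem _)
    have := h a ha.1 _ (inv_mem ha.1)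
    rw [mul_inv_cancel, h1, ha.2] at this
    apply a.1.injective
    rw [map_sub, ← Isom.mul_apply, mul_inv_cancel, eq_neg_of_add_eq_zero_right this.symm, neg_sub]; rfl⟩

theorem Co.cent {F : φ.Isom → V} (h : Co F) (v : V) (c : φ.Isom) (hc : c ∈ h.K v) (fp : ∀ x, c.1 x = x → x = 0) (g : φ.Isom)
    (hg : g ∈ commutator φ.Isom) (e : g * c = c * g) : g ∈ h.K v := ⟨hg, sub_eq_zero.1 (fp _ (by
  have a := h g hg c hc.1
  rw [e, h c hc.1 g hg, hc.2, map_sub, ← Isom.mul_apply, e, Isom.mul_apply] at a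
  rw [map_sub, map_sub, eq_sub_of_add_eq' a]; abel))⟩

def R (K : Subgroup φ.Isom) (u w : V) : Prop := φ.refl u * φ.refl w ∈ K

noncomputable abbrev d (φ : Form (ZMod 2) V) (p : V × V) : φ.Isom := φ.refl p.1 * φ.refl p.2
noncomputable def pr (φ : Form (ZMod 2) V) (l : List (V × V)) : φ.Isom := (l.map (d φ)).prod
def Or (φ : Form (ZMod 2) V) (p : V × V) (x : V) : Prop := φ.B p.1 x = 0 ∧ φ.B p.2 x = 0
def Mi (φ : Form (ZMod 2) V) (p : V × V) : Prop := φ.Q p.1 = 1 ∧ φ.Q p.2 = 1 ∧ φ.B p.1 p.2 = 1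
def Gd (φ : Form (ZMod 2) V) (l : List (V × V)) : Prop :=
  (∀ p ∈ l, Mi φ p) ∧ l.Pairwise fun p q => Or φ q p.1 ∧ Or φ q p.2

variable [Finite V] [φ.Nondeg] (hq : φ.IsQuad) {K : Subgroup φ.Isom} {u w x : V}
include hq

theorem rf (hu : φ.Q u = 1) (x : V) : (φ.refl u).1 x = x + φ.B u x • u := by
  rw [hq.refl_apply, hu, inv_one, show -(1 : ZMod 2) = 1 from rfl, one_mul]

theorem bs (x : V) : φ.B x x = 0 := by rw [hq.B_self, show (2 : ZMod 2) = 0 from rfl, zero_mul]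

theorem R.rfl' (u : V) : R K u u := by rw [R, hq.refl_mul_self]; exact one_mem _
theorem R.symm (h : R K u w) : R K w u := by simpa [R, hq.refl_inv] using inv_mem h
theorem R.trans (h : R K u w) (h' : R K w x) : R K u x := by
  have := mul_mem h h'
  rwa [mul_assoc, ← mul_assoc (φ.refl w), hq.refl_mul_self, one_mul] at this
theorem R.t (h : R K u w) : R K u ((φ.refl u).1 w) := by
  rw [R, ← hq.refl_conj, ← mul_assoc, ← mul_assoc, hq.refl_mul_self, one_mul, hq.refl_inv]; exact h.symm hq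
theorem R.cj (h : R K u w) {g : φ.Isom} (hg : g ∈ K) : R K (g.1 u) (g.1 w) := by
  rw [R, ← hq.refl_conj, ← hq.refl_conj, conj_mul]; exact mul_mem (mul_mem hg h) (inv_mem hg)

theorem om (hg : φ.Good) (hn : 2 ≤ finrank (ZMod 2) V) (hu : φ.Q u = 1) (hw : φ.Q w = 1) :
    φ.refl u * φ.refl w ∈ commutator φ.Isom := by
  rw [hq.commutator_eq_ker_dickson hg hn rfl]
  simp [hq.dickson_refl hg (hu ▸ one_ne_zero), hq.dickson_refl hg (hw ▸ one_ne_zero)]

theorem fin (hg : φ.Good) (hn : 2 ≤ finrank (ZMod 2) V) {a : V} (h : ∀ u, φ.Q u = 1 → R K a u) : commutator φ.Isom ≤ K := fun k hk => by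
  obtain ⟨l, hl, rfl⟩ := H09.exists_list_refl hq hg k
  rw [hq.commutator_eq_ker_dickson hg hn rfl, MonoidHom.mem_ker, H09.dickson_list hq hg l hl,
    neg_one_pow_eq_one_iff_even (by decide)] at hk
  have o : ∀ z : ZMod 2, z ≠ 0 → z = 1 := by decide
  induction l using List.twoStepInduction with
  | nil => exact one_mem _
  | singleton a => simp at hk
  | cons_cons a b l ih _ =>
    rw [List.map_cons, List.map_cons, List.prod_cons, List.prod_cons, ← mul_assoc]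
    exact mul_mem (((h a (o _ (hl a (by simp)))).symm hq).trans hq (h b (o _ (hl b (by simp)))))
      (ih (fun v hv => hl v (by simp [hv])) (by simpa [Nat.even_add_one] using hk))

theorem d_fix {p : V × V} (h : Or φ p x) : (d φ p).1 x = x := by
  rw [Isom.mul_apply, hq.refl_of_orth h.2, hq.refl_of_orth h.1]

theorem d_ap {p : V × V} (h : Mi φ p) (x : V) :
    (d φ p).1 x = x + φ.B p.2 x • p.2 + (φ.B p.1 x + φ.B p.2 x) • p.1 := by
  rw [Isom.mul_apply, rf hq h.1, rf hq h.2.1, map_add, φ.B_smul_right, h.2.2, mul_one]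

theorem d_cube {p : V × V} (h : Mi φ p) : d φ p ^ 3 = 1 := by
  have a : φ.refl p.1 * φ.refl p.2 * (φ.refl p.1)⁻¹ = φ.refl p.2 * φ.refl p.1 * (φ.refl p.2)⁻¹ := by
    rw [hq.refl_conj, hq.refl_conj, rf hq h.1, rf hq h.2.1, hq.B_comm p.2, h.2.2, one_smul, one_smul, add_comm]
  rw [hq.refl_inv, hq.refl_inv] at a
  calc _ = φ.refl p.1 * φ.refl p.2 * φ.refl p.1 * (φ.refl p.2 * φ.refl p.1 * φ.refl p.2) := by
        simp only [pow_succ, pow_zero, one_mul, mul_assoc]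
    _ = 1 := by
      rw [← a]
      simp only [mul_assoc, ← mul_assoc (φ.refl p.1) (φ.refl p.1), ← mul_assoc (φ.refl p.2) (φ.refl p.2), hq.refl_mul_self, one_mul]

theorem d_comm {g : φ.Isom} {p : V × V} (h1 : g.1 p.1 = p.1) (h2 : g.1 p.2 = p.2) : Commute (d φ p) g := by
  have : ∀ x, g.1 x = x → Commute (φ.refl x) g := fun x e => (mul_inv_eq_iff_eq_mul.1 (by rw [hq.refl_conj, e])).symm
  exact (this _ h1).mul_left (this _ h2)

theorem pr_fix {l : List (V × V)} (h : ∀ p ∈ l, Or φ p x) : (pr φ l).1 x = x := by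
  induction l with
  | nil => rfl
  | cons p l ih =>
    rw [pr, List.map_cons, List.prod_cons, Isom.mul_apply, ← pr, ih fun q hq => h q (by simp [hq]), d_fix hq (h p (by simp))]

theorem pr_spec {l : List (V × V)} (h : Gd φ l) : pr φ l ^ 3 = 1 ∧ ∀ v, (pr φ l).1 v = v → ∀ p ∈ l, Or φ p v := by
  induction l with
  | nil => exact ⟨one_pow 3, by simp⟩
  | cons p l ih =>
    obtain ⟨h1, h2⟩ := h
    rw [List.pairwise_cons] at h2
    obtain ⟨i1, i2⟩ := ih ⟨fun q hq => h1 q (by simp [hq]), h2.2⟩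
    have f1 := pr_fix hq fun q hq => (h2.1 q hq).1
    have f2 := pr_fix hq fun q hq => (h2.1 q hq).2
    have m := h1 p (by simp)
    rw [pr, List.map_cons, List.prod_cons, ← pr]
    refine ⟨by rw [(d_comm hq f1 f2).mul_pow, d_cube hq m, i1, one_mul], fun v hv => ?_⟩
    rw [Isom.mul_apply, d_ap hq m] at hv
    have a1 := (pr φ l).2.B p.1 v
    have a2 := (pr φ l).2.B p.2 v
    rw [f1] at a1
    rw [f2] at a2
    have b1 := congrArg (φ.B p.1) hv
    have b2 := congrArg (φ.B p.2) hv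
    simp only [map_add, φ.B_smul_right, bs hq, m.2.2, hq.B_comm p.2 p.1, a1, a2, mul_one, mul_zero, add_zero, add_eq_left] at b1 b2
    rw [b1, add_zero] at b2
    rw [a1, a2, b1, b2, add_zero, zero_smul, zero_smul, add_zero, add_zero] at hv
    exact List.forall_mem_cons.2 ⟨⟨b2, b1⟩, i2 v hv⟩

variable (hg : φ.Good) (hn : 2 ≤ finrank (ZMod 2) V)
  (hA : ∀ c ∈ K, (∀ x, c.1 x = x → x = 0) → ∀ g ∈ commutator φ.Isom, g * c = c * g → g ∈ K)
include hg hn hA

theorem mv {c : φ.Isom} (hc : c ∈ K) (c3 : c ^ 3 = 1) (fp : ∀ x, c.1 x = x → x = 0) (hu : φ.Q u = 1) : R K u (c.1 u) := by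
  have e : c.1 (c.1 (c.1 u)) = u := by rw [← Isom.mul_apply, ← Isom.mul_apply, ← pow_three', c3]; rfl
  have a : c.1 (c.1 u) = u + c.1 u := by
    have := fp (c.1 (c.1 u) + (u + c.1 u)) (by rw [map_add, map_add, e]; abel)
    rw [← add_left_inj (u + c.1 u), this, aa]
  have q1 : φ.Q (c.1 u) = 1 := (c.2.Q u).trans hu
  have b : φ.B (c.1 u) u = 1 := by
    have := (c.2.Q (c.1 u)).trans q1
    rwa [a, hq.Q_add, hu, q1, show (1 + 1 : ZMod 2) = 0 from rfl, zero_add, hq.B_comm] at this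
  refine hA c hc fp _ (om hq hg hn hu q1) (mul_inv_eq_iff_eq_mul.1 ?_).symm
  rw [← conj_mul, hq.refl_conj, hq.refl_conj, a, show u + c.1 u = (φ.refl (c.1 u)).1 u by rw [rf hq q1, b, one_smul],
    ← hq.refl_conj (φ.refl (c.1 u)) u, ← mul_assoc, ← mul_assoc, hq.refl_mul_self, one_mul, hq.refl_inv]

theorem toA {p : V × V} {l : List (V × V)} (h : Gd φ (p :: l)) (sp : ∀ v, (∀ q ∈ p :: l, Or φ q v) → v = 0)
    (h1 : d φ p ∈ K) (h2 : pr φ l ∈ K) (hw : φ.Q w = 1) (h3 : ¬ Or φ p w) : R K p.1 w := by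
  have m := h.1 p (by simp)
  have h' : Gd φ (p.swap :: l) := ⟨List.forall_mem_cons.2 ⟨⟨m.2.1, m.1, (hq.B_comm _ _).trans m.2.2⟩, fun q hq => h.1 q (by simp [hq])⟩,
    List.pairwise_cons.2 ⟨fun q hq => ((List.pairwise_cons.1 h.2).1 q hq).symm, (List.pairwise_cons.1 h.2).2⟩⟩
  have q : φ.Q (((pr φ l)⁻¹).1 w) = 1 := (((pr φ l)⁻¹).2.Q w).trans hw
  have a1 := mv hq hg hn hA (c := pr φ (p :: l)) (mul_mem h1 h2) (pr_spec hq h).1 (fun v e => sp v ((pr_spec hq h).2 v e)) q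
  have a2 := mv hq hg hn hA (c := pr φ (p.swap :: l)) (mul_mem (R.symm hq h1) h2) (pr_spec hq h').1 (fun v e => sp v fun r hr => by
    have := (pr_spec hq h').2 v e
    rw [List.forall_mem_cons] at this
    exact (List.forall_mem_cons (p := fun q => Or φ q v)).2 ⟨this.1.symm, this.2⟩ r hr) q
  have a3 := ((a1.symm hq).trans hq a2).cj hq (mul_mem h1 h1)
  simp only [← Isom.mul_apply, pr, List.map_cons, List.prod_cons] at a3
  rw [show ∀ a c : φ.Isom, a * a * (a * c * c⁻¹) = a ^ 3 from fun a c => by rw [mul_inv_cancel_right, pow_three'], d_cube hq m,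
    mul_inv_cancel_right, show d φ p.swap = (d φ p)⁻¹ by rw [mul_inv_rev, hq.refl_inv, hq.refl_inv]; rfl, mul_inv_cancel_right] at a3
  have a4 := R.t hq (u := w) a3
  have z : ∀ z : ZMod 2, z = 0 ∨ z = 1 := by decide
  rw [rf hq hw, d_ap hq m] at a4
  simp only [map_add (φ.B w), φ.B_smul_right, bs hq, hq.B_comm w p.1, hq.B_comm w p.2] at a4
  refine R.trans hq ?_ (a4.symm hq)
  have s : ∀ y z : V, w + y + z + w = y + z := fun y z => by rw [add_right_comm, add_right_comm w, aa, zero_add]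
  have t : (1 + 1 : ZMod 2) = 0 := rfl
  rcases z (φ.B p.1 w) with e | e <;> rcases z (φ.B p.2 w) with e' | e'
  · exact absurd ⟨e, e'⟩ h3
  all_goals simp only [e, e', mul_zero, mul_one, add_zero, zero_add, one_smul, zero_smul, t, zero_mul]
  · simpa only [s, rf hq m.1, m.2.2, one_smul] using R.t hq h1
  · simpa only [add_right_comm w, aa, zero_add] using R.rfl' hq (K := K) p.1
  · simpa only [add_right_comm w, aa, zero_add, R] using h1

omit hA in
theorem main {a : V × V} {l : List (V × V)} (h : Gd φ l) (ha : a ∈ l) (sp : ∀ v, (∀ q ∈ l, Or φ q v) → v = 0)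
    (cn : ∀ p ∈ l, ∃ w, φ.Q w = 1 ∧ ¬ Or φ a w ∧ ¬ Or φ p w) {F : φ.Isom → V} (hF : Co F) :
    ∃ v, ∀ g ∈ commutator φ.Isom, F g = g.1 v - v := by
  have fp := fun v e => sp v ((pr_spec hq h).2 v e)
  obtain ⟨v, hv⟩ := Finite.injective_iff_surjective.1 (show Function.Injective fun v => (pr φ l).1 v - v from fun x y e =>
    sub_eq_zero.1 (fp _ (by rw [map_sub]; exact sub_eq_sub_iff_sub_eq_sub.1 e))) (F (pr φ l))
  have o : ∀ p ∈ l, d φ p ∈ commutator φ.Isom := fun p hp => om hq hg hn (h.1 p hp).1 (h.1 p hp).2.1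
  have sy : ∀ {p q : V × V}, Or φ q p.1 ∧ Or φ q p.2 → Or φ p q.1 ∧ Or φ p q.2 := fun h =>
    ⟨⟨φ.B_symm_zero h.1.1, φ.B_symm_zero h.2.1⟩, φ.B_symm_zero h.1.2, φ.B_symm_zero h.2.2⟩
  have k : ∀ p ∈ l, d φ p ∈ hF.K v := fun p hp => hF.cent v _ ⟨list_prod_mem (List.forall_mem_map.2 o), hv.symm⟩ fp _ (o p hp)
    (Commute.list_prod_right _ _ (by
      simp only [List.forall_mem_map]
      have : Std.Symm fun p q => Commute (d φ p) (d φ q) := ⟨fun _ _ h => h.symm⟩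
      exact fun q hq' => List.Pairwise.forall_of_forall (R := fun p q => Commute (d φ p) (d φ q))
        (fun _ _ => Commute.refl _) (h.2.imp fun h => d_comm hq (d_fix hq h.1) (d_fix hq h.2)) hp hq'))
  have t : ∀ p ∈ l, ∀ w, φ.Q w = 1 → ¬ Or φ p w → R (hF.K v) p.1 w := fun p hp w hw h3 => by
    obtain ⟨s, t, rfl⟩ := List.append_of_mem hp
    have pm : (s ++ p :: t).Perm (p :: (s ++ t)) := List.perm_middle
    exact toA hq hg hn (hF.cent v) (l := s ++ t) ⟨fun q hq => h.1 q (pm.mem_iff.2 hq), h.2.perm pm sy⟩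
      (fun v hv => sp v fun q hq => hv q (pm.mem_iff.1 hq)) (k p hp) (list_prod_mem (by
        simp only [List.forall_mem_map]; exact fun q hq => k q (pm.mem_iff.2 (by simp [hq])))) hw h3
  refine ⟨v, fun g hg' => (show g ∈ hF.K v from fin hq hg hn (a := a.1) (fun u hu => ?_) hg').2⟩
  obtain ⟨p, hp, h1⟩ : ∃ p ∈ l, ¬ Or φ p u := by
    by_contra! h1
    rw [sp u h1, φ.Q_zero] at hu
    exact zero_ne_one hu
  obtain ⟨w, w1, w2, w3⟩ := cn p hp
  exact ((t a ha w w1 w2).trans hq ((t p hp w w1 w3).symm hq)).trans hq (t p hp u hu h1)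

noncomputable def D (φ : Form (ZMod 2) V) (a b x : V) : V := φ.B b x • b + (φ.B a x + φ.B b x) • a

omit hA in
theorem four {a b c e : V} (m1 : Mi φ (a, b)) (m2 : Mi φ (c, e)) (o1 : Or φ (c, e) a) (o2 : Or φ (a, b) e) (bc : φ.B b c = 1)
    (sol : ∀ x y, x + (x + D φ a b x) + (x + D φ a b x + D φ a b (x + D φ a b x)) = 0 →
      y + (y + D φ c e y) + (y + D φ c e y + D φ c e (y + D φ c e y)) = 0 → ∃ v, D φ a b v = x ∧ D φ c e v = y)
    (all : ∀ u, φ.Q u = 1 → u ∈ [a, b, c, e, b + a, b + c, e + c, b + c + e, b + c + a, b + c + e + a])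
    {F : φ.Isom → V} (hF : Co F) : ∃ v, ∀ g ∈ commutator φ.Isom, F g = g.1 v - v := by
  have ap : ∀ {a b : V}, Mi φ (a, b) → ∀ x, (d φ (a, b)).1 x = x + D φ a b x := fun m x => by rw [d_ap hq m, add_assoc]; rfl
  have n : ∀ {a b : V}, Mi φ (a, b) → ∀ x, F (d φ (a, b)) = x → x + (x + D φ a b x) + (x + D φ a b x + D φ a b (x + D φ a b x)) = 0 :=
    fun {a b} m x e => by
      have o := om hq hg hn m.1 m.2.1
      have h1 : F 1 = 0 := by simpa using hF 1 (one_mem _) 1 (one_mem _)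
      rwa [← d_cube hq m, pow_three, hF _ o _ (mul_mem o o), hF _ o _ o, e, map_add, ap m ((d φ (a, b)).1 x), ap m, ← add_assoc] at h1
  obtain ⟨v, v1, v2⟩ := sol _ _ (n m1 _ rfl) (n m2 _ rfl)
  have k1 : d φ (a, b) ∈ hF.K v := ⟨om hq hg hn m1.1 m1.2.1, by rw [ap m1, v1, add_sub_cancel_left]⟩
  have k2 : d φ (c, e) ∈ hF.K v := ⟨om hq hg hn m2.1 m2.2.1, by rw [ap m2, v2, add_sub_cancel_left]⟩
  have t : (1 + 1 : ZMod 2) = 0 := rfl
  obtain ⟨q1, q2, q3⟩ : φ.Q a = 1 ∧ φ.Q b = 1 ∧ φ.B a b = 1 := m1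
  obtain ⟨q4, q5, q6⟩ : φ.Q c = 1 ∧ φ.Q e = 1 ∧ φ.B c e = 1 := m2
  obtain ⟨q7, q8⟩ : φ.B c a = 0 ∧ φ.B e a = 0 := o1
  obtain ⟨q9, q10⟩ : φ.B a e = 0 ∧ φ.B b e = 0 := o2
  have h1 : R (hF.K v) a b := k1
  have h2 : R (hF.K v) c e := k2
  have a1 := h1.cj hq k2
  have a2 := a1.cj hq k2
  have a3 := h2.cj hq k1
  have a4 := h1.t hq
  have a5 := a1.t hq
  have a6 := a2.t hq
  have a7 := h2.t hq
  simp only [Isom.mul_apply, rf hq q1, rf hq q2, rf hq q4, rf hq q5, map_add, φ.B_smul_right, bs hq, hq.B_comm c b, hq.B_comm e c,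
    hq.B_comm e b, hq.B_comm a c, q3, q6, q7, q8, q9, q10, bc, one_smul, zero_smul, add_zero, zero_add, t] at a1 a2 a3 a4 a5 a6 a7
  refine ⟨v, fun g hg' => (show g ∈ hF.K v from fin hq hg hn (a := a) (fun u hu => ?_) hg').2⟩
  rw [show b + c + (c + e + c) = b + c + e by rw [add_right_comm c, aa, zero_add]] at a2 a6
  rw [add_comm c b] at a3
  have a8 := a5.trans hq a3
  have a9 := a8.trans hq (h2.symm hq)
  have := all u hu
  simp only [List.mem_cons, List.not_mem_nil, or_false] at this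
  rcases this with rfl | rfl | rfl | rfl | rfl | rfl | rfl | rfl | rfl | rfl
  exacts [R.rfl' hq _, h1, a9, a8, a4, a1, a9.trans hq a7, a2, a5, a6]

omit hq hg hn hA in
theorem br {ι : Type} [Fintype ι] [DecidableEq ι] (Q : QuadraticForm (ZMod 2) (ι → ZMod 2))
    (H : ∀ F : (Form.ofQuad Q).Isom → ι → ZMod 2, Co F → ∃ v, ∀ g ∈ commutator (Form.ofQuad Q).Isom, F g = g.1 v - v)
    (f : Omega (ZMod 2) Q → ι → ZMod 2) (hf : ∀ g h, f (g * h) = f g +
      (((g : isometryGroup (ZMod 2) Q) : GL ι (ZMod 2)) : Matrix ι ι (ZMod 2)).mulVec (f h)) :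
    ∃ v, ∀ g, f g = (((g : isometryGroup (ZMod 2) Q) : GL ι (ZMod 2)) : Matrix ι ι (ZMod 2)).mulVec v - v := by
  classical
  have k : ∀ {g}, g ∈ commutator (Form.ofQuad Q).Isom → (isometryEquiv Q).symm g ∈ Omega (ZMod 2) Q :=
    fun h => (mem_commutator_equiv (isometryEquiv Q).symm).2 h
  obtain ⟨v, hv⟩ := H (fun g => if h : g ∈ commutator (Form.ofQuad Q).Isom then f ⟨_, k h⟩ else 0) fun g hg h hh => by
    simp only [hg, hh, mul_mem hg hh, dif_pos]
    have := hf ⟨_, k hg⟩ ⟨_, k hh⟩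
    rw [← isometryEquiv_apply, MulEquiv.apply_symm_apply] at this
    rw [← this]
    exact congrArg f (Subtype.ext (map_mul _ _ _))
  refine ⟨v, fun g => ?_⟩
  have h := (mem_commutator_equiv (isometryEquiv Q)).2 g.2
  have := hv _ h
  simp only [h, dif_pos, MulEquiv.symm_apply_apply] at this
  exact this

end H04.OH
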