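import Mathlib
import Cfsg.Prelude.Def_GeometricClasses
import Cfsg.Agent.L.GL2
import Cfsg.Agent.S3742

/-! Elements of prime order of `PSL₂(q)` conjugate into the normaliser of a quaternion subgroup. -/

set_option autoImplicit false
open Cfsg Matrix L
open scoped MatrixGroups

namespace H04.Q8N

variable {F : Type*} [Field F]

theorem mem_sl {x : GL (Fin 2) F} : x ∈ Geo.specialLinear (Fin 2) F ↔ (x : M2 F).det = 1 := by
  rw [Geo.specialLinear, MonoidHom.mem_ker, Units.ext_iff]; rfl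

theorem conj_of_trace [Finite F] {x y : GL (Fin 2) F} (hx : (x : M2 F).det = 1) (hy : (y : M2 F).det = 1)
    (h4 : (y : M2 F).trace ^ 2 ≠ 4) (ht : (y : M2 F).trace = (x : M2 F).trace) :
    ∃ g ∈ Geo.specialLinear (Fin 2) F, g⁻¹ * x * g = y := by
  obtain ⟨P, hP, e⟩ := (isConj_SL_iff_exists _ _).1
    (isConj_SL_of_disc (g := mkSL _ hy) (h := mkSL _ hx) h4 ht)
  refine ⟨GeneralLinearGroup.mkOfDetNeZero P (by rw [hP]; exact one_ne_zero), mem_sl.2 hP, ?_⟩
  rw [mul_assoc, inv_mul_eq_iff_eq_mul]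
  exact Units.ext e

theorem q8_gens {R : Subgroup (GL (Fin 2) F)} (h2 : (2 : F) ≠ 0) (e : R ≃* QuaternionGroup 2) :
    ∃ I J : GL (Fin 2) F, R = Subgroup.closure {I, J} ∧ (I : M2 F) * I = -1 ∧ (J : M2 F) * J = -1 ∧
      (J : M2 F) * I = -(I * J) ∧ (I : M2 F) * J ≠ J * I := by
  set i := e.symm (.a 1)
  set j := e.symm (.xa 0)
  have hne : ((i : GL (Fin 2) F) : M2 F) * (j : GL (Fin 2) F) ≠ (j : GL (Fin 2) F) * (i : GL (Fin 2) F) := by
    intro h
    have : i * j = j * i := Subtype.ext (Units.ext h)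
    rw [← map_mul, ← map_mul, e.symm.apply_eq_iff_eq] at this
    revert this; decide
  have val : ∀ {a b : R}, a = b → ((a : GL (Fin 2) F) : M2 F) = (b : GL (Fin 2) F) := fun h => by rw [h]
  have r1 : j * j = i * i := by rw [← map_mul, ← map_mul]; congr 1
  have r2 : i * i * (i * i) = 1 := by simp only [i, ← map_mul]; rw [← map_one e.symm]; congr 1
  have r3 : j * i = i * i * (i * j) := by simp only [i, j, ← map_mul]; congr 1
  have r4 : i * i ≠ 1 := by
    rw [← map_mul, ← map_one e.symm, Ne, e.symm.apply_eq_iff_eq]; decide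
  have s1 := val r1
  have s2 := val r2
  have s3 := val r3
  simp only [Subgroup.coe_mul, Units.val_mul, Subgroup.coe_one, Units.val_one] at s1 s2 s3
  have hs : IsScal (((i : GL (Fin 2) F) : M2 F) * ((i : GL (Fin 2) F) : M2 F)) := by
    by_contra hs
    exact hne (commute_of_commute hs (mul_assoc _ _ _).symm (by rw [← s1, mul_assoc]))
  obtain ⟨z, hz⟩ := isScal_iff.1 hs
  have hz1 : z = -1 := by
    rw [hz, smul_mul_smul_comm, one_mul] at s2
    have h1 : z * z = 1 := by simpa using congrFun (congrFun s2 0) 0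
    refine (mul_self_eq_one_iff.1 h1).resolve_left fun h => r4 (Subtype.ext (Units.ext ?_))
    simp only [Subgroup.coe_mul, Units.val_mul, Subgroup.coe_one, Units.val_one]
    rw [hz, h, one_smul]
  rw [hz1, neg_smul, one_smul] at hz
  refine ⟨i, j, ?_, hz, s1.trans hz, by rw [s3, hz, neg_one_mul], hne⟩
  refine le_antisymm (fun x hx => ?_) ((Subgroup.closure_le _).2 ?_)
  · have hi : (i : GL (Fin 2) F) ∈ Subgroup.closure {(i : GL (Fin 2) F), (j : GL (Fin 2) F)} :=
      Subgroup.subset_closure (by simp)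
    have hj : (j : GL (Fin 2) F) ∈ Subgroup.closure {(i : GL (Fin 2) F), (j : GL (Fin 2) F)} :=
      Subgroup.subset_closure (by simp)
    have key : ∀ y : QuaternionGroup 2, ∃ k : Fin 4, y = .a 1 ^ k.1 ∨ y = .xa 0 * .a 1 ^ k.1 := by decide
    obtain ⟨k, hk | hk⟩ := key (e ⟨x, hx⟩)
    · have : (⟨x, hx⟩ : R) = i ^ k.1 := by rw [← map_pow, ← hk, e.symm_apply_apply]
      rw [show x = _ from congrArg Subtype.val this]
      exact pow_mem hi _
    · have : (⟨x, hx⟩ : R) = j * i ^ k.1 := by rw [← map_pow, ← map_mul, ← hk, e.symm_apply_apply]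
      rw [show x = _ from congrArg Subtype.val this]
      exact mul_mem hj (pow_mem hi _)
  · rintro x (rfl | rfl)
    · exact i.2
    · exact j.2

theorem tr_det_of_sq {A : M2 F} (hA : ¬ IsScal A) {a b : F} (h : A * A = a • (1 : M2 F) + b • A) :
    A.det = -a ∧ A.trace = b := by
  have := lin_inj hA (a := -A.det) (b := A.trace) (c := a) (d := b) (by rw [← h, m2_sq]; module)
  exact ⟨by rw [← this.1, neg_neg], this.2⟩

theorem exists_three {R : Subgroup (GL (Fin 2) F)} [Finite R] (h2 : (2 : F) ≠ 0) {I J : GL (Fin 2) F}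
    (hR : R = Subgroup.closure {I, J}) (hI : (I : M2 F) * I = -1) (hJ : (J : M2 F) * J = -1)
    (hJI : (J : M2 F) * I = -(I * J)) (hne : (I : M2 F) * J ≠ J * I) {t : F} (ht : t * t = 1) :
    ∃ W ∈ Geo.subgroupNormalizer R, (W : M2 F).det = 1 ∧ (W : M2 F).trace = t := by
  have hI' : ∀ X : M2 F, (I : M2 F) * (I * X) = -X := fun X => by rw [← mul_assoc, hI, neg_one_mul]
  have hJ' : ∀ X : M2 F, (J : M2 F) * (J * X) = -X := fun X => by rw [← mul_assoc, hJ, neg_one_mul]
  have hJI' : ∀ X : M2 F, (J : M2 F) * (I * X) = -(I * (J * X)) := fun X => by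
    rw [← mul_assoc, hJI, neg_mul, mul_assoc]
  set W : M2 F := (t / 2) • (1 + I + J + I * J) with hW
  have w1 : W * I = J * W := by
    simp only [hW, smul_mul_assoc, mul_smul_comm, add_mul, mul_add, mul_assoc, hI, hJ, hJI, hI', hJ', hJI',
      one_mul, mul_one, mul_neg, neg_neg]
    module
  have w2 : W * J = (I * J) * W := by
    simp only [hW, smul_mul_assoc, mul_smul_comm, add_mul, mul_add, mul_assoc, hI, hJ, hJI, hI', hJ', hJI',
      one_mul, mul_one, mul_neg, neg_neg]
    module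
  have w3 : W * W = (-1 : F) • (1 : M2 F) + t • W := by
    simp only [hW, smul_mul_assoc, mul_smul_comm, add_mul, mul_add, mul_assoc, hI, hJ, hJI, hI', hJ', hJI',
      one_mul, mul_one, mul_neg, neg_neg]
    match_scalars <;> field_simp <;> first | linear_combination (-4) * ht | ring
  have hs : ¬ IsScal W := fun h => by
    obtain ⟨z, hz⟩ := isScal_iff.1 h
    rw [hz] at w1 w3
    have hz0 : z ≠ 0 := by
      rintro rfl
      simpa using congrFun (congrFun w3 0) 0
    rw [smul_mul_assoc, mul_smul_comm, one_mul, mul_one] at w1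
    exact hne (by rw [smul_right_injective _ hz0 w1])
  obtain ⟨hd, htr⟩ := tr_det_of_sq hs w3
  rw [neg_neg] at hd
  let g : GL (Fin 2) F := GeneralLinearGroup.mkOfDetNeZero W (by rw [hd]; exact one_ne_zero)
  refine ⟨g, ?_, hd, htr⟩
  have hi : I ∈ R := hR ▸ Subgroup.subset_closure (by simp)
  have hj : J ∈ R := hR ▸ Subgroup.subset_closure (by simp)
  refine Subgroup.mem_normalizer_fintype (S := (R : Set (GL (Fin 2) F))) fun x hx => ?_
  have : R ≤ R.comap (MulAut.conj g).toMonoidHom := by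
    conv_lhs => rw [hR]
    rw [Subgroup.closure_le]
    rintro y (rfl | rfl)
    · show g * y * g⁻¹ ∈ R
      rw [show g * y = J * g from Units.ext w1, mul_inv_cancel_right]; exact hj
    · show g * y * g⁻¹ ∈ R
      rw [show g * y = I * y * g from Units.ext w2, mul_inv_cancel_right]; exact mul_mem hi hj
  exact this hx

theorem main [Fintype F] (h2 : (2 : F) ≠ 0) (h3 : (3 : F) ≠ 0)
    (R : Subgroup (GL (Fin 2) F)) (hR : Nonempty (↥R ≃* QuaternionGroup 2))
    (r : ℕ) [Fact r.Prime]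
    (hΩ : r ∣ (Geo.subgroupNormalizer R).relIndex (Geo.specialLinear (Fin 2) F)) :
    (∀ x ∈ Geo.specialLinear (Fin 2) F, (∃ z : F, ((x ^ r : GL (Fin 2) F) : Matrix (Fin 2) (Fin 2) F) = z • (1 : Matrix (Fin 2) (Fin 2) F)) →
      (∀ z : F, (x : Matrix (Fin 2) (Fin 2) F) ≠ z • (1 : Matrix (Fin 2) (Fin 2) F)) →
      ∃ g ∈ Geo.specialLinear (Fin 2) F, g⁻¹ * x * g ∈ Geo.subgroupNormalizer R) ↔ (r = 2 ∨ r = 3) := by
  have pr : r.Prime := Fact.out
  obtain ⟨e⟩ := hR
  obtain ⟨I, J, hR, hI, hJ, hJI, hne⟩ := q8_gens h2 e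
  have hi : I ∈ R := hR ▸ Subgroup.subset_closure (by simp)
  have hj : J ∈ R := hR ▸ Subgroup.subset_closure (by simp)
  constructor
  · intro h
    by_contra hr
    obtain ⟨x, hx⟩ := exists_prime_orderOf_dvd_card' (G := Geo.specialLinear (Fin 2) F) r
      (hΩ.trans (Subgroup.relIndex_dvd_card _ _))
    have hx' : orderOf (x : GL (Fin 2) F) = r := by rw [Subgroup.orderOf_coe, hx]
    have hxr : (x : GL (Fin 2) F) ^ r = 1 := hx' ▸ pow_orderOf_eq_one _
    have hns : ∀ z : F, ((x : GL (Fin 2) F) : M2 F) ≠ z • (1 : M2 F) := fun z hz => by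
      have hd := mem_sl.1 x.2
      rw [hz, det_smul, det_one, mul_one, Fintype.card_fin] at hd
      have : (x : GL (Fin 2) F) ^ 2 = 1 := Units.ext (by
        rw [Units.val_pow_eq_pow_val, hz, smul_pow, one_pow, hd, one_smul]; rfl)
      have := (Nat.prime_dvd_prime_iff_eq pr Nat.prime_two).1 (hx' ▸ orderOf_dvd_of_pow_eq_one this)
      exact hr (Or.inl this)
    obtain ⟨g, -, hg⟩ := h x x.2 ⟨1, by rw [hxr, one_smul]; rfl⟩ hns
    set y := g⁻¹ * x * g with hy
    have hyr : y ^ r = 1 := by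
      rw [hy, show g⁻¹ * (x : GL (Fin 2) F) * g = g⁻¹ * x * g⁻¹⁻¹ by rw [inv_inv], conj_pow, hxr]; simp
    let φ : MulAut R := R.normalizerMonoidHom ⟨y, hg⟩
    have hφ : φ ^ r = 1 := by
      rw [← map_pow, ← map_one R.normalizerMonoidHom]; congr 1; exact Subtype.ext hyr
    obtain ⟨e'⟩ := Cfsg.Agent.S3742.result
    have hc : Nat.card (MulAut R) = 24 := by
      rw [Nat.card_congr ((MulAut.congr e).trans e').toEquiv]; simp [Fintype.card_perm, Nat.factorial]
    have h24 : φ ^ 24 = 1 := hc ▸ pow_card_eq_one'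
    have hcop : r.Coprime 24 := (Nat.Prime.coprime_iff_not_dvd pr).2 fun h => by
      rcases pr.dvd_mul.1 (show r ∣ 2 ^ 3 * 3 from h) with h | h
      · exact hr (Or.inl ((Nat.prime_dvd_prime_iff_eq pr Nat.prime_two).1 (pr.dvd_of_dvd_pow h)))
      · exact hr (Or.inr ((Nat.prime_dvd_prime_iff_eq pr Nat.prime_three).1 h))
    have h1 : φ = 1 := by
      have := pow_gcd_eq_one.2 ⟨hφ, h24⟩
      rwa [hcop, pow_one] at this
    have hc : ∀ a ∈ R, (a : M2 F) * y = y * a := fun a ha => by
      have := congrArg Subtype.val (DFunLike.congr_fun h1 ⟨a, ha⟩)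
      change y * a * y⁻¹ = a at this
      rw [mul_inv_eq_iff_eq_mul] at this
      exact (congrArg Units.val this).symm
    have hs : IsScal (y : M2 F) := by
      by_contra hs
      exact hne (commute_of_commute hs (hc I hi) (hc J hj))
    obtain ⟨z, hz⟩ := isScal_iff.1 hs
    apply hns z
    have : (x : GL (Fin 2) F) = g * y * g⁻¹ := by rw [hy]; group
    rw [this, Units.val_mul, Units.val_mul, hz, mul_smul_comm, mul_one, smul_mul_assoc, Units.mul_inv]
  · intro hr x hx ⟨z, hz⟩ hns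
    have hd := mem_sl.1 hx
    have hs : ¬ IsScal (x : M2 F) := fun h => (isScal_iff.1 h).elim hns
    have hsq := m2_sq (x : M2 F)
    rw [hd] at hsq
    rcases hr with rfl | rfl
    · rw [Units.val_pow_eq_pow_val, pow_two] at hz
      have ht := (tr_det_of_sq hs (a := z) (b := 0) (by rw [hz, zero_smul, add_zero])).2
      have hIs : ¬ IsScal (I : M2 F) := fun h => hne (h.commute _)
      obtain ⟨d1, t1⟩ := tr_det_of_sq hIs (a := -1) (b := 0) (by rw [hI]; simp)
      obtain ⟨g, hg, e⟩ := conj_of_trace hd (y := I) (by rw [d1, neg_neg]) (by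
        rw [t1]; intro h; apply h2
        have : (2 : F) * 2 = 0 := by linear_combination -h
        exact mul_self_eq_zero.1 this) (t1.trans ht.symm)
      exact ⟨g, hg, e ▸ Subgroup.le_normalizer hi⟩
    · rw [Units.val_pow_eq_pow_val, pow_succ, pow_two, hsq, sub_mul, smul_mul_assoc, hsq] at hz
      have := lin_inj hs (a := -(x : M2 F).trace) (b := (x : M2 F).trace * (x : M2 F).trace - 1) (c := z) (d := 0)
        (by rw [← hz]; simp only [one_smul, one_mul]; module)
      have ht : (x : M2 F).trace * (x : M2 F).trace = 1 := by linear_combination this.2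
      obtain ⟨W, hW, d1, t1⟩ := exists_three h2 hR hI hJ hJI hne ht
      obtain ⟨g, hg, e⟩ := conj_of_trace hd d1 (by
        rw [t1, pow_two, ht]; intro h; apply h3; linear_combination -h) t1
      exact ⟨g, hg, e ▸ hW⟩

end H04.Q8N
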