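import Cfsg.Agent.H27.ClassSize
import Cfsg.Agent.H01.Basic
import Cfsg.Agent.H02.PCore
import Cfsg.Agent.H03.PResidual

/-! Qian–Wang: the prime graph on class sizes of `p`-singular elements has diameter at most 3. -/

set_option autoImplicit false
open Subgroup Cfsg H27 H01
open scoped Pointwise

namespace H04.QW

variable {G : Type*} [Group G] [Finite G] {p : ℕ} [hp : Fact p.Prime]

theorem syl {D : Subgroup G} (hD : ¬ p ∣ D.index) {u : G} (hu : u ∈ D) (ho : ∃ k, orderOf u = p ^ k) :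
    ∃ P : Sylow p G, (P : Subgroup G) ≤ D ∧ u ∈ P := by
  obtain ⟨R, hR⟩ := exists_sylow_mem (G := D) (p := p) (x := ⟨u, hu⟩) (by simpa using ho)
  exact ⟨(R.isPGroup'.map D.subtype).toSylow (by
    rw [index_map_subtype, hp.out.dvd_mul]; exact not_or.2 ⟨R.not_dvd_index, hD⟩), map_subtype_le _, ⟨_, hR, rfl⟩⟩

theorem sing {x w : G} (hx : ∃ k, orderOf x = p ^ k) (x1 : x ≠ 1) (hw : (orderOf w).Coprime p) (h : Commute x w) :
    p ∣ orderOf (x * w) ∧ cent (x * w) = cent x ⊓ cent w := by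
  obtain ⟨k, hk⟩ := hx
  have c : (orderOf x).Coprime (orderOf w) := hk ▸ hw.symm.pow_left k
  refine ⟨?_, cent_mul_of_coprime h c⟩
  rw [h.orderOf_mul_eq_mul_orderOf_of_coprime c, hk]
  exact (dvd_pow_self p fun e => x1 (orderOf_eq_one_iff.1 (by rw [hk, e, pow_zero]))).mul_right _

theorem pmul {x y : G} (hx : ∃ k, orderOf x = p ^ k) (hy : ∃ k, orderOf y = p ^ k) (h : Commute x y) :
    ∃ k, orderOf (x * y) = p ^ k := by
  obtain ⟨k, hk⟩ := hx
  obtain ⟨l, hl⟩ := hy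
  exact ((Nat.dvd_prime_pow hp.out).1 (by
    rw [pow_add, ← hk, ← hl]; exact h.orderOf_mul_dvd_mul_orderOf : orderOf (x * y) ∣ p ^ (k + l))).imp fun _ a => a.2

theorem pdvd {x : G} (hx : ∃ k, orderOf x = p ^ k) (x1 : x ≠ 1) : p ∣ orderOf x := by
  simpa using (sing hx x1 (w := 1) (by simp) (Commute.one_right x)).1

theorem core {x y : G} (hx : ∃ k, orderOf x = p ^ k) (hy : ∃ k, orderOf y = p ^ k) (x1 : x ≠ 1) (y1 : cs y ≠ 1)
    (hc : Commute x y) (co : (cs x).Coprime (cs y))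
    (H : ∀ z : G, p ∣ orderOf z → (cs z).Coprime (cs x) ∨ (cs z).Coprime (cs y)) (hxy : (cs (x * y)).Coprime (cs y)) :
    False := by
  let X : Set G := {a | IsConj x a}
  have s1 : ∀ g a, a ∈ X ↔ IsConj (x * y) (a * (g * y * g⁻¹)) := fun g => by
    have : (· * (g * y * g⁻¹)) '' X = {a | IsConj (x * y) a} := by
      refine Set.eq_of_subset_of_ncard_le ?_ ?_
      · rintro _ ⟨a, ha, rfl⟩
        obtain ⟨h, rfl⟩ := isConj_iff.1 ha
        obtain ⟨c, hc, d, hd, e⟩ := exists_mul_of_coprime_index co (h⁻¹ * g)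
        refine isConj_iff.2 ⟨h * c, ?_⟩
        rw [show g = h * c * d by rw [mul_assoc, ← e]; group]
        calc _ = h * (c * x * c⁻¹) * c * y * c⁻¹ * h⁻¹ := by group
          _ = h * x * c * (d * y * d⁻¹) * c⁻¹ * h⁻¹ := by rw [mem_cent_iff_conj.1 hc, mem_cent_iff_conj.1 hd]
          _ = _ := by group
      · rw [Set.ncard_image_of_injective _ (mul_left_injective _), ncard_isConj, ncard_isConj]
        refine Nat.le_of_dvd (cs_pos x) (hxy.dvd_of_dvd_mul_right ?_)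
        rw [← index_inf_of_coprime co]
        exact index_dvd_of_le fun g hg => mem_cent_iff_commute.2
          ((mem_cent_iff_commute.1 hg.1).mul_right (mem_cent_iff_commute.1 hg.2))
    exact fun a => ⟨fun h => this.le ⟨a, h, rfl⟩, fun h => by
      obtain ⟨b, hb, e⟩ := this.ge h
      exact mul_right_cancel e ▸ hb⟩
  let N : Subgroup G :=
    { carrier := {n | ∀ a, a ∈ X ↔ a * n ∈ X}
      one_mem' := by simp
      mul_mem' := fun {m n} hm hn a => by rw [hm, hn, mul_assoc]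
      inv_mem' := fun {n} hn a => by rw [hn (a * n⁻¹), inv_mul_cancel_right] }
  have xc : ∀ g a, g * a * g⁻¹ ∈ X ↔ a ∈ X := fun g a =>
    ⟨fun h => h.trans (isConj_iff.2 ⟨g, rfl⟩).symm, fun h => h.trans (isConj_iff.2 ⟨g, rfl⟩)⟩
  have : N.Normal := ⟨fun n hn g a => by
    rw [← xc g⁻¹, hn, ← xc g]; congr! 1; group⟩
  have n1 : ∀ g, g * y * g⁻¹ * y⁻¹ ∈ N := fun g a => by
    rw [s1 g, s1 1]; congr! 1; group
  have n2 : Nat.card N ∣ cs x := by
    have e : X * (N : Set G) = X := Set.Subset.antisymm (by rintro _ ⟨a, ha, n, hn, rfl⟩; exact (hn a).1 ha)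
      (Set.subset_mul_left _ N.one_mem)
    have := card_mul_eq_card_subgroup_mul_card_quotient N X
    rw [e] at this
    exact ⟨_, (card_isConj x).symm.trans this⟩
  have n3 : N ≤ cent y := relIndex_eq_one.1 (Nat.eq_one_of_dvd_coprimes co ((relIndex_dvd_card _ _).trans n2)
    (H27.relIndex_dvd_index_of_normal_right _ _))
  have y2 : ∀ g, g * y * g⁻¹ ∈ cent y := fun g => (mul_mem_cancel_right (inv_mem (self_mem_cent y))).1 (n3 (n1 g))
  have yo : ∀ g, ∃ k, orderOf (g * y * g⁻¹ * y⁻¹) = p ^ k := fun g =>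
    pmul (by rwa [← MulAut.conj_apply, MulEquiv.orderOf_eq]) (by rwa [orderOf_inv]) (mem_cent_iff_commute.1 (y2 g)).inv_right
  have px : p ∣ cs x := by
    obtain ⟨g, hg⟩ : ∃ g, g ∉ cent y := by
      by_contra! h
      exact y1 (index_eq_one.2 ((eq_top_iff' _).2 h))
    exact (pdvd (yo g) fun e => hg (mem_cent_iff_conj.2 (mul_inv_eq_one.1 e))).trans
      ((orderOf_dvd_natCard _ (n1 g)).trans n2)
  have H1 : ∀ z : G, p ∣ orderOf z → p ∣ cs z → (cs z).Coprime (cs y) := fun z a b =>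
    (H z a).resolve_left fun c => hp.out.ne_one (Nat.eq_one_of_dvd_coprimes c b px)
  have H2 : ∀ z : G, p ∣ orderOf z → cs y ∣ cs z → ¬ p ∣ cs z := fun z a b c =>
    y1 (Nat.eq_one_of_dvd_coprimes (H1 z a c) b dvd_rfl)
  have y0 : y ≠ 1 := fun e => y1 (e ▸ cs_one)
  obtain ⟨P, hP⟩ := exists_sylow_le_iff.2 (H2 y (pdvd hy y0) dvd_rfl)
  let C := centralizer (Group.conjugatesOfSet {y})
  have cm : ∀ z, z ∈ C ↔ ∀ g, g * y * g⁻¹ ∈ cent z := fun z => ⟨fun h g => mem_cent.2 (h _ (by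
    simpa [Group.mem_conjugatesOfSet_iff] using ⟨g, rfl⟩)), fun h a ha => by
      obtain ⟨g, rfl⟩ : ∃ g, g * y * g⁻¹ = a := by simpa [Group.mem_conjugatesOfSet_iff] using ha
      exact mem_cent.1 (h g)⟩
  have : C.Normal := ⟨fun z hz g => (cm _).2 fun h => by
    rw [cent_conj, mem_conj_smul_iff]; convert (cm _).1 hz (g⁻¹ * h) using 1; group⟩
  have cy : C ≤ cent y := fun z hz => mem_cent_comm.1 (by simpa using (cm z).1 hz 1)
  have yO : y ∈ pCore p G := by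
    have yA : zpowers y ≤ C ⊓ centralizer C := zpowers_le.2 ⟨(cm y).2 y2, fun z hz => mem_cent.1 (cy hz)⟩
    refine H02.le_pCore_of_subnormal (IsSubnormal.trans yA (Normal.isSubnormal ⟨fun a ha b => ?_⟩)
      (Normal.isSubnormal inferInstance)) (isPGroup_zpowers_iff.2 hy) (mem_zpowers y)
    rwa [show b * a * b⁻¹ = a from Subtype.ext (mul_inv_eq_iff_eq_mul.2 (a.2.2 b b.2.1))]
  have pC : ↑P ≤ C := fun u hu => (cm u).2 fun g => by
    rcases eq_or_ne u 1 with rfl | u1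
    · exact mem_cent_comm.1 (one_mem _)
    by_cases h : p ∣ cs u
    · obtain ⟨c, hc, d, hd, rfl⟩ := exists_mul_of_coprime_index (H1 u (pdvd (orderOf_of_mem_sylow hu) u1) h) g
      rw [show c * d * y * (c * d)⁻¹ = c * (d * y * d⁻¹) * c⁻¹ by group, mem_cent_iff_conj.1 hd]
      exact mul_mem (mul_mem hc (mem_cent_comm.1 (hP hu))) (inv_mem hc)
    · obtain ⟨R, hR⟩ := exists_sylow_le_iff.2 h
      exact hR (H02.pCore_le_sylow R (Normal.conj_mem inferInstance _ yO g))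
  have k1 : cent y ≤ ↑P ⊔ centralizer P := subgroupOf_eq_top.1 (eq_top_of_forall_conj_mem fun k => by
    obtain ⟨u, s, u1, s1, u2, s2, e⟩ := H03.exists_pPart_mul (p := p) (k : G)
    obtain ⟨a, b⟩ := sing hy y0 s2 (mem_cent_iff_commute.1 (zpowers_le.2 k.2 s1)).symm
    obtain ⟨R, r1, r2⟩ := syl (H2 _ a (index_dvd_of_le (b.le.trans inf_le_left))) (u := u) (b.ge ⟨zpowers_le.2 k.2 u1,
      zpowers_le.2 (cent_le_of_mem_zpowers s1 (self_mem_cent _)) u1⟩) u2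
    replace r1 := r1.trans b.le
    obtain ⟨g, hg, e'⟩ := sylow_conj_of_card hP (r1.trans inf_le_left) P.isPGroup' (fun d => P.not_dvd_index
      (d.trans (relIndex_dvd_index_of_le hP))) (Nat.card_congr (R.equiv P).toEquiv)
    refine ⟨⟨g, hg⟩, show g * k * g⁻¹ ∈ ↑P ⊔ centralizer ((P : Subgroup G) : Set G) from ?_⟩
    rw [e, show g * (u * s) * g⁻¹ = g * u * g⁻¹ * (g * s * g⁻¹) by group, ← e']
    refine mul_mem_sup (smul_mem_pointwise_smul _ _ _ r2) ?_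
    rintro _ ⟨v, hv, rfl⟩
    exact (mem_cent_iff_commute.1 (r1 hv).2).map (MulAut.conj g))
  have pN : (P : Subgroup G).Normal := ⟨fun u hu g => by
    have := (MulAut.conj g • P).isPGroup'.inf_normalizer_sylow P
    refine (this.le ⟨smul_mem_pointwise_smul _ _ _ hu, ?_⟩).2
    exact sup_le le_normalizer (centralizer_le_normalizer _) (k1 (cy (Normal.conj_mem inferInstance _ (pC hu) g)))⟩
  have mp : ∀ u : G, (∃ k, orderOf u = p ^ k) → u ∈ (P : Subgroup G) := fun u hu => by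
    obtain ⟨g, hg⟩ := exists_conj_mem_sylow P hu
    exact (pN.mem_comm_iff.1 hg |> (by simpa using ·))
  have g1 : ∀ g : G, ∃ u ∈ (P : Subgroup G), ∃ d ∈ cent x, g = u * d := fun g => by
    obtain ⟨a, ha, b, hb, rfl⟩ := exists_mul_of_coprime_index co.symm g
    obtain ⟨u, hu, c, hc, rfl⟩ := (normal_mul _ _).le (k1 ha)
    exact ⟨u, hu, c * b, mul_mem (mem_cent.2 (hc x (mp x hx)).symm) hb, mul_assoc _ _ _⟩
  obtain ⟨q, hq, qy⟩ := Nat.exists_prime_and_dvd y1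
  have := Fact.mk hq
  have H3 : ∀ z : G, (cs z).Coprime (cs y) → ¬ q ∣ cs z := fun z a b => hq.ne_one (Nat.eq_one_of_dvd_coprimes a b qy)
  obtain ⟨Q, hQ⟩ := exists_sylow_le_iff.2 (H3 x co)
  have cq : ∀ z : G, ¬ q ∣ cs z → ∃ h : G, h⁻¹ * z * h ∈ centralizer (Q : Set G) := fun z hz => by
    obtain ⟨R, hR⟩ := exists_sylow_le_iff.2 hz
    obtain ⟨h, rfl⟩ := MulAction.exists_smul_eq G Q R
    refine ⟨h, fun w hw => ?_⟩
    have := mem_cent.1 (hR (smul_mem_pointwise_smul _ (MulAut.conj h) _ hw))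
    calc _ = h⁻¹ * (h * w * h⁻¹ * z) * h := by group
      _ = h⁻¹ * (z * (h * w * h⁻¹)) * h := congrArg (h⁻¹ * · * h) this
      _ = _ := by group
  have g2 : ↑P ⊔ centralizer (Q : Set G) = ⊤ := eq_top_of_forall_conj_mem fun g => by
    obtain ⟨v, hv, d, hd, rfl⟩ := g1 g
    obtain ⟨u, s, -, s1, u2, s2, rfl⟩ := H03.exists_pPart_mul (p := p) d
    obtain ⟨a, b⟩ := sing hx x1 s2 (mem_cent_iff_commute.1 (zpowers_le.2 hd s1)).symm
    obtain ⟨h, e⟩ := cq s fun d => H3 _ (H1 _ a (px.trans (index_dvd_of_le (b.le.trans inf_le_left))))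
      (d.trans (index_dvd_of_le (b.le.trans inf_le_right)))
    refine ⟨h⁻¹, ?_⟩
    rw [show h⁻¹ * (v * (u * s)) * h⁻¹⁻¹ = h⁻¹ * (v * u) * h⁻¹⁻¹ * (h⁻¹ * s * h) by group]
    exact mul_mem_sup (pN.conj_mem _ (mul_mem hv (mp u u2)) _) e
  have g3 : ↑P ≤ (↑P ⊓ centralizer (Q : Set G)) ⊔ centralizer ((P : Subgroup G) : Set G) :=
    subgroupOf_eq_top.1 (eq_top_of_forall_conj_mem fun z => by
      rcases eq_or_ne (z : G) 1 with z1 | z1
      · exact ⟨1, by simp [mem_subgroupOf, z1]⟩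
      by_cases h : p ∣ cs (z : G)
      · obtain ⟨h, e⟩ := cq z (H3 _ (H1 _ (pdvd (orderOf_of_mem_sylow z.2) z1) h))
        obtain ⟨v, hv, c, hc, rfl⟩ := (normal_mul _ _).le (g2.ge (mem_top h))
        refine ⟨⟨v, hv⟩⁻¹, mem_sup_left (show v⁻¹ * z * v⁻¹⁻¹ ∈ _ from
          mem_inf.2 ⟨mul_mem (mul_mem (inv_mem hv) z.2) (inv_mem (inv_mem hv)), ?_⟩)⟩
        convert mul_mem (mul_mem hc e) (inv_mem hc) using 1
        group
      · obtain ⟨R, hR⟩ := exists_sylow_le_iff.2 h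
        have := P.unique_of_normal pN
        exact ⟨1, mem_sup_right fun w hw => by simpa using mem_cent.1 (hR (Subsingleton.elim P R ▸ hw))⟩)
  have g4 : N ≤ centralizer (Q : Set G) := fun n hn => by
    have xq : x ∈ centralizer (Q : Set G) := fun w hw => mem_cent.1 (hQ hw)
    obtain ⟨g, e⟩ := isConj_iff.1 ((hn x).1 (IsConj.refl x))
    obtain ⟨u, hu, d, hd, rfl⟩ := g1 g
    obtain ⟨c, hc, z, hz, rfl⟩ := (mul_normal _ _).le (g3 hu)
    refine (mul_mem_cancel_left xq).1 ?_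
    rw [← e, show c * z * d * x * (c * z * d)⁻¹ = c * (z * (d * x * d⁻¹) * z⁻¹) * c⁻¹ by group, mem_cent_iff_conj.1 hd,
      ← hz x (mp x hx), mul_inv_cancel_right]
    exact mul_mem (mul_mem hc.2 xq) (inv_mem hc.2)
  refine exists_sylow_le_iff.1 ⟨Q, fun w hw => mem_cent_iff_conj.2 (mul_inv_eq_one.1 (orderOf_eq_one_iff.1 ?_))⟩ qy
  obtain ⟨n, e⟩ : ∃ n, n = w * y * w⁻¹ * y⁻¹ := ⟨_, rfl⟩
  have e1 := g4 (e ▸ n1 w) w hw
  have e2 : ∀ k : ℕ, w ^ k * y * (w ^ k)⁻¹ = n ^ k * y := fun k => by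
    induction k with
    | zero => simp
    | succ k ih =>
      calc _ = w * (w ^ k * y * (w ^ k)⁻¹) * w⁻¹ := by rw [pow_succ']; group
        _ = w * n ^ k * w⁻¹ * n * y := by rw [ih, e]; group
        _ = _ := by rw [(Commute.pow_right e1 k).eq, mul_inv_cancel_right, pow_succ]
  have e3 := e2 (orderOf w)
  rw [pow_orderOf_eq_one, one_mul, inv_one, mul_one, right_eq_mul, ← orderOf_dvd_iff_pow_eq_one] at e3
  obtain ⟨k, hk⟩ := yo w
  obtain ⟨l, hl⟩ := orderOf_of_mem_sylow hw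
  refine Nat.eq_one_of_dvd_coprimes (Nat.coprime_pow_primes k l hp.out hq fun e => ?_) hk.dvd (hl ▸ e ▸ e3)
  exact H2 y (pdvd hy y0) dvd_rfl (e ▸ qy)

theorem link {x y : G} (hx : ∃ k, orderOf x = p ^ k) (hy : ∃ k, orderOf y = p ^ k) (x1 : cs x ≠ 1) (y1 : cs y ≠ 1) :
    ∃ (z : G) (t u : ℕ), p ∣ orderOf z ∧ t.Prime ∧ u.Prime ∧ t ∣ cs x ∧ t ∣ cs z ∧ u ∣ cs z ∧ u ∣ cs y := by
  by_contra h
  have H : ∀ z : G, p ∣ orderOf z → (cs z).Coprime (cs x) ∨ (cs z).Coprime (cs y) := fun z hz => by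
    by_contra! c
    obtain ⟨t, a1, a2, a3⟩ := Nat.Prime.not_coprime_iff_dvd.1 c.1
    obtain ⟨u, b1, b2, b3⟩ := Nat.Prime.not_coprime_iff_dvd.1 c.2
    exact h ⟨z, t, u, hz, a1, b1, a3, a2, b2, b3⟩
  clear h
  have n : ∀ x : G, cs x ≠ 1 → x ≠ 1 := fun x h e => h (e ▸ cs_one)
  have co := (H x (pdvd hx (n x x1))).resolve_left (by rwa [Nat.coprime_self])
  wlog hpy : ¬ p ∣ cs y generalizing x y
  · exact this hy hx y1 x1 (fun z hz => (H z hz).symm) co.symm fun d =>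
      hp.out.ne_one (Nat.eq_one_of_dvd_coprimes co d (not_not.1 hpy))
  obtain ⟨P, hP⟩ := exists_sylow_le_iff.2 hpy
  obtain ⟨g, hg⟩ := exists_conj_mem_sylow P hx
  rw [← cs_conj x g] at H co x1
  replace hx : ∃ k, orderOf (g * x * g⁻¹) = p ^ k := orderOf_of_mem_sylow hg
  have hc := mem_cent_iff_commute.1 (hP hg)
  generalize g * x * g⁻¹ = x at *
  rcases H _ (pdvd (pmul hx hy hc) fun e => y1 (by
    rwa [eq_inv_of_mul_eq_one_left e, cs_inv, Nat.coprime_self] at co)) with h | h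
  · exact core hy hx (n y y1) x1 hc.symm co.symm (fun z hz => (H z hz).symm) (hc.eq ▸ h)
  · exact core hx hy (n x x1) y1 hc co H h

theorem link' (hZ : ¬ p ∣ Nat.card (center G)) {x y : G} (hx : p ∣ orderOf x) (hy : p ∣ orderOf y) :
    ∃ (z : G) (t u : ℕ), p ∣ orderOf z ∧ t.Prime ∧ u.Prime ∧ t ∣ cs x ∧ t ∣ cs z ∧ u ∣ cs z ∧ u ∣ cs y := by
  have k : ∀ x : G, p ∣ orderOf x → ∃ u : G, (∃ k, orderOf u = p ^ k) ∧ cs u ≠ 1 ∧ cs u ∣ cs x := fun x hx => by
    obtain ⟨u, s, u1, -, u2, s2, rfl⟩ := H03.exists_pPart_mul (p := p) x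
    refine ⟨u, u2, fun e => hZ ((pdvd u2 ?_).trans (orderOf_dvd_natCard _ (cs_eq_one_iff.1 e))), cs_dvd_of_mem_zpowers u1⟩
    rintro rfl
    exact hp.out.coprime_iff_not_dvd.1 s2.symm (by simpa using hx)
  obtain ⟨a, a1, a2, a3⟩ := k x hx
  obtain ⟨b, b1, b2, b3⟩ := k y hy
  obtain ⟨z, t, u, h1, h2, h3, h4, h5, h6, h7⟩ := link a1 b1 a2 b2
  exact ⟨z, t, u, h1, h2, h3, h4.trans a3, h5, h6, h7.trans b3⟩

end H04.QW
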