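import Cfsg.Agent.H02.Higman2
import Cfsg.Agent.H02.Suz6
import Cfsg.Agent.H02.HE1
import Cfsg.Agent.H04.BG4
import Cfsg.Agent.S3736
import Cfsg.Agent.H27.ClassSize

/-! A 2-constrained group with an element of order 6 and a 3-element fixed-point-free on a four-group has 2-rank ≥ 3. -/

set_option autoImplicit false
open Cfsg BG Subgroup H02.Suz H02.Hig
open scoped commutatorElement

local notation "#" => Nat.card

namespace H04.R6

variable {G : Type*} [Group G] [Finite G]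

theorem card_of_sq {S Z : Subgroup G} {k : G} {m : ℕ} (hm : 0 < m) (pg : IsPGroup 2 S) (kn : k ∈ N_(S))
    (mem : ∀ x, x ∈ Z ↔ x ∈ S ∧ x * x = 1) (tr : ∀ x ∈ Z, x ≠ 1 → ∀ y ∈ Z, y ≠ 1 → ∃ i : ℕ, k ^ i * x * (k ^ i)⁻¹ = y)
    (hq : # Z = 2 ^ m) (hZc : Z ≤ C_(S)) (hZ0 : Z ≠ ⊥) (hsq : ∀ g ∈ S, g * g ∈ Z) (hne : S ≠ Z) :
    (# S = (2 ^ m) ^ 2 ∨ # S = (2 ^ m) ^ 3) ∧ ∃ z ∈ Z, z ≠ 1 ∧
      (# S : ℤ) = (2 ^ m : ℕ) + # {y | y ∈ S ∧ y * y = z} * ((2 ^ m : ℕ) - 1) := by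
  have hZS : Z ≤ S := fun x hx => ((mem x).1 hx).1
  classical
  have := Fintype.ofFinite S
  have := Fintype.ofFinite Z
  obtain ⟨z₀, hz₀, hz₁⟩ := exists_mem_ne_one hZ0
  obtain ⟨χ, hχ, -, hχ1⟩ := exists_functional (M := ZMod 2) (B := ⊥) CharTwo.add_self_eq_zero
    (fun x hx => ((mem _).1 hx).2) bot_le hz₀ hz₁ 1
  let sq : S → Z := fun x => ⟨x * x, hsq x x.2⟩
  let n : Z → ℕ := fun z => (Finset.univ.filter fun x => sq x = z).card
  have hn1 : n 1 = 2 ^ m := by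
    rw [← hq, Nat.card_eq_fintype_card, ← Finset.card_univ]
    refine Finset.card_bij (fun x hx => ⟨x.1, (mem _).2 ⟨x.2, congrArg Subtype.val
      (Finset.mem_filter.1 hx).2⟩⟩) (fun _ _ => Finset.mem_univ _)
      (fun x _ y _ e => Subtype.ext (congrArg Subtype.val e :)) fun z _ =>
        ⟨⟨z, hZS z.2⟩, Finset.mem_filter.2 ⟨Finset.mem_univ _, Subtype.ext (((mem _).1 z.2).2)⟩, rfl⟩
  have hn2 : ∀ z : Z, z ≠ 1 → n z = n ⟨z₀, hz₀⟩ := fun z hz => by
    obtain ⟨i, hi⟩ := tr z z.2 (fun e => hz (Subtype.ext e)) z₀ hz₀ hz₁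
    have hk := pow_mem kn i
    generalize k ^ i = g at hi hk
    refine Finset.card_bij (fun x _ => ⟨g * x * g⁻¹, conj_mem_of_norm hk x.2⟩)
      (fun x hx => Finset.mem_filter.2 ⟨Finset.mem_univ _, Subtype.ext ?_⟩)
      (fun x _ y _ e => Subtype.ext (by simpa using e)) fun y hy =>
        ⟨⟨g⁻¹ * y * g, conj_mem_of_norm' hk y.2⟩,
          Finset.mem_filter.2 ⟨Finset.mem_univ _, Subtype.ext ?_⟩, Subtype.ext (by simp [mul_assoc])⟩
    · have : x.1 * x = z := congrArg Subtype.val (Finset.mem_filter.1 hx).2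
      simp only [sq, ← hi, ← this]; group
    · have : y.1 * y = z₀ := congrArg Subtype.val (Finset.mem_filter.1 hy).2
      rw [← hi] at this
      calc _ = g⁻¹ * (y.1 * y) * g := by simp only [sq]; group
        _ = _ := by rw [this]; group
  have hsum : ∀ φ : Z → ℤ, ∑ x, φ (sq x) =
      ((2 ^ m : ℕ) : ℤ) * φ 1 + n ⟨z₀, hz₀⟩ * (∑ z, φ z - φ 1) := fun φ => by
    rw [← Finset.sum_fiberwise_of_maps_to (t := Finset.univ) (g := sq) fun _ _ => Finset.mem_univ _,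
      Finset.sum_congr rfl fun z _ => show ∑ x with sq x = z, φ (sq x) = n z * φ z from by
        rw [Finset.sum_congr rfl fun x hx => by rw [(Finset.mem_filter.1 hx).2]]; simp [n],
      ← Finset.add_sum_erase _ _ (Finset.mem_univ 1), hn1,
      ← Finset.add_sum_erase _ _ (Finset.mem_univ 1), add_sub_cancel_left, Finset.mul_sum]
    congr 1
    exact Finset.sum_congr rfl fun z hz => by rw [hn2 z (Finset.ne_of_mem_erase hz)]
  have s1 := hsum fun _ => 1
  have s2 := hsum fun z => sg (χ z)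
  rw [((sum_sg hχ).resolve_left fun e => by simpa [hχ1] using e.2 z₀ hz₀).1] at s2
  simp only [OneMemClass.coe_one, hχ.one, show sg 0 = 1 from rfl, Finset.sum_const,
    Finset.card_univ, ← Nat.card_eq_fintype_card (α := S), ← Nat.card_eq_fintype_card (α := Z),
    hq, nsmul_eq_mul, mul_one, sq] at s1 s2
  refine ⟨?_, z₀, hz₀, hz₁, by
    rw [s1, show n ⟨z₀, hz₀⟩ = # {y | y ∈ S ∧ y * y = z₀} from ?_]
    refine (Nat.card_eq_finsetCard _).symm.trans ?_
    exact Nat.card_congr ⟨fun x => ⟨x.1, x.1.2, congrArg Subtype.val (Finset.mem_filter.1 x.2).2⟩,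
      fun y => ⟨⟨y.1, y.2.1⟩, Finset.mem_filter.2 ⟨Finset.mem_univ _, Subtype.ext y.2.2⟩⟩, fun _ => rfl, fun _ => rfl⟩⟩
  have cz : ∀ x ∈ S, ∀ y ∈ S, ⁅x, y⁆ ∈ Z := fun x hx y hy => comm_mem_of_sq hsq hx hy
  have cj : ∀ g ∈ S, ∀ z ∈ Z, g * z * g⁻¹ = z := fun g hg z hz => by
    rw [hZc hz g hg]; group
  have a1 : ∀ w ∈ S, AddOn S fun x => χ ⁅x, w⁆ := fun w hw x hx y hy => by
    have : ⁅x * y, w⁆ = x * ⁅y, w⁆ * x⁻¹ * ⁅x, w⁆ := by simp only [commutatorElement_def]; group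
    simp only
    rw [this, cj x hx _ (cz y hy w hw), hχ _ (cz y hy w hw) _ (cz x hx w hw), add_comm]
  have a2 : ∀ x ∈ S, ∀ w ∈ S, χ (x * w * (x * w)) = χ (x * x) + χ (w * w) + χ ⁅x, w⁆ :=
    fun x hx w hw => by
      have : x * w * (x * w) = x * x * ⁅x⁻¹, w⁆ * (w * w) := by
        simp only [commutatorElement_def]; group
      rw [this, hχ _ (mul_mem (hsq x hx) (cz _ (inv_mem hx) w hw)) _ (hsq w hw),
        hχ _ (hsq x hx) _ (cz _ (inv_mem hx) w hw), (a1 w hw).inv hx, ZMod.neg_eq_self_mod_two]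
      ring
  let R : Subgroup G :=
    { carrier := {w | w ∈ S ∧ ∀ x ∈ S, χ ⁅x, w⁆ = 0}
      one_mem' := ⟨one_mem _, fun x _ => by simp [hχ.one]⟩
      mul_mem' := fun {v w} hv hw => ⟨mul_mem hv.1 hw.1, fun x hx => by
        have : ⁅x, v * w⁆ = ⁅x, v⁆ * (v * ⁅x, w⁆ * v⁻¹) := by
          simp only [commutatorElement_def]; group
        rw [this, cj v hv.1 _ (cz x hx w hw.1), hχ _ (cz x hx v hv.1) _ (cz x hx w hw.1),
          hv.2 x hx, hw.2 x hx, add_zero]⟩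
      inv_mem' := fun {w} hw => ⟨inv_mem hw.1, fun x hx => by
        have : ⁅x, w⁻¹⁆ = w⁻¹ * ⁅x, w⁆⁻¹ * w⁻¹⁻¹ := by simp only [commutatorElement_def]; group
        rw [this, cj _ (inv_mem hw.1) _ (inv_mem (cz x hx w hw.1)), hχ.inv (cz x hx w hw.1),
          hw.2 x hx, neg_zero]⟩ }
  have := Fintype.ofFinite R
  have s3 : (∑ x : S, sg (χ (x * x))) ^ 2 = # S * ∑ w : R, sg (χ (w * w)) := by
    rw [pow_two, Finset.sum_mul_sum, Finset.sum_congr rfl fun x _ =>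
      (Equiv.sum_comp (Equiv.mulLeft x) _).symm, Finset.sum_comm]
    have e1 : ∀ w x : S, sg (χ (x * x)) * sg (χ (↑(Equiv.mulLeft x w) * ↑(Equiv.mulLeft x w))) =
        sg (χ (w * w)) * sg (χ ⁅x.1, w.1⁆) := fun w x => by
      simp only [Equiv.coe_mulLeft, coe_mul, a2 x x.2 w w.2, ← sg_add]
      congr 1
      rw [← add_assoc, ← add_assoc, CharTwo.add_self_eq_zero, zero_add]
    simp only [e1, ← Finset.mul_sum]
    rw [Finset.mul_sum, ← Finset.sum_filter_of_ne (p := fun w : S => w.1 ∈ R) fun w _ hw => by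
      rcases sum_sg (a1 w w.2) with e | e
      · exact ⟨w.2, e.2⟩
      · exact absurd (by rw [e.1, mul_zero]) hw]
    refine Finset.sum_bij (fun w hw => ⟨w.1, (Finset.mem_filter.1 hw).2⟩)
      (fun _ _ => Finset.mem_univ _) (fun x _ y _ e => Subtype.ext (congrArg Subtype.val e :))
      (fun w _ => ⟨⟨w.1, w.2.1⟩, Finset.mem_filter.2 ⟨Finset.mem_univ _, w.2⟩, rfl⟩) fun w hw => ?_
    rcases sum_sg (a1 w w.2) with e | ⟨-, x, hx, e⟩
    · rw [e.1, mul_comm]
    · exact absurd ((Finset.mem_filter.1 hw).2.2 x hx) e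
  have s4 : ((2 ^ m : ℕ) : ℤ) ∣ ∑ w : R, sg (χ (w * w)) := by
    rcases sum_sg (A := R) (f := fun w => χ (w * w)) (fun v hv w hw => by
      simp only [a2 v hv.1 w hw.1, hw.2 v hv.1, add_zero]) with e | e
    · rw [e.1, ← hq]
      exact Int.natCast_dvd_natCast.2 (card_dvd_of_le fun z hz => ⟨hZS hz, fun x hx => by
        rw [commutatorElement_eq_one_iff_mul_comm.2 (hZc hz x hx), hχ.one]⟩)
    · rw [e.1]; exact dvd_zero _
  obtain ⟨s, hs⟩ := pg_card Nat.prime_two pg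
  have hlt := H01.card_lt_of_lt (hZS.lt_of_ne hne.symm)
  rw [hq, hs, Nat.pow_lt_pow_iff_right Nat.one_lt_two] at hlt
  obtain ⟨j, rfl⟩ := Nat.exists_eq_add_of_le hlt.le
  rw [hs, ← pow_mul, ← pow_mul]
  rw [hs, pow_add] at s1
  rw [s2, hs, pow_add] at s3
  have := card_arith (n := m) (j := j) (c := n ⟨z₀, hz₀⟩) hm (by omega) (by
    zify [Nat.one_le_two_pow (n := m)]
    push_cast at s1
    linear_combination -s1) (by
    obtain ⟨e, he⟩ := s4
    refine ⟨e, ?_⟩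
    rw [he] at s3
    push_cast at s3 ⊢
    linear_combination s3)
  rcases this with rfl | rfl
  · left; congr 1; ring
  · right; congr 1; ring

theorem main (hchar : C_(pCore 2 G) ≤ pCore 2 G) (hsix : ∃ g : G, orderOf g = 6) {d : G} (hd : IsPGroup 3 (zpowers d))
    {W : Subgroup G} (hW : IsElementaryAbelian 2 W) (hW1 : W ≠ ⊥) (hdW : d ∈ N_(W)) (hf : W ⊓ C_[d] = ⊥) :
    ∃ E : Subgroup G, IsElementaryAbelian 2 E ∧ # E = 8 := by
  by_contra h
  have : Fact (Nat.Prime 3) := ⟨Nat.prime_three⟩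
  replace h : ∀ E : Subgroup G, IsElementaryAbelian 2 E → # E ≤ 4 := (pRankLE_iff' (p := 2) (k := 2)).1 (by
    by_contra c; exact h ((not_pRankLE_iff' (p := 2) (k := 2)).1 c))
  have k : ∀ {U A : Subgroup G}, IsElementaryAbelian 2 U → IsPGroup 3 A → A ≤ N_(U) → U ≠ ⊥ → U ⊓ C_(A) = ⊥ → # U = 4 :=
    fun {U A} a b c e f => by
      have h1 := H02.HE.modEq b c
      obtain ⟨j, hj⟩ := pg_card Nat.prime_two (IsElementaryAbelian.isPGroup a)
      have h2 := h U a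
      have h3 := mt (Subgroup.card_eq_one (H := U)).1 e
      rw [f, card_bot, hj] at h1
      rw [hj] at h2 h3 ⊢
      have : j ≤ 2 := (Nat.pow_le_pow_iff_right Nat.one_lt_two).1 h2
      interval_cases j <;> simp_all [Nat.ModEq]
  rw [← centralizer_zpowers] at hf
  have w4 := k hW hd (zpowers_le.2 hdW) hW1 hf
  have k' : ∀ {U : Subgroup G}, U ≤ W → d ∈ N_(U) → U ≠ ⊥ → U = W := fun a b c => eq_of_le_of_card_le a (by
    rw [w4, k (IsElementaryAbelian.of_le hW a) hd (zpowers_le.2 b) c (eq_bot_iff.2 (hf ▸ inf_le_inf_right _ a))])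
  have k2 : ∀ {U : Subgroup G}, IsElementaryAbelian 2 U → U ≤ C_(W) → U ≤ W := fun a b =>
    le_sup_left.trans (eq_of_le_of_card_le le_sup_right (w4 ▸ h _ (IsElementaryAbelian.sup a hW b))).ge
  have k3 : ∀ x ∈ C_(W), x * x = 1 → x ∈ W := fun x a b =>
    k2 (isElementaryAbelian_zpowers (by rw [pow_two, b])) (zpowers_le.2 a) (mem_zpowers x)
  obtain ⟨R, hR⟩ : ∃ R, R = pCore 2 G := ⟨_, rfl⟩
  have r1 : IsPGroup 2 R := hR ▸ H02.pCore_isPGroup 2 G
  have : R.Normal := hR ▸ inferInstance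
  rw [← hR] at hchar
  have r0 : R ≠ ⊥ := fun e => hW1 (eq_bot_iff.2 fun x _ => e ▸ hchar (by simp [e]))
  obtain ⟨Z, hZ⟩ : ∃ Z, Z = omegaOne 2 (R ⊓ C_(R)) := ⟨_, rfl⟩
  have : Z.Normal := hZ ▸ omegaOne_normal _
  have z1 : IsElementaryAbelian 2 Z := hZ ▸ isElementaryAbelian_omegaOne_of_comm (abelian_center R)
  have z2 : Z ≤ R ⊓ C_(R) := hZ ▸ omegaOne_le _
  obtain rfl : W = Z := by
    obtain ⟨z, a, b, c⟩ := exists_fixed_of_normalizes r1 r1 le_normalizer r0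
    obtain ⟨z, a, b, c⟩ := exists_fixed_of_normalizes (IsElementaryAbelian.isPGroup hW) (IsElementaryAbelian.isPGroup z1)
      (H01.le_normalizer_of_normal _ _) (hZ ▸ omegaOne_ne_bot (r1.to_inf_left) fun e => b (e.le ⟨a, c⟩))
    have := k' (k2 (IsElementaryAbelian.of_le z1 inf_le_left) (inf_le_right : Z ⊓ C_(W) ≤ _))
      (kn_inf (H01.le_normalizer_of_normal ⊤ _ trivial) (norm_cent (zpowers_le.2 hdW) (mem_zpowers d))) fun e => b (e.le ⟨a, c⟩)
    exact eq_of_le_of_card_le (this.ge.trans inf_le_left) (w4 ▸ h _ z1)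
  obtain ⟨g, hg⟩ := hsix
  have o2 : orderOf (g ^ 2) = 3 := by rw [orderOf_pow' _ two_ne_zero, hg]; rfl
  have o3 : orderOf (g ^ 3) = 2 := by rw [orderOf_pow' _ three_ne_zero, hg]; rfl
  have c3 : IsPGroup 3 (zpowers (g ^ 2)) := IsPGroup.of_card (n := 1) (by rw [Nat.card_zpowers, o2]; rfl)
  have t2 : IsPGroup 2 (zpowers (g ^ 3)) := IsPGroup.of_card (n := 1) (by rw [Nat.card_zpowers, o3]; rfl)
  have cw : g ^ 2 ∈ C_(W) := by
    have h1 := H02.HE.modEq c3 (H01.le_normalizer_of_normal _ W)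
    obtain ⟨j, hj⟩ := pg_card Nat.prime_two (IsElementaryAbelian.isPGroup hW).to_inf_left (A := W ⊓ C_(zpowers (g ^ 2)))
    have h2 := card_le_of_le (inf_le_left : W ⊓ C_(zpowers (g ^ 2)) ≤ W)
    rw [w4, hj] at h1 h2
    have : j ≤ 2 := (Nat.pow_le_pow_iff_right Nat.one_lt_two).1 h2
    interval_cases j
    · exfalso
      have f := Subgroup.card_eq_one.1 hj
      obtain ⟨z, a, b, c⟩ := exists_fixed_of_normalizes t2 (IsElementaryAbelian.isPGroup hW) (H01.le_normalizer_of_normal _ _) hW1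
      have cm : zpowers (g ^ 2) ≤ C_(zpowers (g ^ 3)) := zpowers_le.2 (by
        rw [centralizer_zpowers, mem_centralizer_singleton_iff]; group)
      have e := eq_of_le_of_card_le (inf_le_left : W ⊓ C_(zpowers (g ^ 3)) ≤ W) (by
        rw [w4, k (IsElementaryAbelian.of_le hW inf_le_left) c3 (norm_inf (H01.le_normalizer_of_normal _ _)
          (norm_cent (cm.trans (centralizer_le_normalizer _)))) (fun e => b (e.le ⟨a, c⟩))
          (eq_bot_iff.2 (f ▸ inf_le_inf_right _ inf_le_left))])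
      have := f.le ⟨k3 (g ^ 3) (le_centralizer_iff.1 (e.ge.trans inf_le_right) (mem_zpowers _)) (by
        rw [← pow_two, ← o3, pow_orderOf_eq_one]), le_centralizer_iff.1 cm (mem_zpowers _)⟩
      rw [mem_bot.1 this, orderOf_one] at o3
      omega
    · simp [Nat.ModEq] at h1
    · exact le_centralizer_iff.1 ((eq_of_le_of_card_le inf_le_left (by rw [w4, hj]; rfl)).ge.trans inf_le_right) (mem_zpowers _)
  obtain ⟨T, hT⟩ := hd.exists_le_sylow
  obtain ⟨e, e1, e2, e3⟩ : ∃ e ∈ ↑T ⊓ C_(W), e ≠ 1 ∧ e ∈ C_(T) := by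
    refine exists_fixed_of_normalizes T.isPGroup' T.isPGroup'.to_inf_left
      (norm_inf le_normalizer (H01.le_normalizer_of_normal _ _)) fun e => ?_
    obtain ⟨x, hx⟩ := H27.exists_conj_mem_sylow T (x := g ^ 2) ⟨1, o2⟩
    have := e.le ⟨hx, Normal.conj_mem inferInstance _ cw x⟩
    rw [mem_bot, conj_eq_one_iff] at this
    rw [this, orderOf_one] at o2
    omega
  obtain ⟨j, j1, j2⟩ := exists_pow_order_p T.isPGroup' (x := ⟨e, e1.1⟩) (by simpa using e2)
  replace j1 : e ^ 3 ^ j ≠ 1 := fun a => j1 (Subtype.ext a)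
  replace j2 : (e ^ 3 ^ j) ^ 3 = 1 := congrArg Subtype.val j2
  replace e1 := pow_mem e1 (3 ^ j)
  replace e3 := pow_mem e3 (3 ^ j)
  generalize e ^ 3 ^ j = e at *
  have oe : # (zpowers e) = 3 := by rw [Nat.card_zpowers, orderOf_eq_prime j2 j1]
  obtain ⟨S, ⟨s1, s2, s3⟩, mn⟩ := exists_minimal_of_wellFoundedLT (fun S : Subgroup G => S ≤ R ∧ ↑T ≤ N_(S) ∧
    ⁅S, zpowers e⁆ ≠ ⊥) ⟨R, le_rfl, H01.le_normalizer_of_normal _ _, fun a => by
      rw [commutator_comm, commutator_eq_bot_iff_le_centralizer] at a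
      obtain ⟨j, hj⟩ := pg_card Nat.prime_two (r1.to_le (a.trans hchar))
      rw [oe] at hj
      exact absurd (Nat.prime_three.dvd_of_dvd_pow (hj ▸ dvd_rfl : 3 ∣ 2 ^ j)) (by decide)⟩
  have te : ↑T ≤ C_(zpowers e) := le_centralizer_iff.1 (zpowers_le.2 e3)
  obtain ⟨-, q2, q3, -⟩ := Cfsg.Agent.S3736.result T (zpowers e) S (r1.to_le s1) s2 (zpowers_le.2 e1.1)
    (te.trans (centralizer_le_normalizer _)) (by rw [oe]; decide) s3 fun U a b => by
      by_contra c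
      exact a.not_ge (mn ⟨a.le.trans s1, b, c⟩ a.le)
  have sw : S ≤ C_(W) := s1.trans (le_centralizer_iff.1 (z2.trans inf_le_right))
  have we : W ≤ C_(zpowers e) := le_centralizer_iff.1 (zpowers_le.2 e1.2)
  have ns : ¬ S ≤ C_(zpowers e) := fun a => s3 (commutator_eq_bot_iff_le_centralizer.2 a)
  obtain ⟨-, q4, q5⟩ := q2.resolve_left fun a => ns ((k2 a sw).trans we)
  have f1 : (frattini S).map S.subtype ≤ W := by
    rw [q4, ← q5, map_subtype_commutator, commutator_le]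
    intro x hx y hy
    have c : ∀ x y : S, ⁅x, y⁆ ∈ center S := fun x y => q5 ▸ commutator_mem_commutator (mem_top x) (mem_top y)
    have := commutatorElement_pow_left (commute_of_mem_center (c ⟨x, hx⟩ ⟨y, hy⟩) _) 2
    rw [commutatorElement_eq_one_iff_commute.2 (commute_of_mem_center (q4 ▸ pow_mem_frattini (r1.to_le s1) _) _), pow_two] at this
    exact k3 _ (sw (c ⟨x, hx⟩ ⟨y, hy⟩ |> fun _ => (⁅(⟨x, hx⟩ : S), (⟨y, hy⟩ : S)⁆).2)) (congrArg Subtype.val this.symm)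
  have f2 : (frattini S).map S.subtype = W := k' f1 (H02.normalizer_le_normalizer_map_subtype _ (s2 (hT (mem_zpowers d)))) fun a => by
    rw [q4, map_eq_bot_iff_of_injective _ S.subtype_injective] at a
    have : Nontrivial S := (nontrivial_iff_ne_bot S).2 fun a => ns (a ▸ bot_le)
    exact (r1.to_le s1).bot_lt_center.ne' a
  rw [f2] at q3
  have ws : W ≤ S := f2 ▸ map_subtype_le _
  have f3 := (q3 (S ⊓ C_(zpowers e)) (le_inf ws we) inf_le_left (norm_inf s2 (norm_cent (te.trans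
    (centralizer_le_normalizer _))))).resolve_right fun a => ns (a.ge.trans inf_le_right)
  obtain ⟨g1, z, g2, g3, g4⟩ := card_of_sq (m := 2) (k := d) two_pos (r1.to_le s1) (s2 (hT (mem_zpowers d)))
    (fun x => ⟨fun a => ⟨ws a, by rw [← pow_two, hW.2 x a]⟩, fun a => k3 x (sw a.1) a.2⟩) (fun x hx x1 y hy y1 => by
      have o := H27.card_orbit_eq_relIndex (zpowers d) x
      obtain ⟨j, hj⟩ := pg_card Nat.prime_three hd
      obtain ⟨i, -, hi⟩ := (Nat.dvd_prime_pow Nat.prime_three).1 ((Subgroup.relIndex_dvd_card (H27.cent x) _).trans hj.dvd)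
      have i0 : i ≠ 0 := fun a => x1 (hf.le ⟨hx, le_centralizer_iff.1 ((relIndex_eq_one.1 (by rw [hi, a]; rfl)).trans
        (centralizer_zpowers x).ge) (mem_zpowers x)⟩)
      obtain ⟨_, ⟨i, rfl⟩, e⟩ := (Set.eq_of_subset_of_ncard_le (s := {y | ∃ h ∈ Submonoid.powers d, h * x * h⁻¹ = y})
        (t := (W : Set G) \ {1}) (by
          rintro _ ⟨h, -, rfl⟩
          exact ⟨Normal.conj_mem inferInstance _ hx h, by simpa using x1⟩) (by
          rw [Set.ncard_sdiff_singleton_of_mem W.one_mem, ← Nat.card_coe_set_eq, ← Nat.card_coe_set_eq]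
          simp only [mem_powers_iff_mem_zpowers]
          exact (show _ - 1 = 3 ^ 1 by rw [show # (W : Set G) = 4 from w4]; rfl).le.trans
            ((Nat.pow_le_pow_right three_pos (Nat.pos_of_ne_zero i0)).trans (o.trans hi).ge))).ge ⟨hy, y1⟩
      exact ⟨i, e⟩) w4 (le_centralizer_iff.1 sw) hW1
    (fun g hg => f1 (pow_two g ▸ pow_mem_map_frattini (r1.to_le s1) hg)) fun a => ns (a.le.trans we)
  have g5 := card_modEq_fix Nat.prime_three j2 (T := {y | y ∈ S ∧ y * y = z}) fun y hy =>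
    ⟨conj_mem_of_norm (s2 e1.1) hy.1, by
      calc _ = e * (y * y) * e⁻¹ := by group
        _ = z := by rw [hy.2, ← e1.2 z g2, mul_inv_cancel_right]⟩
  rw [show {y | y ∈ {y | y ∈ S ∧ y * y = z} ∧ y * e = e * y} = ∅ from Set.eq_empty_of_forall_notMem fun y hy => g3 (by
    rw [← hy.1.2, ← pow_two]
    exact hW.2 y (f3.le ⟨hy.1.1, by rw [centralizer_zpowers]; exact mem_centralizer_singleton_iff.2 hy.2⟩))] at g5
  simp only [Nat.ModEq, Nat.card_of_isEmpty] at g5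
  omega

end H04.R6
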