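import Cfsg.Agent.H04.S6a
import Cfsg.Agent.H04.A5b
import Cfsg.Agent.H17.Stable
import Cfsg.Agent.H26.CharP
import Cfsg.Agent.H03.PResidual

/-! A 2-constrained group of sectional rank at most 4 does not involve `S₆` over `O₂`. -/

set_option autoImplicit false
open Cfsg BG Subgroup Equiv

local notation "#" => Nat.card

namespace H04.S6

theorem sg {K : Type*} [Group K] [DecidableEq K] (l : List K) (h1 : 1 ∈ l) (h2 : ∀ a ∈ l, ∀ b ∈ l, a * b ∈ l)
    (h3 : ∀ a ∈ l, a⁻¹ ∈ l) (h4 : l.Nodup) : ∃ T : Subgroup K, (∀ x, x ∈ T ↔ x ∈ l) ∧ # T = l.length :=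
  ⟨⟨⟨⟨{x | x ∈ l}, fun ha hb => h2 _ ha _ hb⟩, h1⟩, fun ha => h3 _ ha⟩, fun _ => Iff.rfl, by
    rw [← List.toFinset_card_of_nodup h4, ← Set.ncard_coe_finset, List.coe_toFinset]; rfl⟩

abbrev P := Perm (Fin 6)

def a : P := swap 0 2 * swap 2 4
def b : P := swap 1 3 * swap 3 5

theorem relA : ∃ ζ θ ρ T, Rel a ζ θ ρ T := by
  obtain ⟨T, h1, h2⟩ := sg (K := P) [1, swap 1 3, swap 0 2 * swap 4 5, swap 0 4 * swap 2 5, swap 0 5 * swap 2 4,
    swap 1 3 * swap 0 2 * swap 4 5, swap 1 3 * swap 0 4 * swap 2 5, swap 1 3 * swap 0 5 * swap 2 4]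
    (by decide +kernel) (by decide +kernel) (by decide +kernel) (by decide +kernel)
  refine ⟨swap 1 3, swap 0 2 * swap 4 5, swap 1 0 * swap 0 4 * swap 3 2 * swap 2 5, T, ?_, ?_, ?_, ?_, ?_, ?_, ?_, ?_, ?_, ?_, ?_, ?_,
    isConj_iff.2 ⟨a * (swap 0 2 * swap 4 5) * a⁻¹, ?_⟩, ?_, ?_, ?_, ?_, h2⟩
  all_goals try simp only [h1]
  all_goals decide +kernel

theorem relB : ∃ ζ θ ρ T, Rel (a * b) ζ θ ρ T := by
  obtain ⟨T, h1, h2⟩ := sg (K := P) [1, swap 0 1, swap 2 3, swap 4 5, swap 0 1 * swap 2 3, swap 0 1 * swap 4 5,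
    swap 2 3 * swap 4 5, swap 0 1 * swap 2 3 * swap 4 5] (by decide +kernel) (by decide +kernel) (by decide +kernel) (by decide +kernel)
  refine ⟨swap 0 1 * swap 2 3 * swap 4 5, swap 0 1 * swap 2 3, swap 0 1 * swap 1 2, T, ?_, ?_, ?_, ?_, ?_, ?_, ?_, ?_, ?_, ?_, ?_, ?_,
    isConj_iff.2 ⟨a * b * (swap 0 1 * swap 2 3) * (a * b)⁻¹, ?_⟩, ?_, ?_, ?_, ?_, h2⟩
  all_goals try simp only [h1]
  all_goals decide +kernel

theorem e9 : ∃ E : Subgroup P, # E = 9 ∧ ∀ g ∈ E, g ^ 3 = 1 ∧ (g = 1 ∨ IsConj a g ∨ IsConj (a * b) g) := by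
  obtain ⟨T, h1, h2⟩ := sg (K := P) [1, a, a * a, b, b * b, a * b, a * a * b, a * b * b, a * a * b * b]
    (by decide +kernel) (by decide +kernel) (by decide +kernel) (by decide +kernel)
  have : ∀ g ∈ [1, a, a * a, b, b * b, a * b, a * a * b, a * b * b, a * a * b * b], g ^ 3 = 1 ∧ (g = 1 ∨
      ∃ c ∈ ([1, swap 0 2, swap 1 3, swap 0 2 * swap 1 3, swap 0 1 * swap 2 3 * swap 4 5, swap 0 1 * swap 2 3 * swap 4 5 * swap 0 2] : List P),
        c * a * c⁻¹ = g ∨ c * (a * b) * c⁻¹ = g) := by decide +kernel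
  exact ⟨T, h2, fun g hg => (this g ((h1 g).1 hg)).imp_right (Or.imp_right fun ⟨c, _, e⟩ =>
    e.imp (fun e => isConj_iff.2 ⟨c, e⟩) fun e => isConj_iff.2 ⟨c, e⟩)⟩

variable {G : Type*} [Group G] [Finite G] {V : Subgroup G} [hn : V.Normal]

theorem St.six (h : St V) (j : P →* G ⧸ V) (hj : Function.Injective j) : ¬ SectionalPRankLE 2 4 G := by
  classical
  by_cases hA : ∀ g : G, IsConj (j a) g → V ⊓ C_[g] = ⊥
  · obtain ⟨_, _, _, _, R⟩ := relA
    exact h.core (R.map j hj) hA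
  by_cases hB : ∀ g : G, IsConj (j (a * b)) g → V ⊓ C_[g] = ⊥
  · obtain ⟨_, _, _, _, R⟩ := relB
    exact h.core (R.map j hj) hB
  exfalso
  have tr : ∀ {κ : G ⧸ V}, (¬ ∀ g : G, IsConj κ g → V ⊓ C_[g] = ⊥) → ∀ g : G, IsConj κ g → V ⊓ C_[g] ≠ ⊥ := fun h1 g e h2 =>
    h1 fun g' e' => by
      obtain ⟨c, hc⟩ := isConj_iff.1 (e'.symm.trans e)
      obtain ⟨c, rfl⟩ := QuotientGroup.mk_surjective c
      exact eq_bot_iff.2 fun v hv => by simpa using mem_bot.1 (h2.le (h.Fc hc hv))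
  obtain ⟨E, c9, hE⟩ := e9
  let φ : G ⧸ V →* MulAut V := QuotientGroup.lift V MulAut.conjNormal fun v hv => MulEquiv.ext fun w =>
    Subtype.ext (mul_inv_eq_iff_eq_mul.2 (h.cm hv w.2))
  let _ : MulAction E V := MulAction.compHom V (φ.comp (j.comp E.subtype))
  have := Fintype.ofFinite E
  have := Fintype.ofFinite V
  have := Fintype.ofFinite (Quotient (MulAction.orbitRel E V))
  have B := MulAction.sum_card_fixedBy_eq_card_orbits_mul_card_group E V
  have c : ∀ g : E, Fintype.card (MulAction.fixedBy V g) = 4 + if g = 1 then 12 else 0 := fun g => by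
    split_ifs with e
    · simp [e, ← Nat.card_eq_fintype_card, h.c16]
    obtain ⟨x, hx⟩ := QuotientGroup.mk_surjective (j g)
    have e1 : (g : P) ≠ 1 := fun e' => e (Subtype.ext e')
    rw [add_zero, ← Nat.card_eq_fintype_card, ← h.four (κ := j g) (by rw [← map_pow, (hE g g.2).1, map_one])
      ((map_ne_one_iff j hj).2 e1) hx (((hE g g.2).2.resolve_left e1).elim (fun e => tr hA x (hx ▸ j.map_isConj e))
        fun e => tr hB x (hx ▸ j.map_isConj e))]
    have k : ∀ v : V, v ∈ MulAction.fixedBy V g ↔ (v : G) ∈ C_[x] := fun v => by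
      change φ (j g) v = v ↔ _
      rw [← hx, mc, Subtype.ext_iff, eq_comm (b := x * v), ← mul_inv_eq_iff_eq_mul]
      rfl
    exact Nat.card_congr ⟨fun v => ⟨v.1, v.1.2, (k _).1 v.2⟩, fun v => ⟨⟨v.1, v.2.1⟩, (k _).2 v.2.2⟩, fun _ => rfl, fun _ => rfl⟩
  simp only [c, Finset.sum_add_distrib, Finset.sum_ite_eq', Finset.mem_univ, if_true, Finset.sum_const, Finset.card_univ,
    ← Nat.card_eq_fintype_card, c9, smul_eq_mul] at B
  omega

theorem main {X : Type*} [Group X] [Finite X] (hC : C_(pCore 2 X) ≤ pCore 2 X) (j : P →* X ⧸ pCore 2 X)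
    (hj : Function.Injective j) : ¬ SectionalPRankLE 2 4 X := fun hr => by
  have pg := H02.pCore_isPGroup 2 X
  obtain ⟨D, hD⟩ : ∃ D, D = (frattini (pCore 2 X)).map (pCore 2 X).subtype := ⟨_, rfl⟩
  have : D.Normal := hD ▸ inferInstance
  have le : D ≤ pCore 2 X := hD ▸ map_subtype_le _
  have sj := QuotientGroup.mk'_surjective D
  have := Normal.map (inferInstance : (pCore 2 X).Normal) _ sj
  have hr' := sectional_of_surjective hr _ sj
  have hE := H17.elemAb_map_frattini pg (QuotientGroup.mk' D) (by rw [QuotientGroup.ker_mk', hD])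
  have hV : C_((pCore 2 X).map (QuotientGroup.mk' D)) ≤ (pCore 2 X).map (QuotientGroup.mk' D) := by
    have : (C_((pCore 2 X).map (QuotientGroup.mk' D))).comap (QuotientGroup.mk' D) ≤ pCore 2 X :=
      H02.le_pCore (H26.isPGroup_of_forall_coprime fun x hx h => H03.eq_one_of_mem_isPGroup_of_coprime pg
        (hC (H17.mem_centralizer_of_frattini pg (by rw [normalizer_eq_top]; trivial) h fun y hy => hD ▸
          (QuotientGroup.eq_one_iff _).1 (by
            have := hx _ ⟨y, hy, rfl⟩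
            exact (map_commutatorElement (QuotientGroup.mk' D) x y).trans (commutatorElement_eq_one_iff_mul_comm.2 this.symm)))) h)
    intro g hg
    obtain ⟨x, rfl⟩ := sj g
    exact ⟨x, this hg, rfl⟩
  let j' := (QuotientGroup.quotientQuotientEquivQuotient D _ le).symm.toMonoidHom.comp j
  have hj' : Function.Injective j' := (QuotientGroup.quotientQuotientEquivQuotient D _ le).symm.injective.comp hj
  have hc : ∀ g, (pCore 2 X).map (QuotientGroup.mk' D) ≤ C_[g] → g ∈ (pCore 2 X).map (QuotientGroup.mk' D) := fun g hg =>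
    hV fun v hv => mc.1 (hg hv)
  obtain ⟨F, F5, F1⟩ : ∃ F : P, F ^ 5 = 1 ∧ F ≠ 1 := ⟨swap 0 1 * swap 1 2 * swap 2 3 * swap 3 4, by decide⟩
  obtain ⟨f, hf⟩ := QuotientGroup.mk_surjective (j' F)
  obtain ⟨n, n1, n2⟩ := A5.lift (IsElementaryAbelian.isPGroup hE) (p := 5) (by decide) (x := f)
    ((QuotientGroup.eq_one_iff _).1 (by rw [QuotientGroup.mk_pow, hf, ← map_pow, F5, map_one]))
    (mt (QuotientGroup.eq_one_iff _).2 (by rwa [hf, map_eq_one_iff _ hj']))
  exact St.six ⟨hE, (A5.five (pRankLE_of_sectional hr') n1 hE (mt (hc _) n2)).1, hc⟩ j' hj' hr'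

end H04.S6
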