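import Mathlib

/-! Small finite checks for part X of S5573. -/

namespace H04.S7D

theorem s4 : ∀ y : Equiv.Perm (Fin 4), y ^ 6 = 1 → y ^ 2 = 1 ∨ y ^ 3 = 1 := by decide +kernel
theorem l3 : ∀ y : Matrix (Fin 3) (Fin 3) (ZMod 2), y * y * y * (y * y * y) = 1 → y * y = 1 ∨ y * y * y = 1 := by decide +kernel
theorem s5 : ∀ a : Equiv.Perm (Fin 5), a * a = 1 → a ≠ 1 → (Finset.univ.filter fun g => g * a = a * g).card = 8 ∨
    ((Finset.univ.filter fun g => g * a = a * g).card = 12 ∧ ∃ c, c * Equiv.swap 0 1 * c⁻¹ = a) := by decide +kernel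

end H04.S7D
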