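import Mathlib

/-! Small finite check for part X of S5573: no element of order six in `A₆`. -/

namespace H04.S7E

theorem a6 : ∀ y : Equiv.Perm (Fin 6), y * y * y * (y * y * y) = 1 → y * y = 1 ∨ y * y * y = 1 ∨ Equiv.Perm.sign y ≠ 1 := by
  decide +kernel

end H04.S7E
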