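import Mathlib
import Cfsg.Agent.H04.SimpAmb
import Cfsg.Agent.H09.AutForm7
import Cfsg.Agent.H10.Max
import Cfsg.Agent.H04.Basic

/-! Sylow `p`-subgroups of symplectic and unitary groups in the defining characteristic: generation by Siegel maps (`syl_gen`),
centric radicals (`ctr_uR`), and the simplicity criterion `SK.crit`. -/

set_option autoImplicit false
open Subgroup Cfsg H26 H09 H10 H10.Form Module

namespace H04

variable {F V : Type*} [Field F] [AddCommGroup V] [Module F V] {φ : Form F V} {p : ℕ} [Fact p.Prime] [CharP F p]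

theorem fix_of_pEl {g : φ.Isom} (hg : PEl p g) {x : V} {c : F} (h : g.1 x = c • x) : g.1 x = x := by
  by_cases hx : x = 0
  · simp [hx]
  obtain ⟨k, hk⟩ := hg
  have h1 : ∀ n : ℕ, (g ^ n).1 x = c ^ n • x := fun n => by
    induction n with
    | zero => simp
    | succ n ih => rw [pow_succ, Isom.mul_apply, h, map_smul, ih, smul_smul, pow_succ']
  have h2 := h1 (p ^ k)
  rw [hk, Isom.one_apply] at h2
  have h3 : (c - 1) ^ p ^ k = 0 := by
    rw [sub_pow_char_pow, one_pow]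
    have : (c ^ p ^ k - 1) • x = 0 := by rw [sub_smul, ← h2, one_smul, sub_self]
    exact (smul_eq_zero.1 this).resolve_right hx
  rw [h, sub_eq_zero.1 (pow_eq_zero_iff (pow_pos (Fact.out : p.Prime).pos k).ne' |>.1 h3), one_smul]

theorem isPGroup_uR (M : Submodule F V) : IsPGroup p (uR φ M) := isPGroup_of_pEl fun _ h => pEl_of_mem_uR p h

theorem mem_normalizer_uR {M : Submodule F V} {g : φ.Isom} (h : g ∈ φ.stab M) :
    g ∈ normalizer (uR φ M : Set φ.Isom) := by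
  refine mem_normalizer_iff.2 fun k => ⟨conj_mem_uR g (φ.mem_stab.1 h), fun hk => ?_⟩
  simpa [mul_assoc] using conj_mem_uR g⁻¹ (φ.mem_stab.1 (inv_mem h)) hk

variable [φ.Nondeg] [FiniteDimensional F V]

omit [φ.Nondeg] in
theorem mem_stab_span {g : φ.Isom} {u : V} {c : F} (h : g.1 u = c • u) : g ∈ φ.stab (F ∙ u) :=
  φ.mem_stab_of_le fun x hx => by
    obtain ⟨a, rfl⟩ := Submodule.mem_span_singleton.1 hx
    rw [map_smul, h]
    exact Submodule.smul_mem _ _ (Submodule.smul_mem _ _ (Submodule.mem_span_singleton_self u))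

theorem ctr_uR (ht : ∃ t, t ≠ 0 ∧ φ.T t = 0) {M : Submodule F V} (hM : φ.TS M) {u : V} (hu : u ∈ M) (hu0 : u ≠ 0)
    (E : Subgroup φ.Isom) : Ctr p E (uR φ M) := by
  intro c _ hc hp
  obtain ⟨t, ht0, ht⟩ := ht
  have key : ∀ x ∈ M, ∀ w ∈ φ.perp M, ∀ s, φ.T s = φ.Q w → φ.siegel (c.1 x) (c.1 w) s = φ.siegel x w s :=
    fun x hx w hw s hs => by
    rw [← φ.siegel_conj c (hM.Q x hx) (φ.mem_perp.1 hw x hx) hs, ← hc _ (siegel_mem_uR hM hx hw hs),
      mul_inv_cancel_right]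
  have h1 : ∀ x ∈ M, c.1 x = x := fun x hx => by
    by_cases h0 : x = 0
    · simp [h0]
    obtain ⟨y, hy⟩ := φ.exists_B_eq_one h0
    have h2 := congrArg (fun g : φ.Isom => g.1 y) (key x hx 0 (zero_mem _) t (by simpa using ht))
    simp only [map_zero] at h2
    rw [φ.siegel_apply (by simpa using hM.Q x hx) (by simp) (by simpa using ht),
      φ.siegel_apply (hM.Q x hx) (by simp) (by simpa using ht), hy] at h2
    have h3 : (φ.ε * t) • (φ.B (c.1 x) y • c.1 x - x) = 0 := by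
      have := sub_eq_zero.2 h2.symm
      rw [← this]; simp only [map_zero, LinearMap.zero_apply]; module
    have h4 := sub_eq_zero.1 ((smul_eq_zero.1 h3).resolve_left (mul_ne_zero φ.ε_ne_zero ht0))
    have h5 : φ.B (c.1 x) y ≠ 0 := fun e => h0 (by rw [← h4, e, zero_smul])
    exact fix_of_pEl hp (c := (φ.B (c.1 x) y)⁻¹) (by rw [eq_inv_smul_iff₀ h5, h4])
  refine ⟨h1, fun w hw => ?_⟩
  obtain ⟨s, hs, -⟩ := φ.half w
  obtain ⟨y, hy⟩ := φ.exists_B_eq_one hu0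
  have h2 := congrArg (fun g : φ.Isom => g.1 y) (key u hu w hw s hs)
  have h3 := φ.mem_perp.1 hw u hu
  simp only [h1 u hu] at h2
  rw [φ.siegel_apply (hM.Q u hu) (by rw [← h1 u hu]; simpa using h3) (by simpa using hs),
    φ.siegel_apply (hM.Q u hu) h3 hs, hy] at h2
  have h4 : φ.ε • (c.1 w - w) = (φ.B (c.1 w) y - φ.B w y) • u := by
    rw [← sub_eq_zero, ← sub_eq_zero.2 h2.symm]; module
  have h5 : c.1 w - w = φ.ε • φ.ε • (c.1 w - w) := by rw [smul_smul, ε_mul_ε, one_smul]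
  rw [h5, h4]
  exact M.smul_mem _ (M.smul_mem _ hu)

variable [Finite F] [Finite V]

omit [φ.Nondeg] [FiniteDimensional F V] [Finite F] in
theorem finite_Isom : Finite φ.Isom :=
  Finite.of_injective (fun g : φ.Isom => (g.1 : V → V)) fun _ _ h => Isom.ext (congrFun h)

theorem syl_gen (ns : ∀ v, φ.Q v ≠ 0 → φ.B v v ≠ 0) {T : Subgroup φ.Isom} (n : ℕ) : ∀ (W : Submodule F V)
    (S : Subgroup φ.Isom), finrank F W = n → φ.NondegOn W → IsSyl p S (φ.fix (φ.perp W)) →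
    (∀ u w s, φ.Q u = 0 → φ.B u w = 0 → φ.T s = φ.Q w → φ.siegel u w s ∈ S → φ.siegel u w s ∈ T) → S ≤ T := by
  haveI := finite_Isom (φ := φ)
  induction n using Nat.strong_induction_on with
  | _ n ih =>
  intro W S hn hW hS hT
  by_cases h0 : W = ⊥
  · intro g hg
    have := hS.le hg
    rw [h0, perp_bot] at this
    rw [(Isom.ext fun x => this x trivial : g = 1)]
    exact one_mem _
  have hst : ∀ g ∈ S, ∀ x ∈ W, g.1 x ∈ W := fun g hg x hx =>
    (φ.mem_stab.1 (φ.stab_perp W ▸ φ.fix_le_stab _ (hS.le hg)) x).1 hx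
  obtain ⟨u, hu, hu0, hu1⟩ := exists_fixed_mod (MonoidHom.id φ.Isom) p hS.pg (A := ⊥) (B := W)
    (fun g _ x hx => by rw [(Submodule.mem_bot F).1 hx]; simp) hst (by rwa [le_bot_iff])
  have hu2 : ∀ g ∈ S, g.1 u = u := fun g hg => sub_eq_zero.1 ((Submodule.mem_bot F).1 (hu1 g hg))
  rw [Submodule.mem_bot] at hu0
  have lt : ∀ X : Submodule F V, u ∉ X → finrank F ↥(W ⊓ X) < n := fun X hX =>
    hn ▸ Submodule.finrank_lt_finrank_of_lt (lt_of_le_of_ne inf_le_left fun e => hX (e.ge hu).2)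
  by_cases hQ : φ.Q u = 0
  swap
  · have hB := ns u hQ
    refine ih _ (lt (φ.perp (F ∙ u)) fun h => hB (φ.mem_perp_singleton.1 h)) _ S rfl (fun y hy h => hW y hy.1 fun z hz => ?_)
      (hS.mono ?_ (φ.fix_anti (φ.perp_anti inf_le_left))) hT
    · have h1 := h (z - (φ.B u z / φ.B u u) • u) ⟨W.sub_mem hz (W.smul_mem _ hu), φ.mem_perp_singleton.2 (by
        simp [hB])⟩
      have h2 := φ.B_symm_zero (φ.mem_perp_singleton.1 hy.2)
      simpa [h2] using h1
    · rw [φ.perp_inf, perp_perp, φ.fix_sup]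
      exact le_inf hS.le fun g hg => φ.mem_fix_span.2 (by simpa using hu2 g hg)
  obtain ⟨v, hv, hyp⟩ := φ.exists_partner (W := φ.perp W) hQ
    (fun h => hu0 (hW u hu fun y hy => φ.mem_perp'.1 h y hy)) (φ.le_perp_perp W hu)
  rw [perp_perp] at hv
  set R := uR φ (F ∙ u) ⊓ φ.fix (φ.perp W) with hR
  have hRp : IsPGroup p R := (isPGroup_uR _).to_inf_left
  have nR : ∀ g ∈ φ.fix (φ.perp W), g.1 u = u → g ∈ normalizer (R : Set φ.Isom) := fun g hg h =>
    mem_normalizer_fintype fun k hk => ⟨(mem_normalizer_iff.1 (mem_normalizer_uR (mem_stab_span (c := 1)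
      (by simpa using h))) k).1 hk.1, (φ.fix _).mul_mem (mul_mem hg hk.2) (inv_mem hg)⟩
  have hRS : R ≤ S := hS.le_of_le_normalizer hRp inf_le_right fun g hg => nR g (hS.le hg) (hu2 g hg)
  have dec : ∀ g ∈ S, ∃ r ∈ R ⊓ T, r⁻¹ * g ∈ S ⊓ φ.fix (Submodule.span F {u, v}) := fun g hg => by
    have hB : φ.B u v = φ.B u (g.1 v) := by rw [← Isom.B_map g u v, hu2 g hg]
    obtain ⟨s, h1, h2, h3⟩ := exists_siegel_map hQ (y := v) (z := g.1 v) (by simp) hB (by rw [hyp.Bef]; exact one_ne_zero)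
    have h4 : (φ.ε / φ.B u v) • (v - g.1 v) ∈ W := W.smul_mem _ (W.sub_mem hv (hst g hg v hv))
    have h5 : φ.siegel u ((φ.ε / φ.B u v) • (v - g.1 v)) s ∈ R := ⟨siegel_mem_uR_point hQ h1 h2, fun x hx =>
      siegel_apply_of_orth hQ h1 h2 (φ.mem_perp.1 hx u hu) (φ.mem_perp.1 hx _ h4)⟩
    refine ⟨_, ⟨h5, hT _ _ _ hQ h1 h2 (hRS h5)⟩, S.mul_mem (inv_mem (hRS h5)) hg, φ.mem_fix_span.2 ?_⟩
    rintro x (rfl | rfl)
    · rw [Isom.mul_apply, hu2 g hg, Isom.inv_apply_eq, siegel_apply_self hQ h1 h2]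
    · rw [Isom.mul_apply, Isom.inv_apply_eq, h3]
  have hf : φ.fix (φ.perp (W ⊓ φ.perp (Submodule.span F {u, v}))) =
      φ.fix (φ.perp W) ⊓ φ.fix (Submodule.span F {u, v}) := by rw [φ.perp_inf, perp_perp, φ.fix_sup]
  have := ih _ (lt (φ.perp (Submodule.span F {u, v})) fun h => ?_) _ (S ⊓ φ.fix (Submodule.span F {u, v})) rfl
    (fun y hy h => hW y hy.1 fun z hz => ?_) ?_ fun a b c h1 h2 h3 h4 => hT a b c h1 h2 h3 h4.1
  · intro g hg
    obtain ⟨r, h1, h2⟩ := dec g hg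
    simpa using mul_mem h1.2 (this h2)
  · have := (φ.mem_perp_pair.1 h).2
    rw [hyp.Bfe] at this
    exact φ.ε_ne_zero this
  · have h1 := h _ ⟨W.sub_mem (W.sub_mem hz (W.smul_mem _ hu)) (W.smul_mem _ hv), hyp.proj_mem z⟩
    obtain ⟨h2, h3⟩ := φ.mem_perp_pair.1 hy.2
    simpa [φ.B_symm_zero h2, φ.B_symm_zero h3] using h1
  · rw [hf]
    refine ⟨inf_le_inf_right _ hS.le, hS.pg.to_inf_left, fun Q hQp h1 h2 => le_antisymm (le_inf ?_ (h2.trans inf_le_right)) h1⟩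
    have := hS.max (Q ⊔ R) (hQp.to_sup_of_normal_right' hRp fun g hg => nR g (h2 hg).1
      ((h2 hg).2 u (Submodule.subset_span (by simp)))) (fun g hg => by
        obtain ⟨r, h3, h4⟩ := dec g hg
        simpa using mul_mem (mem_sup_right h3.1) (mem_sup_left (h1 h4) : _ ∈ Q ⊔ R))
      (sup_le (h2.trans inf_le_left) inf_le_right)
    exact this ▸ le_sup_left

theorem syl_gen_top (ns : ∀ v, φ.Q v ≠ 0 → φ.B v v ≠ 0) {S T : Subgroup φ.Isom} (hS : IsSyl p S ⊤)
    (h : ∀ u w s, φ.Q u = 0 → φ.B u w = 0 → φ.T s = φ.Q w → φ.siegel u w s ∈ S → φ.siegel u w s ∈ T) : S ≤ T :=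
  syl_gen ns _ ⊤ S rfl (fun x _ hx => φ.eq_zero_of_B_left fun y => hx y trivial) (by
    rwa [perp_top, (eq_top_iff.2 fun g _ x hx => by rw [(Submodule.mem_bot F).1 hx]; simp : φ.fix ⊥ = ⊤)]) h

theorem mem_E_of_pEl (ns : ∀ v, φ.Q v ≠ 0 → φ.B v v ≠ 0) {g : φ.Isom} (hg : PEl p g) : g ∈ φ.E := by
  obtain ⟨S, hS, h⟩ := exists_isSyl_ge (H := ⊤) (isPGroup_of_pEl (X := zpowers g) (p := p) fun x hx => by
    obtain ⟨i, rfl⟩ := mem_zpowers_iff.1 hx
    obtain ⟨k, hk⟩ := hg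
    exact ⟨k, by rw [← zpow_natCast, ← zpow_mul, mul_comm, zpow_mul, zpow_natCast, hk, one_zpow]⟩) le_top
  exact syl_gen_top ns hS (fun _ _ _ a b c _ => φ.siegel_mem_E a b c) (h (mem_zpowers g))

omit [Finite F] [Finite V] [Fact p.Prime] [CharP F p] in
theorem exists_diag {u v a a' : V} (h : φ.IsHyp u v) (h' : φ.IsHyp a a') (ha : a ∈ φ.perp (Submodule.span F {u, v}))
    (ha' : a' ∈ φ.perp (Submodule.span F {u, v})) {K : Subgroup φ.Isom} (h1 : ∀ c : F, φ.siegel u (c • a') 0 ∈ K)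
    (h2 : ∀ c : F, φ.siegel a (c • v) 0 ∈ K) {c : F} (hc : c ≠ 0) :
    (∃ d ∈ K, d.1 u = c • u ∧ d.1 a = c⁻¹ • a + (c - 1) • u) ∧ ∃ d ∈ K, d.1 u = a := by
  obtain ⟨ua, va⟩ := φ.mem_perp_pair.1 ha
  obtain ⟨ua', va'⟩ := φ.mem_perp_pair.1 ha'
  have x1 : ∀ b : F, ∃ g ∈ K, g.1 u = u ∧ g.1 a = a + b • u := fun b => by
    have e1 : φ.B u ((φ.ε * φ.σ b) • a') = 0 := by simp [ua']
    have e2 : φ.T 0 = φ.Q ((φ.ε * φ.σ b) • a') := by rw [φ.Q_smul_of_sing h'.Qf, map_zero]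
    refine ⟨_, h1 (φ.ε * φ.σ b), siegel_apply_self h.Qe e1 e2, ?_⟩
    rw [φ.siegel_apply h.Qe e1 e2, ua, φ.B_smul_left, h'.Bfe]
    simp [mul_comm φ.ε b, mul_assoc]
  have x2 : ∀ b : F, ∃ g ∈ K, g.1 a = a ∧ g.1 u = u + b • a := fun b => by
    have e1 : φ.B a ((φ.ε * φ.σ b) • v) = 0 := by simp [φ.B_symm_zero va]
    have e2 : φ.T 0 = φ.Q ((φ.ε * φ.σ b) • v) := by rw [φ.Q_smul_of_sing h.Qf, map_zero]
    refine ⟨_, h2 (φ.ε * φ.σ b), siegel_apply_self h'.Qe e1 e2, ?_⟩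
    rw [φ.siegel_apply h'.Qe e1 e2, φ.B_symm_zero ua, φ.B_smul_left, h.Bfe]
    simp [mul_comm φ.ε b, mul_assoc]
  obtain ⟨g1, k1, a1, b1⟩ := x2 1
  obtain ⟨g2, k2, a2, b2⟩ := x1 (c - 1)
  obtain ⟨g3, k3, a3, b3⟩ := x2 (-c⁻¹)
  obtain ⟨g4, k4, a4, b4⟩ := x1 (-1)
  refine ⟨⟨g3 * g2 * g1, mul_mem (mul_mem k3 k2) k1, ?_, ?_⟩, g4 * g1, mul_mem k4 k1, ?_⟩
  · simp only [Isom.mul_apply, a1, b1, a2, b2, a3, b3, map_add, map_smul]
    match_scalars <;> field_simp <;> ring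
  · simp only [Isom.mul_apply, a1, b1, a2, b2, a3, b3, map_add, map_smul]
    match_scalars <;> field_simp <;> ring
  · simp only [Isom.mul_apply, b1, a4, b4, map_add, map_smul]
    module

theorem mem_of_sq {A : AddSubgroup F} {c : F} (h : ∀ x : F, x ≠ 0 → x ^ 2 * c ∈ A) (x : F) : x * c ∈ A := by
  have h' : ∀ x : F, x ^ 2 * c ∈ A := fun x => by
    by_cases e : x = 0
    · simp [e]
    · exact h x e
  by_cases h2 : ringChar F = 2
  · obtain ⟨y, rfl⟩ := FiniteField.isSquare_of_char_two h2 x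
    simpa [pow_two] using h' y
  · haveI := Fintype.ofFinite F
    obtain ⟨a, b, e⟩ := FiniteField.exists_root_sum_quadratic (R := F) (f := Polynomial.X ^ 2)
      (g := Polynomial.X ^ 2 - Polynomial.C x) (Polynomial.degree_X_pow 2) (Polynomial.degree_X_pow_sub_C (by decide) _)
      (FiniteField.odd_card_of_char_ne_two h2)
    simp only [Polynomial.eval_pow, Polynomial.eval_X, Polynomial.eval_sub, Polynomial.eval_C] at e
    have := A.add_mem (h' a) (h' b)
    rwa [← add_mul, show a ^ 2 + b ^ 2 = x by linear_combination e] at this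

variable (φ) in
/-- the hypotheses satisfied by symplectic and unitary spaces of Witt index at least two -/
structure SK (u v a a' : V) : Prop where
  hyp : φ.IsHyp u v
  hyp' : φ.IsHyp a a'
  ha : a ∈ φ.perp (Submodule.span F {u, v})
  ha' : a' ∈ φ.perp (Submodule.span F {u, v})
  ns : ∀ v, φ.Q v ≠ 0 → φ.B v v ≠ 0
  tv : ∃ t, t ≠ 0 ∧ φ.T t = 0
  es : (φ.restrict (φ.perp (Submodule.span F {u, v}))).SIsom ≤ (φ.restrict (φ.perp (Submodule.span F {u, v}))).E
  zz : (∀ t, φ.T t = 0 → ∃ c, t = c - φ.ε * φ.σ c) ∨ (IsAltF φ ∧ (2 : F) = 0 ∧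
    ∃ b ∈ φ.perp (Submodule.span F {u, v}), ∃ c ∈ φ.perp (Submodule.span F {u, v}), b ≠ 0 ∧ c ≠ 0 ∧ b + c ≠ 0 ∧ φ.B b c = 0)

omit [Fact p.Prime] [CharP F p] [Finite V] in
/-- a subgroup of the radical, invariant under the parabolic subgroup and not central, is the whole radical -/
theorem SK.full {u v a a' : V} (h : SK φ u v a a') {T : Subgroup φ.Isom}
    (hT : ∀ w s, φ.B u w = 0 → φ.T s = φ.Q w → φ.siegel u w s ∈ T → ∀ g ∈ φ.E, ∀ c : F, g.1 u = c • u →
      g * φ.siegel u w s * g⁻¹ ∈ T)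
    {w₀ : V} {s₀ : F} (hw₀ : w₀ ∈ φ.perp (Submodule.span F {u, v})) (h0 : w₀ ≠ 0) (hs₀ : φ.T s₀ = φ.Q w₀)
    (hm : φ.siegel u w₀ s₀ ∈ T) : φ.Full T u := by
  have hu := h.hyp.Qe
  set U := φ.perp (Submodule.span F {u, v}) with hU
  have hUn : φ.NondegOn U := h.hyp.nondegOn.perp
  have conj : ∀ w s, φ.B u w = 0 → φ.T s = φ.Q w → φ.siegel u w s ∈ T → ∀ g ∈ φ.E, ∀ c : F, g.1 u = c • u →
      φ.siegel u (φ.σ c • g.1 w) (φ.σ c * c * s) ∈ T := fun w s h1 h2 h3 g hg c hc => by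
    have := hT w s h1 h2 h3 g hg c hc
    by_cases c0 : c = 0
    · exact absurd (g.1.injective (by rw [hc, c0, zero_smul, map_zero])) h.hyp.e_ne_zero
    rwa [φ.siegel_conj g hu h1 h2, hc, siegel_smul hu _ (by simpa using h2)] at this
    have := (Isom.B_map g u w).trans h1
    rw [hc, φ.B_smul_left] at this
    exact (mul_eq_zero.1 this).resolve_left (by simpa using c0)
  let N : AddSubgroup V :=
    { carrier := {w | φ.B u w = 0 ∧ ∃ s, φ.T s = φ.Q w ∧ φ.siegel u w s ∈ T}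
      zero_mem' := ⟨by simp, 0, by simp, by rw [φ.siegel_zero hu]; exact one_mem _⟩
      add_mem' := by
        rintro x y ⟨h1, s, h2, h3⟩ ⟨h4, t, h5, h6⟩
        exact ⟨by simp [h1, h4], _, φ.siegel_T_add h2 h5, φ.siegel_mul hu h1 h2 h4 h5 ▸ mul_mem h3 h6⟩
      neg_mem' := by
        rintro x ⟨h1, s, h2, h3⟩
        exact ⟨by simp [h1], _, by rw [φ.T_ε_σ, φ.Q_neg, h2], siegel_inv hu h1 h2 ▸ inv_mem h3⟩ }
  have nu : ∀ c : F, c • u ∈ N := fun c => ⟨by simp [h.hyp.Bee], φ.ε * φ.σ c - c, by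
    rw [map_sub, φ.T_ε_σ, sub_self, φ.Q_smul_of_sing hu], by
    rw [siegel_self hu (by rw [map_sub, φ.T_ε_σ, sub_self]), show φ.ε * φ.σ c - c + c - φ.ε * φ.σ c = 0 by ring,
      φ.siegel_zero hu]
    exact one_mem _⟩
  have nc : ∀ w ∈ N, ∀ g ∈ φ.E, ∀ c : F, g.1 u = c • u → φ.σ c • g.1 w ∈ N := by
    rintro w ⟨h1, s, h2, h3⟩ g hg c hc
    have h4 := (Isom.B_map g u w).trans h1
    rw [hc, φ.B_smul_left] at h4
    exact ⟨by rw [φ.B_smul_right, h4], _, by
      have := T_smul (φ := φ) (w := g.1 w) (by simpa using h2) (φ.σ c)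
      rwa [σ_σ, mul_comm c] at this,
      conj w s h1 h2 h3 g hg c hc⟩
  have step : ∀ w ∈ N, ∀ x ∈ U, φ.Q x = 0 → φ.B x w ≠ 0 → x ∈ N := fun w hw x hx hQ hB => by
    obtain ⟨ux, vx⟩ := φ.mem_perp_pair.1 hx
    obtain ⟨x', hx', hyp⟩ := φ.exists_partner (W := Submodule.span F {u, v}) hQ (fun e => hB (by
      rw [h.hyp.nondegOn x e fun y hy => φ.mem_perp'.1 hx y hy]; simp)) hx
    let A : AddSubgroup F := N.comap (LinearMap.toSpanSingleton F V x).toAddMonoidHom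
    have a1 : ∀ t, φ.T t = 0 → t * (φ.ε * φ.B x w) ∈ A := fun t ht => by
      have e1 : φ.B x 0 = 0 := by simp
      have e2 : φ.T t = φ.Q 0 := by simpa using ht
      have := nc w hw _ (φ.siegel_mem_E hQ e1 e2) 1 (by
        rw [siegel_apply_of_orth hQ e1 e2 (φ.B_symm_zero ux) (by simp), one_smul])
      rw [φ.siegel_apply hQ e1 e2] at this
      have h2 := N.sub_mem hw this
      change (t * (φ.ε * φ.B x w)) • x ∈ N
      convert h2 using 1
      simp only [map_zero, LinearMap.zero_apply, map_one]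
      module
    have a2 : ∀ c : F, c ≠ 0 → ∀ b ∈ A, φ.σ c * c⁻¹ * b ∈ A := fun c hc b hb => by
      obtain ⟨⟨d, hd, d1, d2⟩, -⟩ := exists_diag h.hyp hyp hx hx' (K := φ.E)
        (fun c => φ.siegel_mem_E hu (by simp [(φ.mem_perp_pair.1 hx').1]) (by rw [φ.Q_smul_of_sing hyp.Qf, map_zero]))
        (fun c => φ.siegel_mem_E hQ (by simp [φ.B_symm_zero vx]) (by rw [φ.Q_smul_of_sing h.hyp.Qf, map_zero])) hc
      have := N.sub_mem (nc _ hb d hd c d1) (nu (φ.σ c * b * (c - 1)))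
      change (φ.σ c * c⁻¹ * b) • x ∈ N
      convert this using 1
      change _ = φ.σ c • d.1 (b • x) - _
      rw [map_smul, d2]
      module
    obtain ⟨t, ht0, ht⟩ := h.tv
    have a3 := mem_of_sq (A := A) (c := t * (φ.ε * φ.B x w)) (fun y hy => by
      have := a2 (φ.σ y) (by simpa using hy) _ (a1 (φ.σ y * y * t) (by rw [φ.T_norm, ht, mul_zero]))
      convert this using 1
      have : φ.σ y ≠ 0 := by simpa using hy
      rw [σ_σ]; field_simp) (t * (φ.ε * φ.B x w))⁻¹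
    rw [inv_mul_cancel₀ (mul_ne_zero ht0 (mul_ne_zero φ.ε_ne_zero hB))] at a3
    simpa [A] using a3
  have n0 : w₀ ∈ N := ⟨(φ.mem_perp_pair.1 hw₀).1, s₀, hs₀, hm⟩
  have nU : ∀ x ∈ U, x ∈ N := addSubgroup_sing h.hyp' h.ha h.ha' N fun x hx hQ => by
    by_cases e : x = 0
    · rw [e]; exact N.zero_mem
    by_cases e' : φ.B x w₀ = 0
    · haveI := hUn.nondeg
      obtain ⟨y, h1, h2, h3⟩ := exists_common (φ := φ.restrict U) (p := ⟨x, hx⟩) (z := ⟨w₀, hw₀⟩) hQ
        (fun h => e (congrArg Subtype.val h)) (fun h => h0 (congrArg Subtype.val h)) e'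
      exact step _ (step _ n0 y y.2 h1 fun h => h3 (φ.B_symm_zero h)) x hx hQ h2
    · exact step _ n0 x hx hQ e'
  have nall : ∀ w, φ.B u w = 0 → w ∈ N := fun w hw => by
    have := N.add_mem (nU _ (h.hyp.proj_mem w)) (nu (φ.ε * φ.B v w))
    simpa [hw] using this
  have quot : ∀ w s s', φ.B u w = 0 → φ.T s = φ.Q w → φ.T s' = φ.Q w →
      φ.siegel u w s' = φ.siegel u 0 (s' - s) * φ.siegel u w s := fun w s s' h1 h2 h3 => by
    rw [φ.siegel_mul hu (by simp) (by simp [h2, h3]) h1 h2]; simp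
  have tv : ∀ t, φ.T t = 0 → φ.siegel u 0 t ∈ T := fun t ht => by
    rcases h.zz with hz | ⟨hA, h2, b, hb, c, hc, b0, c0, bc0, bc⟩
    · obtain ⟨c, rfl⟩ := hz t ht
      obtain ⟨h1, s, h2, h3⟩ := nU a h.ha
      obtain ⟨h4, s', h5, h6⟩ := nU (c • a') (U.smul_mem _ h.ha')
      have := siegel_commutator hu h1 h2 h4 h5
      rw [φ.B_smul_right, φ.B_smul_left, h.hyp'.Bef, h.hyp'.Bfe, mul_one, mul_comm (φ.σ c)] at this
      rw [← this, commutatorElement_def]
      exact mul_mem (mul_mem (mul_mem h3 h6) (inv_mem h3)) (inv_mem h6)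
    · have hT0 : ∀ s w, φ.T s = φ.Q w := fun s w => by rw [hA.T_eq, hA.Q_eq]; rfl
      have e1 : φ.ε = -1 := by
        rcases φ.ε_cases with e | e
        · rw [e]; linear_combination h2
        · exact e
      have one : ∀ x ∈ U, x ≠ 0 → φ.siegel u x 1 ∈ T := fun x hx x0 => by
        obtain ⟨ux, vx⟩ := φ.mem_perp_pair.1 hx
        obtain ⟨y, hy, hyp⟩ := φ.exists_partner (W := Submodule.span F {u, v}) (hA.Q_eq x) (fun e => x0
          (h.hyp.nondegOn x e fun y hy => φ.mem_perp'.1 hx y hy)) hx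
        obtain ⟨h1, s, h3, h4⟩ := nU y hy
        have e2 : φ.B x 0 = 0 := by simp
        have := conj y s h1 h3 h4 _ (φ.siegel_mem_E (hA.Q_eq x) e2 (hT0 1 0)) 1 (by
          rw [siegel_apply_of_orth (hA.Q_eq x) e2 (hT0 1 0) (φ.B_symm_zero ux) (by simp), one_smul])
        rw [φ.siegel_apply (hA.Q_eq x) e2 (hT0 1 0), hyp.Bef, e1] at this
        simp only [map_one, one_smul, one_mul, map_zero, LinearMap.zero_apply, zero_smul, add_zero, smul_zero, sub_zero,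
          mul_one, neg_smul, sub_neg_eq_add] at this
        have h5 := mul_mem (inv_mem h4) this
        rw [siegel_inv hu h1 h3, φ.siegel_mul hu (by simp [h1]) (hT0 _ _) (by simp [h1, ux]) (hT0 _ _)] at h5
        convert h5 using 2
        · abel
        · simp [hA.σ_eq, e1, hyp.Bff, hyp.Bfe]
      have h3 := mul_mem (one b hb b0) (one c hc c0)
      rw [φ.siegel_mul hu (φ.mem_perp_pair.1 hb).1 (hT0 _ _) (φ.mem_perp_pair.1 hc).1 (hT0 _ _), bc] at h3
      have h4 := one _ (U.add_mem hb hc) bc0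
      rw [quot _ (1 + 1 + 0) 1 (φ.mem_perp_pair.1 (U.add_mem hb hc)).1 (hT0 _ _) (hT0 _ _), T.mul_mem_cancel_right h3,
        show (1 : F) - (1 + 1 + 0) = 1 by linear_combination -h2] at h4
      by_cases t0 : t = 0
      · rw [t0, φ.siegel_zero hu]; exact one_mem _
      obtain ⟨y, rfl⟩ := FiniteField.isSquare_of_char_two
        (CharP.ringChar_of_prime_eq_zero Nat.prime_two (by exact_mod_cast h2)) t
      obtain ⟨⟨d, hd, d1, -⟩, -⟩ := exists_diag h.hyp h.hyp' h.ha h.ha' (K := φ.E)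
        (fun c => φ.siegel_mem_E hu (by simp [(φ.mem_perp_pair.1 h.ha').1]) (hT0 _ _))
        (fun c => φ.siegel_mem_E (hA.Q_eq _) (by simp [φ.B_symm_zero (φ.mem_perp_pair.1 h.ha).2]) (hT0 _ _))
        (left_ne_zero_of_mul t0)
      simpa [hA.σ_eq] using conj 0 1 (by simp) (hT0 _ _) h4 d hd y d1
  intro w s h1 h2
  obtain ⟨-, s', h3, h4⟩ := nall w h1
  rw [quot w s' s h1 h3 h2]
  exact mul_mem (tv _ (by simp [h2, h3])) h4

theorem SK.crit {u v a a' : V} (h : SK φ u v a a') : ∃ S, Crit p φ.E S := by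
  haveI := finite_Isom (φ := φ)
  have hu := h.hyp.Qe
  have u0 := h.hyp.e_ne_zero
  obtain ⟨ua, va⟩ := φ.mem_perp_pair.1 h.ha
  obtain ⟨ua', va'⟩ := φ.mem_perp_pair.1 h.ha'
  have hc : φ.Conn := Or.inl h.tv
  set M := (F ∙ u) ⊔ (F ∙ a) with hM
  have uM : u ∈ M := Submodule.mem_sup_left (Submodule.mem_span_singleton_self u)
  have aM : a ∈ M := Submodule.mem_sup_right (Submodule.mem_span_singleton_self a)
  have hTS : φ.TS M := (TS.singleton hu).sup (TS.singleton h.hyp'.Qe)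
    ((Submodule.span_singleton_le_iff_mem _ _).2 (φ.mem_perp_singleton.2 ua))
  have au : ∀ c : F, c • a ∈ F ∙ u → c = 0 := fun c hc => by
    obtain ⟨d, e⟩ := Submodule.mem_span_singleton.1 hc
    have := congrArg (fun x => φ.B a' x) e
    simp only [φ.B_smul_right, h.hyp'.Bfe, φ.B_symm_zero ua', mul_zero] at this
    exact (mul_eq_zero.1 this.symm).resolve_right φ.ε_ne_zero
  obtain ⟨S, hS, hle⟩ := exists_isSyl_ge (H := ⊤) ((isPGroup_uR (φ := φ) (p := p) M).to_sup_of_normal_right'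
    (isPGroup_uR (F ∙ u)) fun g hg => mem_normalizer_uR (mem_stab_span (c := 1) (by simpa using hg.1 u uM))) le_top
  have RM : uR φ M ≤ S := le_sup_left.trans hle
  have Ru : uR φ (F ∙ u) ≤ S := le_sup_right.trans hle
  have SE : S ≤ φ.E := fun g hg => mem_E_of_pEl h.ns (PEl.of_mem hS.pg hg)
  have fx : ∀ x, (∀ g ∈ S, g.1 x = x) → x ∈ F ∙ u := fun x hx => mem_span_of_uR_fix hc hu u0 fun g hg => by
    rw [hx g (Ru hg)]; exact Submodule.mem_span_singleton_self x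
  have Su : ∀ g ∈ S, g.1 u = u := by
    obtain ⟨x, -, h1, h2⟩ := exists_fixed_mod (MonoidHom.id φ.Isom) p hS.pg (A := ⊥) (B := ⊤)
      (fun g _ x hx => by rw [(Submodule.mem_bot F).1 hx]; simp) (fun _ _ _ _ => trivial)
      fun e => u0 ((Submodule.mem_bot F).1 (e trivial))
    have h3 : ∀ g ∈ S, g.1 x = x := fun g hg => sub_eq_zero.1 ((Submodule.mem_bot F).1 (h2 g hg))
    obtain ⟨c, e⟩ := Submodule.mem_span_singleton.1 (mem_span_symm (fx x h3) fun e => h1 (e ▸ zero_mem _))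
    intro g hg
    rw [← e, map_smul, h3 g hg]
  have SM : S ≤ φ.stab M := by
    obtain ⟨x, h0, h1, h2⟩ := exists_fixed_mod (MonoidHom.id φ.Isom) p hS.pg (A := F ∙ u) (B := φ.perp (F ∙ u))
      (fun g hg x hx => (φ.mem_stab.1 (mem_stab_span (c := 1) (by simpa using Su g hg)) x).1 hx)
      (fun g hg x hx => (φ.mem_stab.1 (φ.stab_le_stab_perp _ (mem_stab_span (c := 1) (by simpa using Su g hg))) x).1 hx)
      fun e => one_ne_zero (au 1 (by simpa using e (φ.mem_perp_singleton.2 ua)))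
    have key : ∀ w ∈ φ.perp M, ∀ s, φ.T s = φ.Q w →
        φ.B w x • a - (φ.ε * φ.B a x) • w - (φ.ε * s * φ.B a x) • a ∈ F ∙ u := fun w hw s hs => by
      have := h2 _ (RM (siegel_mem_uR hTS aM hw hs))
      rw [MonoidHom.id_apply, φ.siegel_apply h.hyp'.Qe (φ.mem_perp.1 hw a aM) hs] at this
      convert this using 1
      abel
    obtain ⟨t, ht0, ht⟩ := h.tv
    have h3 : φ.B a x = 0 := by
      have := au (-(φ.ε * t * φ.B a x)) (by simpa using key 0 (zero_mem _) t (by simpa using ht))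
      exact (mul_eq_zero.1 (neg_eq_zero.1 this)).resolve_left (mul_ne_zero φ.ε_ne_zero ht0)
    have h4 : x ∈ M := by
      rw [← φ.perp_perp M]
      refine φ.mem_perp.2 fun w hw => au _ ?_
      obtain ⟨s, hs, -⟩ := φ.half w
      simpa [h3] using key w hw s hs
    obtain ⟨_, ⟨b, rfl⟩, _, ⟨c, rfl⟩, e⟩ := Submodule.mem_sup.1 (show x ∈ (LinearMap.toSpanSingleton F V u).range ⊔
      (LinearMap.toSpanSingleton F V a).range by
        rwa [← LinearMap.span_singleton_eq_range, ← LinearMap.span_singleton_eq_range])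
    simp only [LinearMap.toSpanSingleton_apply] at e
    have c0 : c ≠ 0 := fun c0 => h1 (by
      rw [← e, c0, zero_smul, add_zero]; exact Submodule.smul_mem _ _ (Submodule.mem_span_singleton_self u))
    intro g hg
    have h5 : g.1 a ∈ M := by
      have h6 : g.1 x - x ∈ M := Submodule.mem_sup_left (h2 g hg)
      have : g.1 a = c⁻¹ • (g.1 x - x) + a := by
        rw [← e, map_add, map_smul, map_smul, Su g hg]
        match_scalars <;> field_simp <;> ring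
      rw [this]
      exact M.add_mem (M.smul_mem _ h6) aM
    refine φ.mem_stab_of_le fun y hy => ?_
    refine (sup_le ?_ ?_ : M ≤ M.comap (g.1 : V →ₗ[F] V)) hy <;> rw [Submodule.span_singleton_le_iff_mem]
    · change g.1 u ∈ M
      rwa [Su g hg]
    · exact h5
  have cu := ctr_uR (p := p) h.tv (TS.singleton hu) (Submodule.mem_span_singleton_self u) u0 φ.E
  have cM := ctr_uR (p := p) h.tv hTS uM u0 φ.E
  have dg := fun (K : Subgroup φ.Isom) h1 h2 (c : F) hc => exists_diag h.hyp h.hyp' h.ha h.ha' (K := K) h1 h2 (c := c) hc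
  have q1 : ∀ c : F, φ.B u (c • a') = 0 ∧ φ.T 0 = φ.Q (c • a') := fun c =>
    ⟨by simp [ua'], by rw [φ.Q_smul_of_sing h.hyp'.Qf, map_zero]⟩
  have q2 : ∀ c : F, φ.B a (c • v) = 0 ∧ φ.T 0 = φ.Q (c • v) := fun c =>
    ⟨by simp [φ.B_symm_zero va], by rw [φ.Q_smul_of_sing h.hyp.Qf, map_zero]⟩
  refine ⟨S, hS.mono SE le_top, fun e => ?_, fun T hT h1 hcl => ?_, fun n hn hnS => ?_⟩
  · obtain ⟨t, ht0, ht⟩ := h.tv
    have : φ.siegel u 0 t ∈ (⊥ : Subgroup φ.Isom) := e ▸ Ru (siegel_mem_uR_point hu (by simp) (by simpa using ht))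
    rw [mem_bot, ← φ.siegel_zero hu] at this
    exact ht0 (siegel_inj h.hyp (by simp) (by simp) (by simpa using ht) (by simp) (by simp) (by simp) this).2
  · haveI := hS.pg.isNilpotent
    haveI : (T.subgroupOf S).Normal := ⟨fun x hx g => hcl _ hx _ (SE g.2) (g * x * g⁻¹).2⟩
    obtain ⟨z, hz, z1, zc⟩ := exists_mem_center_of_normal (T.subgroupOf S) (by
      rwa [Ne, subgroupOf_eq_bot, disjoint_iff, inf_eq_left.2 hT])
    have hzR := cu z (SE z.2) (fun r hr => congrArg Subtype.val (mem_center_iff.1 zc ⟨r, Ru hr⟩)) (PEl.of_mem hS.pg z.2)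
    obtain ⟨w, s, e1, e2, e3, e4⟩ := mem_uR_point h.hyp hzR
    have hzT : φ.siegel u w s ∈ T := e4 ▸ hz
    have full : φ.Full T u := by
      have hT' : ∀ w s, φ.B u w = 0 → φ.T s = φ.Q w → φ.siegel u w s ∈ T → ∀ g ∈ φ.E, ∀ c : F, g.1 u = c • u →
          g * φ.siegel u w s * g⁻¹ ∈ T := fun w s h1 h2 h3 g hg c hc => hcl _ h3 g hg (Ru
        ((mem_normalizer_iff.1 (mem_normalizer_uR (mem_stab_span hc)) _).1 (siegel_mem_uR_point hu h1 h2)))
      by_cases w0 : w = 0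
      swap
      · exact h.full hT' (φ.mem_perp_pair.2 ⟨e1, e2⟩) w0 e3 hzT
      subst w0
      have s0 : s ≠ 0 := fun s0 => z1 (Subtype.ext (by rw [e4, s0, φ.siegel_zero hu]; rfl))
      have tr : ∀ g ∈ φ.E, g.1 u ∈ M → φ.siegel (g.1 u) 0 s ∈ T := fun g hg hM => by
        have := hcl _ hzT g hg
        rw [φ.siegel_conj g hu e1 e3, map_zero] at this
        exact this (RM (siegel_mem_uR hTS hM (zero_mem _) e3))
      obtain ⟨-, d, hd, d1⟩ := dg φ.E (fun c => φ.siegel_mem_E hu (q1 c).1 (q1 c).2)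
        (fun c => φ.siegel_mem_E h.hyp'.Qe (q2 c).1 (q2 c).2) 1 one_ne_zero
      have t1 := tr d hd (d1 ▸ aM)
      rw [d1] at t1
      have d2 : (φ.siegel a (φ.ε • v) 0).1 u = u + a := by
        rw [φ.siegel_apply h.hyp'.Qe (q2 _).1 (q2 _).2, φ.B_symm_zero ua, φ.B_smul_left, h.hyp.Bfe]
        simp
      have t2 := tr _ (φ.siegel_mem_E h.hyp'.Qe (q2 φ.ε).1 (q2 _).2) (d2 ▸ M.add_mem uM aM)
      rw [d2] at t2
      have hs : φ.T s = 0 := by simpa using e3
      have hσ : φ.σ s = -(φ.ε * s) := by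
        have := φ.T_ker s hs
        rw [← φ.ε_mul_ε_mul (φ.σ s), eq_neg_of_add_eq_zero_right this]; ring
      have e5 : φ.B u (s • a) = 0 := by simp [ua]
      have e6 : φ.T 0 = φ.Q (s • a) := by rw [φ.Q_smul_of_sing h.hyp'.Qe, map_zero]
      have e7 : φ.siegel (u + a) 0 s = φ.siegel u (s • a) 0 * (φ.siegel u 0 s * φ.siegel a 0 s) := Isom.ext fun x => by
        rw [Isom.mul_apply, Isom.mul_apply, φ.siegel_apply (hTS.Q _ (M.add_mem uM aM)) (by simp) e3,
          φ.siegel_apply hu e5 e6, φ.siegel_apply hu e1 e3, φ.siegel_apply h.hyp'.Qe (by simp) e3]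
        simp only [map_zero, LinearMap.zero_apply, zero_smul, add_zero, smul_zero, sub_zero, map_add, map_sub,
          LinearMap.add_apply, φ.B_smul_left, φ.B_smul_right, ua, φ.B_symm_zero ua, h.hyp.Bee, h.hyp'.Bee, mul_zero, hσ,
          zero_mul]
        module
      rw [e7, T.mul_mem_cancel_right (mul_mem hzT t1)] at t2
      exact h.full hT' (Submodule.smul_mem _ _ h.ha) (smul_ne_zero s0 h.hyp'.e_ne_zero) e6 t2
    refine le_antisymm hT (syl_gen_top h.ns hS fun x w s h1 h2 h3 h4 => ?_)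
    by_cases x0 : x = 0
    · rw [x0, siegel_zero_left h3]; exact one_mem _
    obtain ⟨g, hg, c, c0, e⟩ := hc.exists_E_map_point h1 x0 hu u0
    have h5 := conj_mem_uR g (M' := F ∙ u) (fun y => by
      rw [mem_span_iff_map g x y, e, Submodule.span_singleton_smul_eq (IsUnit.mk0 c c0)]) (siegel_mem_uR_point h1 h2 h3)
    obtain ⟨w', s', f1, -, f3, f4⟩ := mem_uR_point h.hyp h5
    have := hcl _ (f4 ▸ full w' s' f1 f3) g⁻¹ (inv_mem hg) (by simpa [mul_assoc] using h4)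
    simpa [mul_assoc] using this
  · obtain ⟨c, e⟩ := Submodule.mem_span_singleton.1 (fx (n.1 u) fun g hg => by
      have := Su _ ((mem_normalizer_iff.1 (inv_mem hnS) g).1 hg)
      rwa [Isom.mul_apply, Isom.mul_apply, inv_inv, Isom.inv_apply_eq, eq_comm, eq_comm] at this)
    have c0 : c ≠ 0 := fun c0 => u0 (n.1.injective (by rw [← e, c0, zero_smul, map_zero]))
    have pm : ∀ x ∈ M, ∀ w s, φ.B x w = 0 → φ.T s = φ.Q w → φ.siegel x w s ∈ pN p φ.E (uR φ M) := fun x hx w s h1 h2 =>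
      mem_pN (φ.siegel_mem_E (hTS.Q x hx) h1 h2) (mem_normalizer_uR (siegel_mem_stab (hTS.Q x hx) h1 h2 hx
        (Or.inr (hTS.le_perp hx)))) (pEl_of_mem_uR p (siegel_mem_uR_point (hTS.Q x hx) h1 h2))
    obtain ⟨⟨d, hd, d1, -⟩, -⟩ := dg _ (fun c => pm u uM _ _ (q1 c).1 (q1 c).2) (fun c => pm a aM _ _ (q2 c).1 (q2 c).2) c c0
    have SD : S ≤ pN p φ.E (uR φ M) ⊓ φ.fix (F ∙ u) := fun g hg =>
      ⟨mem_pN (SE hg) (mem_normalizer_uR (SM hg)) (PEl.of_mem hS.pg hg), φ.mem_fix_span.2 (by simpa using Su g hg)⟩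
    obtain ⟨y, hy, k, hk, e'⟩ := (hS.mono SD le_top).frattini' (H := pN p φ.E (uR φ M) ⊓ φ.stab (F ∙ u))
      (fun g hg => mem_normalizer_fintype fun k hk => ⟨(pN p φ.E _).mul_mem (mul_mem hg.1 hk.1) (inv_mem hg.1),
        fun x hx => by
          rw [Isom.mul_apply, Isom.mul_apply, hk.2 _ ((φ.mem_stab.1 (inv_mem hg.2) x).1 hx), Isom.apply_inv_apply]⟩)
      (x := d) ⟨hd, mem_stab_span d1⟩
    have y1 : y.1 u = c • u := by
      rw [← d1, e', Isom.mul_apply, hk.2 u (Submodule.mem_span_singleton_self u)]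
    have y2 : y ∈ pN p φ.E (uR φ M) := by
      have := mul_mem hd (inv_mem hk.1)
      rwa [e', mul_inv_cancel_right] at this
    have m1 : (y⁻¹ * n).1 u = u := by
      rw [Isom.mul_apply, Isom.inv_apply_eq, y1, e]
    have mE : y⁻¹ * n ∈ φ.E := mul_mem (inv_mem (pN_le _ _ y2)) hn
    suffices y⁻¹ * n ∈ pN p φ.E (uR φ (F ∙ u)) by
      simpa using mul_mem (mem_nmT hy RM cM y2) (mem_nmT (mul_mem (inv_mem hy) hnS) Ru cu this)
    generalize y⁻¹ * n = m at m1 mE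
    have hB : φ.B u v = φ.B u (m.1 v) := by rw [← Isom.B_map m u v, m1]
    obtain ⟨s, h1, h2, h3⟩ := exists_siegel_map hu (y := v) (z := m.1 v) (by simp) hB (by rw [h.hyp.Bef]; exact one_ne_zero)
    have pf : ∀ g, g.1 u = u → PEl p g → g ∈ pN p φ.E (uR φ (F ∙ u)) := fun g h1 h2 =>
      mem_pN (mem_E_of_pEl h.ns h2) (mem_normalizer_uR (mem_stab_span (c := 1) (by simpa using h1))) h2
    have r1 := pf _ (siegel_apply_self hu h1 h2) (pEl_of_mem_uR p (siegel_mem_uR_point hu h1 h2))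
    have r2 := φ.siegel_mem_E hu h1 h2
    have r3 := siegel_apply_self hu h1 h2
    generalize φ.siegel u _ s = r at h3 r1 r2 r3
    have hUn := h.hyp.nondegOn.perp
    haveI := hUn.nondeg
    obtain ⟨g, hg⟩ : r⁻¹ * m ∈ (extHom hUn).range := by
      rw [range_extHom, perp_perp]
      refine φ.mem_fix_span.2 ?_
      rintro x (rfl | rfl)
      · rw [Isom.mul_apply, m1, Isom.inv_apply_eq, r3]
      · rw [Isom.mul_apply, Isom.inv_apply_eq, h3]
    have g1 := h.es ((mem_SIsom _).2 (by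
      rw [← det_extHom hUn, hg]; exact (mem_SIsom _).1 (E_le_SIsom (mul_mem (inv_mem r2) mE))) : g ∈ _)
    have g2 : g ∈ (pN p φ.E (uR φ (F ∙ u))).comap (extHom hUn) := by
      refine (closure_le _).2 ?_ g1
      rintro _ ⟨x, w, s, k1, k2, k3, rfl⟩
      exact pf _ (extHom_right hUn _ (φ.le_perp_perp _ (Submodule.subset_span (by simp))))
        ((pEl_of_mem_uR p (siegel_mem_uR_point k1 k2 k3)).map _)
    rw [mem_comap, hg] at g2
    simpa using mul_mem r1 g2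

theorem SK.simple {u v a a' : V} (h : SK φ u v a a') {G : Type*} [Group G] {ρ : G →* φ.Isom} (hρ : Rep φ ρ)
    (S : Sylow p (G ⧸ center G)) : (groupFusionSystem (S : Subgroup (G ⧸ center G))).IsSimple p := by
  haveI := finite_Isom (φ := φ)
  haveI := Finite.of_injective ρ hρ.inj
  obtain ⟨T, hT⟩ := h.crit (p := p)
  exact Crit.simple_quot hρ.inj (hρ.range_eq ▸ hT) (fun z hz => (hρ.noPCenter p).eq_one hz) S

omit [Finite F] [Finite V] [Fact p.Prime] [CharP F p] in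
theorem SIsom_le_E_two {q : ℕ} (h : φ.IsUnitary q) (hn : finrank F V = 2) : φ.SIsom ≤ φ.E := by
  obtain ⟨a, b, hyp⟩ := h.exists_hyp_of_two_le hn.ge
  intro g hg
  obtain ⟨k, hk, c, c0, e⟩ := h.conn.exists_E_map_point (p := g.1 a) (by simpa using hyp.Qe)
    (by simpa using hyp.e_ne_zero) hyp.Qe hyp.e_ne_zero
  have hB : φ.σ c * φ.B a ((k * g).1 b) = 1 := by
    rw [← φ.B_smul_left, ← e, ← Isom.mul_apply, Isom.B_map, hyp.Bef]
  have c1 : φ.σ c ≠ 0 := by simpa using c0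
  obtain ⟨s, h1, h2, h3⟩ := exists_siegel_map hyp.Qe (y := (k * g).1 b) (z := (φ.σ c)⁻¹ • b)
    (by rw [Isom.Q_map, φ.Q_smul_of_sing hyp.Qf, hyp.Qf])
    (by rw [φ.B_smul_right, hyp.Bef, mul_one]; exact eq_inv_of_mul_eq_one_right hB) (right_ne_zero_of_mul_eq_one hB)
  have r1 := φ.siegel_mem_E hyp.Qe h1 h2
  have r2 := siegel_apply_self hyp.Qe h1 h2
  generalize φ.siegel a _ s = r at h3 r1 r2
  have z : ∀ w, φ.B a w = 0 → φ.B b w = 0 → w = 0 := fun w h1 h2 => by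
    have := hyp.finrank_perp
    have h0 : φ.perp (Submodule.span F {a, b}) = ⊥ := Submodule.finrank_eq_zero.1 (by omega)
    exact (Submodule.mem_bot F).1 (h0 ▸ φ.mem_perp_pair.2 ⟨h1, h2⟩)
  have e1 : r * (k * g) = φ.rot a b c := eq_of_hyp hyp
    (by rw [Isom.mul_apply, Isom.mul_apply, e, map_smul, r2, φ.rot_apply_e hyp c0])
    (by rw [Isom.mul_apply, h3, φ.rot_apply_f hyp c0]) fun w h1 h2 => by rw [z w h1 h2]; simp
  have e2 : φ.σ c = c := by
    have := (mem_SIsom _).1 (mul_mem (E_le_SIsom r1) (mul_mem (E_le_SIsom hk) hg))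
    rw [e1, φ.det_rot hyp c0, mul_inv_eq_one₀ c1] at this
    exact this.symm
  suffices φ.rot a b c ∈ φ.E by
    rwa [← e1, φ.E.mul_mem_cancel_left r1, φ.E.mul_mem_cancel_left hk] at this
  obtain ⟨t, t0, ht⟩ := h.exists_skew
  obtain ⟨g1, k1, f1⟩ := exists_E_map_hyp hyp (w := 0) (s := t) (by simp) (by simp) (by simpa using ht) t0
  obtain ⟨g2, k2, f2⟩ := exists_E_map_hyp hyp (w := 0) (s := c * t) (by simp) (by simp) (by
    rw [h.herm.T_eq] at ht ⊢
    rw [map_mul, e2, ← mul_add, ht, mul_zero, φ.Q_zero]) (mul_ne_zero c0 t0)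
  have f3 : (g1⁻¹ * g2).1 a = c • a := by
    rw [Isom.mul_apply, Isom.inv_apply_eq, map_smul, f1, f2, smul_smul, mul_neg]
  have k3 := mul_mem (inv_mem k1) k2
  generalize g1⁻¹ * g2 = m at f3 k3
  have hB' : φ.σ c * φ.B a (m.1 b) = 1 := by rw [← φ.B_smul_left, ← f3, Isom.B_map, hyp.Bef]
  obtain ⟨s, h1, h2, h3⟩ := exists_siegel_map hyp.Qe (y := m.1 b) (z := (φ.σ c)⁻¹ • b)
    (by rw [Isom.Q_map, φ.Q_smul_of_sing hyp.Qf, hyp.Qf])
    (by rw [φ.B_smul_right, hyp.Bef, mul_one]; exact eq_inv_of_mul_eq_one_right hB') (right_ne_zero_of_mul_eq_one hB')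
  have := mul_mem (φ.siegel_mem_E hyp.Qe h1 h2) k3
  convert this using 1
  exact (eq_of_hyp hyp (by rw [Isom.mul_apply, f3, map_smul, siegel_apply_self hyp.Qe h1 h2, φ.rot_apply_e hyp c0])
    (by rw [Isom.mul_apply, h3, φ.rot_apply_f hyp c0]) fun w h1 h2 => by rw [z w h1 h2]; simp).symm

omit [Finite F] [Finite V] [Fact p.Prime] [CharP F p] in
theorem sk_unitary {q : ℕ} (h : φ.IsUnitary q) (hn : 4 ≤ finrank F V) : ∃ u v a a', SK φ u v a a' := by
  obtain ⟨u, v, hyp⟩ := h.exists_hyp_of_two_le (by omega)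
  haveI := hyp.nondegOn.perp.nondeg
  have hd := hyp.finrank_perp
  obtain ⟨a, a', hyp'⟩ := (h.restrict (φ.perp (Submodule.span F {u, v}))).exists_hyp_of_two_le (by omega)
  refine ⟨u, v, a, a', hyp, ⟨hyp'.Qe, hyp'.Qf, hyp'.Bef⟩, a.2, a'.2, fun x hx => h.herm.Q_eq x ▸ hx, h.exists_skew, ?_,
    Or.inl fun t ht => ?_⟩
  · by_cases e : finrank F (φ.perp (Submodule.span F {u, v})) = 2
    · exact SIsom_le_E_two (h.restrict _) e
    · exact ((h.restrict _).E_eq_SIsom (by omega)).ge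
  · obtain ⟨θ, hθ⟩ := h.exists_T_eq (c := 1) (map_one _)
    rw [h.herm.T_eq] at ht hθ
    refine ⟨θ * t, ?_⟩
    rw [h.herm.ε_eq, map_mul]
    linear_combination (-t) * hθ + φ.σ θ * ht

omit [Finite V] [Fact p.Prime] [CharP F p] in
theorem sk_alt (h : IsAltF φ) (hε : φ.ε = -1) (hn : 4 ≤ finrank F V) (hx : 3 ≤ Nat.card F ∨ 5 ≤ finrank F V) :
    ∃ u v a a', SK φ u v a a' := by
  haveI : Nontrivial V := Module.nontrivial_of_finrank_pos (R := F) (by omega)
  obtain ⟨u, u0⟩ := exists_ne (0 : V)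
  obtain ⟨v, hyp⟩ := φ.exists_hyp (h.Q_eq u) u0
  haveI := hyp.nondegOn.perp.nondeg
  have hd := hyp.finrank_perp
  haveI : Nontrivial (φ.perp (Submodule.span F {u, v})) := Module.nontrivial_of_finrank_pos (R := F) (by omega)
  obtain ⟨a, a0⟩ := exists_ne (0 : φ.perp (Submodule.span F {u, v}))
  obtain ⟨a', hyp'⟩ := (φ.restrict _).exists_hyp (h.Q_eq a) a0
  have hy : φ.IsHyp a a' := ⟨hyp'.Qe, hyp'.Qf, hyp'.Bef⟩
  refine ⟨u, v, a, a', hyp, hy, a.2, a'.2, fun x hx => (hx (h.Q_eq x)).elim,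
    ⟨1, one_ne_zero, by simp [h.T_eq]⟩, by rw [E_eq_top_of_isAltF (h.restrict _)]; exact le_top, ?_⟩
  by_cases h2 : (2 : F) = 0
  · refine Or.inr ⟨h, h2, ?_⟩
    rcases hx with hx | hx
    · haveI := Fintype.ofFinite F
      classical
      obtain ⟨c, -, hc⟩ := Finset.exists_mem_notMem_of_card_lt_card (s := {0, -1}) (t := (Finset.univ : Finset F))
        (Finset.card_le_two.trans_lt (by rw [Finset.card_univ, ← Nat.card_eq_fintype_card]; omega))
      simp only [Finset.mem_insert, Finset.mem_singleton, not_or] at hc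
      refine ⟨c • a, Submodule.smul_mem _ _ a.2, a, a.2, smul_ne_zero hc.1 hy.e_ne_zero, hy.e_ne_zero, ?_,
        by rw [φ.B_smul_left, hy.Bee, mul_zero]⟩
      rw [show c • (a : V) + a = (c + 1) • (a : V) by module]
      exact smul_ne_zero (fun e => hc.2 (eq_neg_of_add_eq_zero_left e)) hy.e_ne_zero
    · have hd' := hyp'.finrank_perp
      haveI : Nontrivial ((φ.restrict _).perp (Submodule.span F {a, a'})) :=
        Module.nontrivial_of_finrank_pos (R := F) (by omega)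
      obtain ⟨b, b0⟩ := exists_ne (0 : (φ.restrict _).perp (Submodule.span F {a, a'}))
      obtain ⟨b1, b2⟩ := (φ.restrict _).mem_perp_pair.1 b.2
      refine ⟨b.1, b.1.2, a, a.2, fun e => b0 (Subtype.ext (Subtype.ext e)), hy.e_ne_zero, fun e => ?_,
        φ.B_symm_zero b1⟩
      have := congrArg (φ.B a') e
      rw [map_add, hy.Bfe, map_zero, show φ.B a' b.1 = 0 from b2, zero_add] at this
      exact φ.ε_ne_zero this
  · exact Or.inl fun t _ => ⟨t / 2, by rw [hε, h.σ_eq]; field_simp; ring⟩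

end H04
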