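import Cfsg.Agent.L.Jt0
import Cfsg.Agent.H05.TZa
import Cfsg.Agent.H02.TZ2

/-! Part Z1 of S5563: wrapper around `H05.TZ.core`. -/

set_option autoImplicit false
open Cfsg BG Subgroup

namespace H04.TZ1
universe u

theorem z1' (pf : commutator Spor.M22 = ⊤) : L.Jt.Z1Stmt.{u} := by
  intro G _ _ A N B D z δ θ cf v th
  have zA := cf.BA cf.zB
  have cz : ∀ x ∈ A, x ∈ C_[z] := fun x hx => mem_centralizer_singleton_iff.2 (by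
    have h1 := cf.sq _ (mul_mem hx zA)
    rw [← inv_eq_of_mul_eq_one_right h1, mul_inv_rev, inv_eq_of_mul_eq_one_right (cf.sq x hx),
      inv_eq_of_mul_eq_one_right (cf.sq z zA)])
  refine H05.TZ.core pf (W := A ⊓ C_[δ]) (D := D) θ th.sur (fun x h => (th.ker x).1 h) th.dc
    (fun x hx => mem_inf.2 ⟨cz x hx.1, hx.2⟩)
    (mem_inf.2 ⟨zA, mem_centralizer_singleton_iff.2 (mem_centralizer_singleton_iff.1 v.δz).symm⟩)
    (fun x hx => cf.sq x hx.1) (fun h => (cf.DA 1 h).2 rfl) cf.zD (fun x hx xD y hy yD yz => ?_) v.ex ?_ ?_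
  · obtain ⟨c, c1, c2, c3, h | h⟩ := v.tr x hx (cf.DA x xD).2 (fun e => cf.zD (e ▸ xD)) y hy (cf.DA y yD).2 (fun e => cf.zD (e ▸ yD))
    · exact ⟨c, mem_inf.2 ⟨c2, c3⟩, h⟩
    · exact absurd (h ▸ cf.Dc c c1 x xD) yz
  · obtain ⟨s, s1, s2, t, t1, t2, h⟩ := v.p1
    exact ⟨s, s1, mem_inf.2 ⟨(cf.DA s s1).1, s2⟩, t, t1, mem_inf.2 ⟨(cf.DA t t1).1, t2⟩, h⟩
  · obtain ⟨s, s1, s2, t, t1, t2, h⟩ := v.p2
    exact ⟨s, s1, mem_inf.2 ⟨(cf.DA s s1).1, s2⟩, t, t1, mem_inf.2 ⟨(cf.DA t t1).1, t2⟩, h⟩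

theorem z1 : L.Jt.Z1Stmt.{u} := z1' Cfsg.Agent.H02.TZ2.per

end H04.TZ1
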