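import Cfsg.Agent.H05.Tu0
import Cfsg.Agent.L.DicksonF
import Cfsg.Agent.S0253

/-! Finite subgroups of `PSL₂` over the algebraic closure with a Sylow subgroup of order `p` (part D for `H05.Tu`). -/

set_option autoImplicit false

namespace H04.TuD
open Matrix H05.Tu L.Dk H09 H17 Subgroup
open scoped MatrixGroups

universe u

theorem fld (p : ℕ) [hp : Fact p.Prime] (h5 : 5 ≤ p) (F : Type) [Field F] [Fintype F] [CharP F p] {n c : ℕ}
    (hc : c = 1 ∨ c = 2) (h : c * n = Fintype.card F * (Fintype.card F ^ 2 - 1)) (sq : ¬ p ^ 2 ∣ n) : Nonempty (F ≃+* ZMod p) := by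
  obtain ⟨k, -, hk⟩ := FiniteField.card F p
  have : (k : ℕ) = 1 := by
    by_contra! a
    have : p ^ 2 ∣ c * n := by
      rw [h, hk]; exact (pow_dvd_pow p (by have := k.2; change 0 < (k : ℕ) at this; omega)).mul_right _
    refine sq (Nat.Coprime.dvd_of_dvd_mul_left (Nat.Coprime.pow_left _ ?_) this)
    rcases hc with rfl | rfl
    · simp
    · exact (Nat.coprime_primes hp.out Nat.prime_two).2 (by omega)
  exact ⟨(ZMod.ringEquivOfPrime F hp.out (by rw [hk, this, pow_one])).symm⟩

theorem d : H05.Tu.DStmt.{u} := by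
  intro H _ _ p hp x s h5 π hπ
  let ψ : H →* PGL(2, K p) := ProjectiveSpecialLinearGroup.toPGL.comp π
  have hψ : Function.Injective ψ := ProjectiveSpecialLinearGroup.toPGL_injective.comp hπ
  let e : H ≃* ψ.range := MonoidHom.ofInjective hψ
  haveI : Finite ψ.range := Finite.of_equiv _ e.toEquiv
  have xp0 : x ^ p = 1 := by have := pow_orderOf_eq_one x; rwa [s.o] at this
  have xp : ψ x ^ p = 1 := by rw [← map_pow, xp0, map_one]
  have x1 : ψ x ≠ 1 := fun a => hp.out.ne_one (by rw [← s.o, hψ (a.trans (map_one ψ).symm), orderOf_one])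
  have pd : p ∣ Nat.card H := s.o ▸ orderOf_dvd_natCard x
  have no : ∀ n, Nat.card H = n → n ∣ 120 → p = 5 ∧ 5 ∣ n := fun n a b => by
    have c := Nat.le_of_dvd (by norm_num) ((a ▸ pd).trans b)
    have d := (a ▸ pd).trans b
    have : p = 5 := by
      have := hp.out
      interval_cases p <;> first | rfl | (exfalso; revert d this; decide)
    exact ⟨this, this ▸ a ▸ pd⟩
  rcases cls p ψ.range with ⟨y, h⟩ | ⟨y, z, yz, h, -⟩ | ⟨⟨f⟩⟩ | ⟨⟨f⟩⟩ | ⟨⟨f⟩⟩ | ⟨F₀, hF, σ, h⟩ | ⟨F₀, hF, σ, h⟩
  · left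
    obtain ⟨σ, f, -, hf⟩ := exists_mult ψ.range h
    have k : ∀ g : H, g ∈ (f.comp e.toMonoidHom).ker ↔ g ^ p = 1 := fun g => by
      obtain ⟨b, hb⟩ := hf (e g)
      change ψ g = _ at hb
      rw [← hψ.eq_iff, map_pow, map_one, hb, conj_pow, conj_eq_one_iff, aff_pow_char_iff]; rfl
    have hN : IsPGroup p (f.comp e.toMonoidHom).ker := fun g => ⟨1, Subtype.ext (by rw [pow_one]; exact (k g).1 g.2)⟩
    obtain ⟨n, hn⟩ := hN.exists_card_eq
    have : zpowers x = (f.comp e.toMonoidHom).ker := by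
      refine eq_of_le_of_card_ge (zpowers_le.2 ((k x).2 xp0)) ?_
      rw [Nat.card_zpowers, s.o, hn]
      have : n ≤ 1 := by
        by_contra! a
        exact s.sq ((pow_dvd_pow p a).trans (hn ▸ card_subgroup_dvd_card _))
      exact (Nat.pow_le_pow_right hp.out.pos this).trans (pow_one p).le
    rw [this]; infer_instance
  · exfalso
    rcases h _ ⟨x, rfl⟩ with a | a
    · exact pow_char_ne_of_fix_two p x1 yz a.1 a.2 xp
    · have := orderOf_dvd_of_pow_eq_one (x := ψ x) (n := 2) (by rw [pow_two]; exact sq_eq_one_of_swap yz a.1 a.2)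
      rw [orderOf_injective ψ hψ, s.o] at this
      have := Nat.le_of_dvd (by norm_num) this
      omega
  · have := (no 12 (by rw [Nat.card_congr (e.trans f).toEquiv, nat_card_alternatingGroup]; simp [Nat.factorial])
      (by norm_num)).2
    omega
  · have := (no 24 (by rw [Nat.card_congr (e.trans f).toEquiv, Nat.card_perm]; simp [Nat.factorial]) (by norm_num)).2
    omega
  · have := (no 60 (by rw [Nat.card_congr (e.trans f).toEquiv, nat_card_alternatingGroup]; simp [Nat.factorial])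
      (by norm_num)).1
    obtain ⟨g⟩ := Cfsg.Agent.S0253.result (F := ZMod p) (by rw [ZMod.card, this])
    exact .inr (.inl ⟨(e.trans f).trans g.symm⟩)
  · letI := Fintype.ofFinite F₀
    have g : H ≃* PGL(2, F₀) := e.trans ((MulEquiv.subgroupCongr h).trans
      ((cjEquiv σ _).symm.trans (MonoidHom.ofInjective (map_injective F₀.subtype)).symm))
    obtain ⟨φ⟩ := fld p h5 F₀ (.inl rfl) (by rw [one_mul, Nat.card_congr g.toEquiv, card_PGL2]) s.sq
    exact .inr (.inr ⟨g.trans (pglMapEquiv φ)⟩)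
  · letI := Fintype.ofFinite F₀
    have g : H ≃* PSL(2, F₀) := e.trans ((MulEquiv.subgroupCongr h).trans
      ((cjEquiv σ _).symm.trans (((pslRange F₀).equivMapOfInjective _ (map_injective F₀.subtype)).symm.trans
        (pslEquiv F₀).symm)))
    obtain ⟨φ⟩ := fld p h5 F₀ (dd_cases.imp And.right And.right) (by rw [Nat.card_congr g.toEquiv, card_psl]) s.sq
    exact .inr (.inl ⟨g.trans (pslMapEquiv φ)⟩)

end H04.TuD
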