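import Cfsg.Agent.H06.W0

/-! Part Sc of S5568: strong closure of `A` with respect to the centralizer of `t`. -/

set_option autoImplicit false
open Cfsg BG Subgroup L.Fz Cfsg.Agent.H06.J Cfsg.Agent.H06.W

namespace H04.WS
universe u

theorem cm2 {G : Type u} [Group G] {E : Subgroup G} (h : ∀ g ∈ E, g * g = 1) {a b : G} (ha : a ∈ E) (hb : b ∈ E) :
    a * b = b * a := by
  have h1 := h _ (mul_mem ha hb)
  have h2 : a⁻¹ = a := inv_eq_of_mul_eq_one_right (h a ha)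
  have h3 : b⁻¹ = b := inv_eq_of_mul_eq_one_right (h b hb)
  rw [← inv_eq_of_mul_eq_one_right h1, mul_inv_rev, h2, h3]

theorem rt {G : Type u} [Group G] [Finite G] {A : Subgroup G} (a2 : ∀ g ∈ A, g * g = 1) (cA : Nat.card A = 2048) {m : G}
    (m2 : m * m = 1) (hm : ∀ v ∈ A, m * v * m⁻¹ ∈ A) : 8 < Nat.card ↥(A ⊓ centralizer {m}) := by
  let φ : A →* A := MonoidHom.mk' (fun v => ⟨v * (m * v * m⁻¹), mul_mem v.2 (hm v v.2)⟩) fun a b => Subtype.ext (by
    change (a : G) * b * (m * (a * b) * m⁻¹) = a * (m * a * m⁻¹) * (b * (m * b * m⁻¹))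
    calc _ = (a : G) * (b * (m * a * m⁻¹)) * (m * b * m⁻¹) := by group
      _ = _ := by rw [cm2 a2 b.2 (hm a a.2)]; group)
  have hφ : ∀ v : A, (φ v : G) = v * (m * v * m⁻¹) := fun v => rfl
  have mi : m⁻¹ = m := inv_eq_of_mul_eq_one_right m2
  have k1 : φ.ker ≤ (A ⊓ centralizer {m}).subgroupOf A := fun v hv => by
    have h : (v : G) * (m * v * m⁻¹) = 1 := (hφ v).symm.trans (congrArg Subtype.val hv)
    have h2 : m * v * m⁻¹ = v := (inv_eq_of_mul_eq_one_right h).symm.trans (inv_eq_of_mul_eq_one_right (a2 v v.2))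
    exact mem_subgroupOf.2 (mem_inf.2 ⟨v.2, mem_centralizer_singleton_iff.2 (mul_inv_eq_iff_eq_mul.1 h2).symm⟩)
  have k2 : φ.range ≤ (A ⊓ centralizer {m}).subgroupOf A := by
    rintro _ ⟨v, rfl⟩
    refine mem_subgroupOf.2 (mem_inf.2 ⟨(φ v).2, mem_centralizer_singleton_iff.2 ?_⟩)
    rw [hφ]
    calc (v : G) * (m * v * m⁻¹) * m = m * ((m * v * m⁻¹) * v) := by
          rw [← cm2 a2 v.2 (hm v v.2), cm2 a2 v.2 (hm v v.2), mi]
          calc m * v * m * v * m = m * v * m * v * m := rfl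
            _ = m * (v * (m * v * m)) := by group
            _ = m * (m * v * m * v) := by have := cm2 a2 v.2 (hm v v.2); rw [mi] at this; rw [this]
      _ = m * (v * (m * v * m⁻¹)) := by rw [cm2 a2 v.2 (hm v v.2)]
  have c1 := card_le_of_le k1
  have c2 := card_le_of_le k2
  rw [Nat.card_congr (subgroupOfEquivOfLe inf_le_left).toEquiv] at c1 c2
  have c3 := φ.ker.card_mul_index
  rw [index_ker, cA] at c3
  by_contra h
  push Not at h
  nlinarith

theorem pm {Ω : Type u} (c : Nat.card Ω = 24) (g1 g2 : Equiv.Perm Ω) (s1 : g1 * g1 = 1) (s2 : g2 * g2 = 1) (cm : g1 * g2 = g2 * g1)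
    (h2 : 16 ≤ {i | g2 i ≠ i}.ncard) (h3 : 16 ≤ {i | (g1 * g2) i ≠ i}.ncard)
    (key : ∀ i j, i ≠ j → (g1 i = i ∧ g1 j = j ∨ g1 i = j ∧ g1 j = i) → i = g2 i ∨ i = g2 j ∨ j = g2 i ∨ j = g2 j) : False := by
  haveI : Finite Ω := Nat.finite_of_card_ne_zero (by omega)
  have e1 : ∀ i, g1 (g1 i) = i := fun i => Equiv.congr_fun s1 i
  have e2 : ∀ i, g2 (g2 i) = i := fun i => Equiv.congr_fun s2 i
  have e3 : ∀ i, g1 (g2 i) = g2 (g1 i) := fun i => Equiv.congr_fun cm i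
  have mv : ∀ i, g1 i ≠ i → g2 i = i ∨ g2 i = g1 i := fun i hi => by
    rcases key i (g1 i) hi.symm (Or.inr ⟨rfl, e1 i⟩) with h | h | h | h
    · exact Or.inl h.symm
    · exact Or.inr ((congrArg g2 h).trans (e2 _))
    · exact Or.inr h.symm
    · exact Or.inl (g1.injective ((e3 i).trans h.symm))
  have fm : {i | g1 i = i ∧ g2 i ≠ i}.ncard ≤ 2 := by
    rcases Set.eq_empty_or_nonempty {i | g1 i = i ∧ g2 i ≠ i} with h | ⟨i, hi⟩
    · rw [h]; simp
    · refine (Set.ncard_le_ncard (t := {i, g2 i}) fun j hj => ?_).trans ((Set.ncard_insert_le _ _).trans (by simp))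
      by_cases ij : i = j
      · exact Or.inl ij.symm
      rcases key i j ij (Or.inl ⟨hi.1, hj.1⟩) with h | h | h | h
      · exact absurd h.symm hi.2
      · exact Or.inr ((e2 j).symm.trans (congrArg g2 h).symm)
      · exact Or.inr h
      · exact absurd h.symm hj.2
  have a2 : {i | g2 i ≠ i} ⊆ ({i | g1 i ≠ i} ∩ {i | g2 i ≠ i}) ∪ {i | g1 i = i ∧ g2 i ≠ i} := fun i hi => by
    by_cases h : g1 i = i
    · exact Or.inr ⟨h, hi⟩
    · exact Or.inl ⟨h, hi⟩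
  have a3 : {i | (g1 * g2) i ≠ i} ⊆ ({i | g1 i ≠ i} \ {i | g2 i ≠ i}) ∪ {i | g1 i = i ∧ g2 i ≠ i} := fun i hi => by
    have hi' : g1 (g2 i) ≠ i := hi
    by_cases h : g1 i = i
    · exact Or.inr ⟨h, fun k => hi' (by rw [k, h])⟩
    · exact Or.inl ⟨h, fun k => (mv i h).elim k fun k2 => hi' (by rw [k2, e1])⟩
  have b2 := (Set.ncard_le_ncard a2).trans (Set.ncard_union_le _ _)
  have b3 := (Set.ncard_le_ncard a3).trans (Set.ncard_union_le _ _)
  have b4 := Set.ncard_inter_add_ncard_sdiff_eq_ncard {i | g1 i ≠ i} {i | g2 i ≠ i}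
  have b5 := Set.ncard_le_card {i | g1 i ≠ i}
  omega

theorem sc : ScStmt.{u} := by
  intro G _ _ A M B D z Ω τ σ cf tr xc ker mu pu t ht x hx w hw zw wM
  by_contra wA
  have xt : x * t = t * x := mem_centralizer_singleton_iff.1 hx
  have tA := (cf.DA t ht).1
  have mV : ∀ v, v ∈ cj x A ↔ x⁻¹ * v * x ∈ A := fun v => mem_cj
  have V2 : ∀ v ∈ cj x A, v * v = 1 := fun v hv => by
    have := cf.sq _ ((mV v).1 hv)
    calc v * v = x * (x⁻¹ * v * x * (x⁻¹ * v * x)) * x⁻¹ := by group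
      _ = 1 := by rw [this]; group
  have tV : t ∈ cj x A := (mV t).2 (by rw [mul_assoc, ← xt, inv_mul_cancel_left]; exact tA)
  have o1 : ∀ a ∈ A, IsConj z a → ∀ g, g * a = a * g → g * t = t * g → g ∈ M := fun a ha za g h1 h2 => by
    have a1 : a ≠ 1 := fun e => cf.z1 (isConj_one_left.1 (e ▸ za))
    obtain ⟨m, hm, e⟩ := cf.trZ a ha a1 fun h => ((xc.hD a ha).1 h).2 za
    have := xc.ci _ (cf.Dc _ (inv_mem hm) t ht) (mem_inf.2 ⟨mem_centralizer_singleton_iff.2 (show m⁻¹ * g * m * z = z * (m⁻¹ * g * m) by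
        calc m⁻¹ * g * m * z = m⁻¹ * (g * (m * z * m⁻¹)) * m := by group
          _ = _ := by rw [e, h1, ← e]; group),
      mem_centralizer_singleton_iff.2 (by
        calc m⁻¹ * g * m * (m⁻¹ * t * m⁻¹⁻¹) = m⁻¹ * (g * t) * m := by group
          _ = _ := by rw [h2]; group)⟩)
    have := mul_mem (mul_mem hm this) (inv_mem hm)
    simpa [mul_assoc] using this
  have o2 : ∀ g, g * w = w * g → g * t = t * g → ∀ v ∈ cj x A, g * v * g⁻¹ ∈ cj x A := fun g h1 h2 v hv => by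
    have h := o1 _ ((mV w).1 hw) (zw.trans (isConj_iff.2 ⟨x⁻¹, by rw [inv_inv]⟩)) (x⁻¹ * g * x)
      (by calc x⁻¹ * g * x * (x⁻¹ * w * x) = x⁻¹ * (g * w) * x := by group
            _ = _ := by rw [h1]; group)
      (by calc x⁻¹ * g * x * t = x⁻¹ * (g * t) * x := by rw [mul_assoc, xt]; group
            _ = x⁻¹ * (t * x) * (x⁻¹ * g * x) := by rw [h2]; group
            _ = _ := by rw [← xt]; group)
    have := cf.nM _ h _ ((mV v).1 hv)
    exact (mV _).2 (by convert this using 1; group)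
  have I1 : ∀ a ∈ A ⊓ cj x A, a ≠ 1 → a ∈ D := fun a ha a1 => (xc.hD a ha.1).2 ⟨a1, fun za =>
    wA (xc.un x (fun v hv => o1 a ha.1 za v (cm2 V2 hv ha.2) (cm2 V2 hv tV)) ▸ hw)⟩
  have I4 := pu _ I1
  obtain ⟨a, ha, a1, aD⟩ : ∃ a ∈ A ⊓ centralizer {w}, a ≠ 1 ∧ a ∉ D := by
    by_contra h
    push Not at h
    have := pu _ h
    have := rt cf.sq cf.cA (V2 w hw) (cf.nM w wM)
    omega
  have za : IsConj z a := by by_contra h; exact aD ((xc.hD a ha.1).2 ⟨a1, h⟩)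
  have UN : ∀ g ∈ A, g * w = w * g → ∀ v ∈ cj x A, g * v * g⁻¹ ∈ cj x A := fun g hg h => o2 g h (cm2 cf.sq hg tA)
  have cV : Nat.card (cj x A) = 2048 := by rw [card_cj, cf.cA]
  obtain ⟨r, hr, rA, wrA⟩ : ∃ r ∈ cj x A ⊓ centralizer {a}, r ∉ A ∧ w * r ∉ A := by
    by_contra h
    push Not at h
    have h1 := rt V2 cV (cf.sq a ha.1) (UN a ha.1 (mem_centralizer_singleton_iff.1 ha.2))
    have h2 : ((cj x A ⊓ centralizer {a} : Subgroup G) : Set G) ⊆ (A ⊓ cj x A : Subgroup G) ∪ (fun y => w * y) '' (A ⊓ cj x A : Subgroup G) :=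
      fun r hr => by
        by_cases k : r ∈ A
        · exact Or.inl ⟨k, hr.1⟩
        · exact Or.inr ⟨w * r, ⟨h r hr k, mul_mem hw hr.1⟩, by simp only [← mul_assoc, V2 w hw, one_mul]⟩
    have h3 := (Set.ncard_le_ncard h2).trans (Set.ncard_union_le _ _)
    have h4 := Set.ncard_image_le (f := fun y => w * y) (s := ((A ⊓ cj x A : Subgroup G) : Set G))
    change 8 < ((cj x A ⊓ centralizer {a} : Subgroup G) : Set G).ncard at h1
    change ((A ⊓ cj x A : Subgroup G) : Set G).ncard ≤ 4 at I4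
    omega
  have rM : r ∈ M := o1 a ha.1 za r (mem_centralizer_singleton_iff.1 hr.2) (cm2 V2 hr.1 tV)
  have sq : ∀ (v : M), (v : G) ∈ cj x A → σ v * σ v = 1 := fun v hv => by
    rw [← map_mul, show v * v = 1 from Subtype.ext (V2 v hv), map_one]
  refine pm tr.card (σ ⟨w, wM⟩) (σ ⟨r, rM⟩) (sq _ hw) (sq _ hr.1)
    (by rw [← map_mul, ← map_mul]; exact congrArg σ (Subtype.ext (cm2 V2 hw hr.1)))
    (mu _ (sq _ hr.1) fun e => rA (ker _ e))
    (by rw [← map_mul]; exact mu _ (sq _ (mul_mem hw hr.1)) fun e => wrA (ker _ e)) fun i j ij h => ?_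
  by_contra n
  push Not at n
  obtain ⟨n1, n2, n3, n4⟩ := n
  have vA := (cf.DA _ (tr.mem i j ij)).1
  have vw : w * τ i j * w⁻¹ = τ i j := by
    refine (tr.act ⟨w, wM⟩ i j).trans ?_
    rcases h with ⟨h1, h2⟩ | ⟨h1, h2⟩
    · rw [h1, h2]
    · rw [h1, h2, tr.symm]
  have vr : r * τ i j * r⁻¹ = τ (σ ⟨r, rM⟩ i) (σ ⟨r, rM⟩ j) := tr.act ⟨r, rM⟩ i j
  have vi : (τ i j)⁻¹ = τ i j := inv_eq_of_mul_eq_one_right (cf.sq _ vA)
  have m1 : τ i j * (r * τ i j * r⁻¹) ∈ A ⊓ cj x A := by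
    refine mem_inf.2 ⟨mul_mem vA (cf.nM r rM _ vA), ?_⟩
    have := mul_mem (UN _ vA (mul_inv_eq_iff_eq_mul.1 vw).symm r hr.1) (inv_mem hr.1)
    rw [vi] at this
    simpa only [mul_assoc] using this
  rw [vr] at m1
  refine tr.non i j _ _ ij n1 n2 n3 n4 (fun e => ij ((σ ⟨r, rM⟩).injective e)) (I1 _ m1 fun e => ?_)
  rcases tr.inj i j _ _ ij (vi.symm.trans (inv_eq_of_mul_eq_one_right e)) with h | h
  · exact n1 h.1
  · exact n2 h.1

end H04.WS
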