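import Cfsg.Agent.H04.WS

/-! Part W of S5568: the centralizer of `t` normalizes `A`. -/

set_option autoImplicit false
open Cfsg BG Subgroup L.Fz Cfsg.Agent.H06.J Cfsg.Agent.H06.W H04.WS

namespace H04.WW
universe u

/-- the group generated by two commuting involutions -/
def four {G : Type u} [Group G] {s t : G} (ss : s * s = 1) (tt : t * t = 1) (c : s * t = t * s) : Subgroup G where
  carrier := {v | v = 1 ∨ v = s ∨ v = t ∨ v = s * t}
  one_mem' := Or.inl rfl
  mul_mem' := by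
    have e1 : ∀ x, s * (s * x) = x := fun x => by rw [← mul_assoc, ss, one_mul]
    have e2 : ∀ x, t * (s * x) = s * (t * x) := fun x => by rw [← mul_assoc, ← c, mul_assoc]
    rintro a b (h | h | h | h) (k | k | k | k) <;> simp [h, k, mul_assoc, e1, e2, ss, tt, ← c]
  inv_mem' := by
    have i1 : s⁻¹ = s := inv_eq_of_mul_eq_one_right ss
    have i2 : t⁻¹ = t := inv_eq_of_mul_eq_one_right tt
    rintro a (h | h | h | h) <;> simp [h, i1, i2, ← c]

theorem w (di : DiStmt.{u}) : WStmt.{u} := by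
  intro G _ _ A M B D z Ω τ σ cf tr xc pu sc t ht
  haveI : Finite Ω := Nat.finite_of_card_ne_zero (by rw [tr.card]; omega)
  have ex : ∀ a b c d : Ω, ∃ k, a ≠ k ∧ b ≠ k ∧ c ≠ k ∧ d ≠ k := fun a b c d => by
    by_contra h
    have h1 : (Set.univ : Set Ω) ⊆ {a, b, c, d} := fun k _ => by
      by_contra n
      simp only [Set.mem_insert_iff, Set.mem_singleton_iff, not_or] at n
      exact h ⟨k, Ne.symm n.1, Ne.symm n.2.1, Ne.symm n.2.2.1, Ne.symm n.2.2.2⟩
    have h2 := Set.ncard_le_ncard h1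
    have h3 := Set.ncard_insert_le a ({b, c, d} : Set Ω)
    have h4 := Set.ncard_insert_le b ({c, d} : Set Ω)
    have h5 := Set.ncard_insert_le c ({d} : Set Ω)
    rw [Set.ncard_univ, tr.card] at h2
    rw [Set.ncard_singleton] at h5
    omega
  have tA : ∀ i j, τ i j ∈ A := fun i j => by
    by_cases h : i = j
    · rw [h, tr.refl]; exact one_mem _
    · exact (cf.DA _ (tr.mem i j h)).1
  have cm : ∀ {a b : G}, a ∈ A → b ∈ A → a * b = b * a := fun ha hb => cm2 cf.sq ha hb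
  have zt : ∀ i j k l, i ≠ j → i ≠ k → i ≠ l → j ≠ k → j ≠ l → k ≠ l → IsConj z (τ i j * τ k l) := fun i j k l h1 h2 h3 h4 h5 h6 => by
    by_contra n
    refine tr.non i j k l h1 h2 h3 h4 h5 h6 ((xc.hD _ (mul_mem (tA i j) (tA k l))).2 ⟨fun e => ?_, n⟩)
    rcases tr.inj i j k l h1 ((inv_eq_of_mul_eq_one_right (cf.sq _ (tA i j))).symm.trans (inv_eq_of_mul_eq_one_right e)) with h | h
    · exact h2 h.1
    · exact h3 h.1
  have nz : ∀ v ∈ D, ∀ y v', y * v * y⁻¹ = v' → ¬ IsConj z v' := fun v hv y v' e h =>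
    ((xc.hD v (cf.DA v hv).1).1 hv).2 (h.trans (isConj_iff.2 ⟨y, e⟩).symm)
  have n1 : ¬ IsConj z 1 := fun e => cf.z1 (isConj_one_left.1 e)
  have o1 : ∀ t ∈ D, ∀ a ∈ A, IsConj z a → ∀ g, g * a = a * g → g * t = t * g → g ∈ M := fun t ht a ha za g h1 h2 => by
    obtain ⟨m, hm, e⟩ := cf.trZ a ha (fun e => n1 (e ▸ za)) fun h => ((xc.hD a ha).1 h).2 za
    have := xc.ci _ (cf.Dc _ (inv_mem hm) t ht) (mem_inf.2 ⟨mem_centralizer_singleton_iff.2 (show m⁻¹ * g * m * z = z * (m⁻¹ * g * m) by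
        calc m⁻¹ * g * m * z = m⁻¹ * (g * (m * z * m⁻¹)) * m := by group
          _ = _ := by rw [e, h1, ← e]; group),
      mem_centralizer_singleton_iff.2 (by
        calc m⁻¹ * g * m * (m⁻¹ * t * m⁻¹⁻¹) = m⁻¹ * (g * t) * m := by group
          _ = _ := by rw [h2]; group)⟩)
    have := mul_mem (mul_mem hm this) (inv_mem hm)
    simpa [mul_assoc] using this
  have V2 : ∀ x, ∀ v ∈ cj x A, v * v = 1 := fun x v hv => by
    have := cf.sq _ (mem_cj.1 hv)
    calc v * v = x * (x⁻¹ * v * x * (x⁻¹ * v * x)) * x⁻¹ := by group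
      _ = 1 := by rw [this]; group
  have tV : ∀ x, ∀ t ∈ A, x * t = t * x → t ∈ cj x A := fun x t tA xt =>
    mem_cj.2 (by rw [mul_assoc, ← xt, inv_mul_cancel_left]; exact tA)
  have sh : ∀ {y a b f g : G}, y * a * y⁻¹ * b = f → b * b = 1 → y * g = g * y → y * (g * a) * y⁻¹ = g * f * b :=
    fun {y a b f g} h bb c => by
      rw [← h, ← mul_assoc y, c]
      calc g * y * a * y⁻¹ = g * y * a * y⁻¹ * (b * b) := by rw [bb, mul_one]
        _ = _ := by group
  have s1 : ∀ p q r, p ≠ q → p ≠ r → q ≠ r → C_[τ p r] ⊓ C_[τ p q] ≤ M := fun p q r pq pr qr => by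
    obtain ⟨k, pk, qk, rk, -⟩ := ex p q r r
    obtain ⟨l, pl, ql, rl, kl⟩ := ex p q r k
    have ss := cf.sq _ (tA p r)
    have tt := cf.sq _ (tA p q)
    have st : τ p r * τ p q = τ r q := by rw [tr.symm p r, tr.mul]
    have mF : ∀ v, v ∈ four ss tt (cm (tA p r) (tA p q)) ↔ v = 1 ∨ v = τ p r ∨ v = τ p q ∨ v = τ p r * τ p q := fun v => Iff.rfl
    have mY : ∀ y, y ∈ C_[τ p r] ⊓ C_[τ p q] → y * τ p r = τ p r * y ∧ y * τ p q = τ p q * y := fun y h =>
      ⟨mem_centralizer_singleton_iff.1 h.1, mem_centralizer_singleton_iff.1 h.2⟩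
    have nF : ∀ v, IsConj z v → v ∉ four ss tt (cm (tA p r) (tA p q)) := fun v zv h => by
      rcases (mF v).1 h with e | e | e | e
      · exact n1 (e ▸ zv)
      · exact nz _ (tr.mem p r pr) 1 v (by simp [e]) zv
      · exact nz _ (tr.mem p q pq) 1 v (by simp [e]) zv
      · exact nz _ (tr.mem r q qr.symm) 1 v (by simp [e, st]) zv
    have za := zt p q r k pq pr pk qr qk rk
    have zb := zt p q k l pq pk pl qk ql kl
    have bb := cf.sq _ (mul_mem (tA p q) (tA k l))
    rw [xc.hM]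
    refine di (F := four ss tt (cm (tA p r) (tA p q))) (fun y hy v hv => ?_) (fun v hv => ?_)
      (fun v hv => mem_inf.2 ⟨mem_centralizer_singleton_iff.2 (cm hv (tA _ _)), mem_centralizer_singleton_iff.2 (cm hv (tA _ _))⟩)
      cf.sq (fun y hy ne => ?_) (fun y hy w hw zw wN => sc _ (tr.mem p q pq) y hy.2 w hw zw (xc.hM ▸ wN))
      (mul_mem (tA p q) (tA r k)) (mul_mem (tA p q) (tA k l)) za zb (nF _ za) (nF _ zb) fun y hy h => ?_
    · obtain ⟨h1, h2⟩ := mY y hy
      rcases (mF v).1 hv with e | e | e | e <;> rw [e]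
      · simp
      · exact h1.symm
      · exact h2.symm
      · rw [mul_assoc, ← h2, ← mul_assoc, ← h1, mul_assoc]
    · rcases (mF v).1 hv with e | e | e | e <;> rw [e]
      exacts [one_mem _, tA _ _, tA _ _, mul_mem (tA _ _) (tA _ _)]
    · obtain ⟨h1, h2⟩ := mY y hy
      have sI : τ p r ∈ A ⊓ cj y A := mem_inf.2 ⟨tA _ _, tV y _ (tA _ _) h1⟩
      have tI : τ p q ∈ A ⊓ cj y A := mem_inf.2 ⟨tA _ _, tV y _ (tA _ _) h2⟩
      have I4 := pu (A ⊓ cj y A) fun a ha a1 => (xc.hD a ha.1).2 ⟨a1, fun za =>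
        ne (xc.un y fun v hv => o1 _ (tr.mem p q pq) a ha.1 za v (cm2 (V2 y) hv ha.2) (cm2 (V2 y) hv tI.2))⟩
      refine (eq_of_le_of_card_ge (fun v hv => ?_) (I4.trans ?_)).ge
      · rcases (mF v).1 hv with e | e | e | e <;> rw [e]
        exacts [one_mem _, sI, tI, mul_mem sI tI]
      · have d1 := (cf.DA _ (tr.mem p r pr)).2
        have d2 := (cf.DA _ (tr.mem p q pq)).2
        have d3 := (cf.DA _ (tr.mem r q qr.symm)).2
        have d4 : τ p r ≠ τ p q := fun e => d3 (by rw [← st, e, tt])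
        change 4 ≤ ({1, τ p r, τ p q, τ p r * τ p q} : Set G).ncard
        rw [Set.ncard_insert_of_notMem (by simp [d1.symm, d2.symm, st, d3.symm]),
          Set.ncard_insert_of_notMem (by simp [d4, d2]), Set.ncard_pair (by simp [d1])]
    · obtain ⟨h1, h2⟩ := mY y hy
      have at' : τ p q * (τ p q * τ r k) ∈ D := by rw [← mul_assoc, tt, one_mul]; exact tr.mem r k rk
      have as' : τ p r * (τ p q * τ r k) ∈ D := by rw [← mul_assoc, st, tr.symm r q, tr.mul]; exact tr.mem q k qk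
      have sb : IsConj z (τ p r * (τ p q * τ k l)) := by rw [← mul_assoc, st]; exact zt r q k l qr.symm rk rl qk ql kl
      have c := cm (tA p r) (tA p q)
      rcases (mF _).1 h with e | e | e | e
      · exact nz _ as' y _ (sh e bb h1) (by rw [mul_one]; exact sb)
      · exact nz _ at' y _ (sh e bb h2) (by
          rw [← c, mul_assoc, ← mul_assoc (τ p q), tt, one_mul]; exact zt p r k l pr pk pl rk rl kl)
      · exact nz _ at' y _ (sh e bb h2) (by rw [tt, one_mul]; exact zb)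
      · exact nz _ at' y _ (sh e bb h2) (by rw [c, ← mul_assoc (τ p q) (τ p q) (τ p r), tt, one_mul]; exact sb)
  obtain ⟨p, q, pq, rfl⟩ := tr.surj t ht
  obtain ⟨r, pr, qr, -, -⟩ := ex p q q q
  obtain ⟨k, pk, qk, rk, -⟩ := ex p q r r
  obtain ⟨l, pl, ql, rl, kl⟩ := ex p q r k
  have tt := cf.sq _ (tA p q)
  have mF : ∀ v, v ∈ four tt tt rfl → v = 1 ∨ v = τ p q := fun v h => by
    rcases h with e | e | e | e
    exacts [Or.inl e, Or.inr e, Or.inr e, Or.inl (e.trans tt)]
  have nF : ∀ v, IsConj z v → v ∉ four tt tt rfl := fun v zv h => by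
    rcases mF v h with e | e
    · exact n1 (e ▸ zv)
    · exact nz _ ht 1 v (by simp [e]) zv
  have za := zt p q r k pq pr pk qr qk rk
  have zb := zt p r k l pr pk pl rk rl kl
  have bb := cf.sq _ (mul_mem (tA p r) (tA k l))
  rw [xc.hM]
  refine di (F := four tt tt rfl) (fun y hy v hv => ?_) (fun v hv => ?_)
    (fun v hv => mem_centralizer_singleton_iff.2 (cm hv (tA _ _)))
    cf.sq (fun y hy ne v hv => ?_) (fun y hy w hw zw wN => sc _ ht y hy w hw zw (xc.hM ▸ wN))
    (mul_mem (tA p q) (tA r k)) (mul_mem (tA p r) (tA k l)) za zb (nF _ za) (nF _ zb) fun y hy h => ?_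
  · rcases mF v hv with e | e <;> rw [e]
    · simp
    · exact (mem_centralizer_singleton_iff.1 hy).symm
  · rcases mF v hv with e | e <;> rw [e]
    exacts [one_mem _, tA _ _]
  · by_contra n
    have v1 : v ≠ 1 := fun e => n (Or.inl e)
    have vt : v ≠ τ p q := fun e => n (Or.inr (Or.inl e))
    have tI := tV y _ (tA p q) (mem_centralizer_singleton_iff.1 hy)
    refine ne (xc.un y fun g hg => ?_)
    have g1 := cm2 (V2 y) hg hv.2
    have g2 := cm2 (V2 y) hg tI
    by_cases z1 : IsConj z v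
    · exact o1 _ ht v hv.1 z1 g g1 g2
    by_cases z2 : IsConj z (v * τ p q)
    · exact o1 _ ht _ (mul_mem hv.1 (tA p q)) z2 g (by rw [← mul_assoc, g1, mul_assoc, g2, mul_assoc]) g2
    obtain ⟨i, j, ij, rfl⟩ := tr.surj v ((xc.hD v hv.1).2 ⟨v1, z1⟩)
    have c1 := mem_centralizer_singleton_iff.2 g1
    have c2 := mem_centralizer_singleton_iff.2 g2
    by_cases ip : i = p
    · subst ip; exact s1 i q j pq ij (fun e => vt (e ▸ rfl)) (mem_inf.2 ⟨c1, c2⟩)
    by_cases jp : j = p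
    · subst jp; rw [tr.symm i j] at c1 vt
      exact s1 j q i pq ij.symm (fun e => vt (e ▸ rfl)) (mem_inf.2 ⟨c1, c2⟩)
    rw [tr.symm p q] at c2
    by_cases iq : i = q
    · subst iq; exact s1 i p j pq.symm ij (Ne.symm jp) (mem_inf.2 ⟨c1, c2⟩)
    by_cases jq : j = q
    · subst jq; rw [tr.symm i j] at c1
      exact s1 j p i pq.symm ij.symm (Ne.symm ip) (mem_inf.2 ⟨c1, c2⟩)
    exact absurd (zt i j p q ij ip iq jp jq pq) z2
  · have h2 := mem_centralizer_singleton_iff.1 hy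
    have at' : τ p q * (τ p q * τ r k) ∈ D := by rw [← mul_assoc, tt, one_mul]; exact tr.mem r k rk
    rcases mF _ h with e | e
    · exact nz _ at' y _ (sh e bb h2) (by
        rw [mul_one, ← mul_assoc, tr.symm p q, tr.mul]; exact zt q r k l qr qk ql rk rl kl)
    · exact nz _ at' y _ (sh e bb h2) (by rw [tt, one_mul]; exact zb)

end H04.WW
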