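import Cfsg.Agent.H04.WS
import Cfsg.Agent.H04.KN89
import Cfsg.Agent.H08.WP

/-! Part Pb of S5569, with the extra hypothesis `[A, t] ≤ W`. -/

set_option autoImplicit false
open Cfsg BG Subgroup L.Fz H04.WS

namespace H04.YP
universe u

theorem pb {G : Type u} [Group G] [Finite G] {A N B W : Subgroup G} {D : Set G} {z t g : G} {Ω : Type u}
    {τ : Ω → Ω → G} {σ : N →* Equiv.Perm Ω} (cf : Cf A N B D z) (tr : Tr N D τ σ) (tN : t ∈ N) (t2 : t * t = 1)
    (cC : Nat.card ↥(A ⊓ C_[t]) = 128) (WC : W ≤ A ⊓ C_[t]) (cW : Nat.card W = 64) (gN : g ∈ N) (gA : g ∉ A) (g7 : g ^ 7 ∈ A)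
    (gt : t⁻¹ * (g * t * g⁻¹) ∈ A) (hR : ∀ a ∈ A, a * t * a⁻¹ * t ∈ W) : ∃ w ∈ W, g * w * g⁻¹ ∉ W := by
  by_contra n
  push Not at n
  haveI : Fact (Nat.Prime 7) := ⟨by norm_num⟩
  have cm : ∀ {a b : G}, a ∈ A → b ∈ A → a * b = b * a := fun ha hb => cm2 cf.sq ha hb
  have ti : t⁻¹ = t := inv_eq_of_mul_eq_one_right t2
  set h := g * g ^ 7 with hh
  have hN : h ∈ N := mul_mem gN (cf.AM g7)
  have h7 : h ^ 7 = 1 := by
    rw [hh, ← pow_succ', ← pow_mul, show (7 + 1) * 7 = 7 * 2 * 4 from rfl, pow_mul, pow_mul, sq, cf.sq _ g7, one_pow]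
  have act : ∀ a ∈ A, h * a * h⁻¹ = g * a * g⁻¹ := fun a ha => by
    rw [hh, mul_assoc g, cm g7 ha]; group
  have h1 : h ≠ 1 := fun e => gA (by
    have : g = (g ^ 7)⁻¹ := eq_inv_of_mul_eq_one_left e
    rw [this]; exact inv_mem g7)
  have le4 : Nat.card ↥(A ⊓ centralizer {h}) ≤ 4 := _root_.H08.WP.pu tr _ fun a ha a1 => by
    by_contra aD
    obtain ⟨m, hm, e⟩ := cf.trZ a ha.1 a1 aD
    have c : a * h = h * a := mem_centralizer_singleton_iff.1 ha.2
    have k : m⁻¹ * h * m ∈ N ⊓ centralizer {z} := mem_inf.2 ⟨mul_mem (mul_mem (inv_mem hm) hN) hm,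
      mem_centralizer_singleton_iff.2 (by
        calc m⁻¹ * h * m * z = m⁻¹ * (h * (m * z * m⁻¹)) * m := by group
          _ = _ := by rw [e, ← c, ← e]; group)⟩
    have o : orderOf (m⁻¹ * h * m) = 7 := orderOf_eq_prime (by
      have := conj_pow (a := m⁻¹) (b := h) (i := 7)
      rw [inv_inv] at this; rw [this, h7]; group) fun e => h1 (by
        calc h = m * (m⁻¹ * h * m) * m⁻¹ := by group
          _ = 1 := by rw [e]; group)
    have := (o ▸ Subgroup.orderOf_dvd_natCard _ k).trans cf.cN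
    norm_num at this
  let φ : A →* G := MonoidHom.mk' (fun v => v * (t * v * t⁻¹)) fun a b => by
    change (a : G) * b * (t * (a * b) * t⁻¹) = a * (t * a * t⁻¹) * (b * (t * b * t⁻¹))
    calc _ = (a : G) * (b * (t * a * t⁻¹)) * (t * b * t⁻¹) := by group
      _ = _ := by rw [cm b.2 (cf.nM t tN a a.2)]; group
  have hφ : ∀ v : A, φ v = v * (t * v * t⁻¹) := fun v => rfl
  have kφ : φ.ker = (A ⊓ C_[t]).subgroupOf A := by
    ext v
    rw [MonoidHom.mem_ker, hφ, mem_subgroupOf, mem_inf, mem_centralizer_singleton_iff]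
    constructor
    · intro e
      have h2 : t * v * t⁻¹ = v := (inv_eq_of_mul_eq_one_right e).symm.trans (inv_eq_of_mul_eq_one_right (cf.sq v v.2))
      exact ⟨v.2, (mul_inv_eq_iff_eq_mul.1 h2).symm⟩
    · rintro ⟨-, e⟩
      rw [← e, mul_inv_cancel_right, cf.sq v v.2]
  have cR : Nat.card φ.range = 16 := by
    have c3 := φ.ker.card_mul_index
    rw [index_ker, cf.cA, kφ, Nat.card_congr (subgroupOfEquivOfLe inf_le_left).toEquiv, cC] at c3
    omega
  have RW : φ.range ≤ W := by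
    rintro _ ⟨v, rfl⟩
    have := hR v v.2
    rw [inv_eq_of_mul_eq_one_right (cf.sq v v.2)] at this
    rw [hφ, ti]; simpa only [mul_assoc] using this
  have WA : W ≤ A := WC.trans inf_le_left
  have f1 := H04.KN89.fp 7 h7 φ.range (by
    rintro _ ⟨v, rfl⟩
    rw [act _ (WA (RW ⟨v, rfl⟩))]
    refine ⟨⟨g * v * g⁻¹, cf.nM g gN v v.2⟩, ?_⟩
    rw [hφ, hφ]
    have c := cm gt (cf.nM g gN v v.2)
    change g * v * g⁻¹ * (t * (g * v * g⁻¹) * t⁻¹) = _
    calc g * v * g⁻¹ * (t * (g * v * g⁻¹) * t⁻¹)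
        = g * v * g⁻¹ * t * ((g * v * g⁻¹) * (t⁻¹ * (g * t * g⁻¹))) * (g * t⁻¹ * g⁻¹) := by group
      _ = _ := by rw [← c]; group)
  have f2 := H04.KN89.fp 7 h7 W fun w hw => by rw [act w (WA hw)]; exact n w hw
  have l1 : Nat.card ↥(φ.range ⊓ centralizer {h}) ≤ Nat.card ↥(W ⊓ centralizer {h}) := card_le_of_le (inf_le_inf_right _ RW)
  have l2 : Nat.card ↥(W ⊓ centralizer {h}) ≤ Nat.card ↥(A ⊓ centralizer {h}) := card_le_of_le (inf_le_inf_right _ WA)
  rw [cR] at f1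
  rw [cW] at f2
  unfold Nat.ModEq at f1 f2
  omega

end H04.YP
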