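import Cfsg.Agent.H04.YP
import Cfsg.Agent.H23.Y1

/-! Part Pb2 of S5569 in the form of the interface. -/

set_option autoImplicit false

namespace H04.YQ
universe u

theorem pb2 : Cfsg.Agent.H23.Y.Pb2Stmt.{u} := by
  intro G _ _ A N B W D z t g Ω τ σ cf tr tN t2 cC WC cW hR _ gN gA g7 gt
  refine H04.YP.pb cf tr tN t2 cC WC cW gN gA g7 gt fun a ha => ?_
  have := hR a ha
  rw [inv_eq_of_mul_eq_one_right t2] at this
  rw [inv_eq_of_mul_eq_one_right (cf.sq a ha)]
  simpa only [mul_assoc] using this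

end H04.YQ
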